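import Cfsg.Agent.CLAS.D4.A1

/-!
# Block A, II: monomial frames
-/

set_option autoImplicit false

namespace CL.D4.A

open Matrix

variable {k : Type*} [Field k]

theorem exists_diag (h2 : (2 : k) ≠ 0) {T : G2 k} (h : T * T = 1) (h1 : T ≠ 1) (h1' : T ≠ -1) :
    ∃ X : G2 k, ∃ c : kˣ, T * X = X * mu ⟨c, -c, false⟩ := by
  have key : ∀ T : G2 k, T * T = 1 → T ≠ 1 → T ≠ -1 → T.1 0 0 ≠ -1 → ∃ X : G2 k, T * X = X * mu ⟨1, -1, false⟩ := by
    intro T h h1 h1' h0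
    have e := fun i j => congrArg (fun A : G2 k => A.1 i j) h
    have e1 := e 0 0
    have e2 := e 0 1
    have e3 := e 1 0
    have e4 := e 1 1
    simp [Matrix.mul_apply, Fin.sum_univ_two] at e1 e2 e3 e4
    have e5 : T.1 0 0 + T.1 1 1 = 0 := by
      by_contra n
      have b : T.1 0 1 = 0 := (mul_eq_zero.1 (by linear_combination e2)).resolve_left n
      have c : T.1 1 0 = 0 := (mul_eq_zero.1 (by linear_combination e3)).resolve_left n
      have a : T.1 0 0 = 1 := (mul_self_eq_one_iff.1 (by linear_combination e1 - T.1 1 0 * b)).resolve_right h0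
      have d : T.1 1 1 = 1 := (mul_self_eq_one_iff.1 (by linear_combination e4 - T.1 1 0 * b)).resolve_right
        fun d => n (by linear_combination a + d)
      exact h1 (by ext i j; fin_cases i <;> fin_cases j <;> simp [a, b, c, d])
    refine ⟨.mkOfDetNeZero !![1 + T.1 0 0, -T.1 0 1; T.1 1 0, 1 + T.1 0 0] fun n => h0 ?_, ?_⟩
    · rw [det_fin_two_of] at n
      exact mul_left_cancel₀ h2 (by linear_combination n - e1)
    · ext i j
      fin_cases i <;> fin_cases j <;> simp [mu_val, Matrix.mul_apply, Fin.sum_univ_two]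
      · linear_combination e1
      · ring
      · linear_combination e3
      · linear_combination e5 + T.1 0 0 * e5 - e1
  by_cases h0 : T.1 0 0 = -1
  · obtain ⟨X, e⟩ := key (-T) (by simpa using h) (fun e => h1' (by rw [← e, neg_neg])) (fun e => h1 (neg_inj.1 e))
      fun e => h2 (by simp only [Units.val_neg, Matrix.neg_apply] at e; linear_combination h0 + e)
    exact ⟨X, -1, by rw [neg_mul, neg_eq_iff_eq_neg, ← mul_neg, ← mu_neg] at e; exact e⟩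
  · exact (key T h h1 h1' h0).imp fun X e => ⟨1, e⟩

theorem mono_of (h2 : (2 : k) ≠ 0) {x : G2 k} {c ε : kˣ} (h : x * mu ⟨c, -c, false⟩ = ss ε * (mu ⟨c, -c, false⟩ * x)) :
    ∃ d, x = mu d := by
  have e := fun i j => congrArg (fun A : G2 k => A.1 i j) h
  have e1 := e 0 0
  have e2 := e 0 1
  have e3 := e 1 0
  have e4 := e 1 1
  simp [Matrix.mul_apply, Fin.sum_univ_two, mu_val, ss_val, vecMul, dotProduct] at e1 e2 e3 e4
  have d := x.det_ne_zero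
  rw [det_fin_two] at d
  have hc := c.ne_zero
  by_cases h0 : (ε : k) = 1
  · have b : x.1 0 1 = 0 := by grind
    have b' : x.1 1 0 = 0 := by grind
    refine ⟨⟨.mk0 (x.1 0 0) (by grind), .mk0 (x.1 1 1) (by grind), false⟩, ?_⟩
    ext i j; fin_cases i <;> fin_cases j <;> simp [mu_val, b, b']
  · have b : x.1 0 0 = 0 := by grind
    have b' : x.1 1 1 = 0 := by grind
    refine ⟨⟨.mk0 (x.1 0 1) (by grind), .mk0 (x.1 1 0) (by grind), true⟩, ?_⟩
    ext i j; fin_cases i <;> fin_cases j <;> simp [mu_val, b, b']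

theorem exists_sqrt [IsAlgClosed k] (c : kˣ) : ∃ d : kˣ, d * d = c := by
  obtain ⟨d, hd⟩ := IsAlgClosed.exists_eq_mul_self (c : k)
  exact ⟨.mk0 d fun e => c.ne_zero (by rw [hd, e, mul_zero]), Units.ext hd.symm⟩

/-- finite projective `2`-groups in dimension two are monomial -/
theorem exists_mono [IsAlgClosed k] (h2 : (2 : k) ≠ 0) {H : Type*} [Group H] [Finite H] (hH : IsPGroup 2 H)
    (R : H → G2 k → Prop) (ex : ∀ h, ∃ x, R h x) (mul : ∀ {a b x y}, R a x → R b y → R (a * b) (x * y))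
    (one : ∀ {x}, R 1 x → ∃ c, x = ss c) : ∃ X : G2 k, ∀ h x, R h x → ∃ d, X⁻¹ * x * X = mu d := by
  let Z := (ss : kˣ →* G2 k).range
  have : Z.Normal := ⟨by rintro _ ⟨c, rfl⟩ g; exact ⟨c, by rw [← ss_comm, mul_inv_cancel_right]⟩⟩
  choose r hr using ex
  have u : ∀ {h x}, R h x → (x : G2 k ⧸ Z) = r h := fun {h x} e => by
    obtain ⟨c, e1⟩ := one (inv_mul_cancel h ▸ mul (hr h⁻¹) e)
    obtain ⟨d, e2⟩ := one (inv_mul_cancel h ▸ mul (hr h⁻¹) (hr h))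
    refine mul_left_cancel (a := (r h⁻¹ : G2 k ⧸ Z)) ?_
    rw [← QuotientGroup.mk_mul, ← QuotientGroup.mk_mul, e1, e2, (QuotientGroup.eq_one_iff (N := Z) _).2 ⟨c, rfl⟩,
      (QuotientGroup.eq_one_iff (N := Z) _).2 ⟨d, rfl⟩]
  let f : H →* G2 k ⧸ Z := MonoidHom.mk' (fun h => r h) fun a b => (u (mul (hr a) (hr b))).symm
  rcases subsingleton_or_nontrivial f.range with h | h
  · refine ⟨1, fun a x e => ?_⟩
    obtain ⟨c, hc⟩ := (QuotientGroup.eq_one_iff _).1 ((u e).trans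
      (congrArg Subtype.val (Subsingleton.elim (f.rangeRestrict a) 1)))
    exact ⟨sc c, by simp [mu_sc, hc]⟩
  have hp := hH.of_surjective _ f.rangeRestrict_surjective
  have := Finite.of_surjective _ f.rangeRestrict_surjective
  have := hp.center_nontrivial
  obtain ⟨n, h0, hn⟩ := (hp.to_subgroup (Subgroup.center f.range)).nontrivial_iff_card.1 this
  obtain ⟨⟨⟨_, a, rfl⟩, ha⟩, h3⟩ := exists_prime_orderOf_dvd_card' (G := Subgroup.center f.range) 2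
    (hn ▸ dvd_pow_self 2 h0.ne')
  rw [← Subgroup.orderOf_coe, ← Subgroup.orderOf_coe] at h3
  obtain ⟨h4, h5⟩ := orderOf_eq_prime_iff.1 h3
  obtain ⟨c, hc⟩ : r a ^ 2 ∈ Z := (QuotientGroup.eq_one_iff _).1 h4
  obtain ⟨d, rfl⟩ := exists_sqrt c
  have h6 : ∀ e : kˣ, ss d⁻¹ * r a ≠ ss e := fun e h => h5 ((QuotientGroup.eq_one_iff _).2
    ⟨d * e, by rw [map_mul, ← h, map_inv, mul_inv_cancel_left]⟩)
  obtain ⟨X, c, hX⟩ := exists_diag h2 (T := ss d⁻¹ * r a) (by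
    rw [mul_assoc, ss_left _ (r a), ← sq (r a), ← hc, ← map_mul, ← map_mul]; simp)
    (by simpa using h6 1) (by simpa [ss_neg_one] using h6 (-1))
  refine ⟨X, fun b x e => ?_⟩
  have h7 : (x : G2 k ⧸ Z) * r a = r a * x := by
    rw [u e]; exact congrArg Subtype.val (Subgroup.mem_center_iff.1 ha (f.rangeRestrict b))
  obtain ⟨ε, hε⟩ : (r a * x)⁻¹ * (x * r a) ∈ Z := QuotientGroup.eq.1 h7.symm
  refine mono_of h2 (c := c) (ε := ε) ?_
  rw [← inv_mul_eq_iff_eq_mul.2 hX, ← mul_assoc X⁻¹]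
  have h8 : x * r a = ss ε * (r a * x) := by rw [ss_comm, hε, mul_inv_cancel_left]
  calc _ = X⁻¹ * (x * (ss d⁻¹ * r a)) * X := by group
    _ = X⁻¹ * (ss ε * (ss d⁻¹ * r a * x)) * X := by rw [ss_left _ x, h8, ss_left ε, mul_assoc (ss d⁻¹)]
    _ = _ := by rw [ss_left]; group

variable {G : Type*} [Group G] {L : G4 k → G → Prop} {z g h : G} {S : Sylow 2 G} {x y x' y' : Dm k} {i : kˣ}

/-- `g` is block diagonal with monomial blocks `x`, `y` -/
def E (L : G4 k → G → Prop) (g : G) (x y : Dm k) : Prop := L (bl (mu x, mu y)) g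

namespace Lf

variable (H : Lf L)
include H

theorem emul (h1 : E L g x y) (h2 : E L h x' y') : E L (g * h) (x * x') (y * y') := by
  simpa only [E, bl_mul, map_mul] using H.mul h1 h2

theorem einv (h1 : E L g x y) : E L g⁻¹ x⁻¹ y⁻¹ := by
  simpa only [E, bl_inv, map_inv] using H.inv h1

theorem eone : E L 1 x y ↔ ∃ c, x = sc c ∧ y = sc c := H.one.trans (exists_congr fun c => by
  rw [← bl_ss, ← mu_sc]
  exact ⟨fun h => ⟨mu_inj (bl_inj h).1, mu_inj (bl_inj h).2⟩, fun h => by rw [h.1, h.2]⟩)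

theorem esc (h1 : E L g x y) (c : kˣ) : E L g (sc c * x) (sc c * y) := by
  simpa using H.emul (H.eone.2 ⟨c, rfl, rfl⟩) h1

theorem eneg (h1 : E L g x y) : E L g (-x) (-y) := by
  simpa [sc_neg] using H.esc h1 (-1)

theorem efn (h1 : E L g x y) (h2 : E L h x y) : g = h := H.fn h1 h2

theorem euniq (h1 : E L g x y) (h2 : E L g x' y') : ∃ c, x' = sc c * x ∧ y' = sc c * y := by
  obtain ⟨c, e1, e2⟩ := H.eone.1 (mul_inv_cancel g ▸ H.emul h2 (H.einv h1))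
  exact ⟨c, mul_inv_eq_iff_eq_mul.1 e1, mul_inv_eq_iff_eq_mul.1 e2⟩

theorem epow (h1 : E L g x y) (n : ℕ) : E L (g ^ n) (x ^ n) (y ^ n) := by
  have := H.pow h1 n
  rwa [← map_pow, Prod.pow_mk, ← map_pow, ← map_pow] at this

theorem eswap {t : G} (ht : L (om k) t) (h1 : E L g x y) : E L (t * g * t⁻¹) y x := by
  simpa only [E, om_bl, mul_inv_cancel_right] using H.conj h1 ht

theorem ecs {ε : kˣ} (h1 : E L g x y) (h2 : E L h x' y') :
    Cs L ε g h ↔ x * x' = sc ε * (x' * x) ∧ y * y' = sc ε * (y' * y) := by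
  rw [H.cs_iff h1 h2, ← bl_ss, bl_mul, bl_mul, bl_mul, ← mu_sc]
  simp only [← map_mul]
  exact ⟨fun h => ⟨mu_inj (bl_inj h).1, mu_inj (bl_inj h).2⟩, fun h => by rw [h.1, h.2]⟩

omit H in
theorem tr_mu (h : x * x = 1) : x = 1 ∨ x = -1 ∨ (mu x).1.trace = 0 := by
  rcases x with ⟨p, q, _ | _⟩
  · simp only [mu_val, cond_false, trace_fin_two_of]
    dsimpm at h ⊢
    grind
  · simp [mu_val]

theorem noJ1 (h1 : E L g x 1) (h : x * x = 1) : x = 1 ∨ x = -1 := by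
  rcases tr_mu h with e | e | e
  exacts [.inl e, .inr e, by
    rcases H.noJ h1 (by rw [bl_mul, ← map_mul, h]; simp [bl_one]) with a | a | a
    · exact .inl (mu_inj (by rw [map_one]; exact (bl_inj (a.trans bl_one.symm)).1))
    · rw [← bl_one, ← bl_neg] at a
      exact absurd ((map_one mu).symm.trans (bl_inj a).2) (ne_neg H.two _)
    · rw [tr_bl, e] at a
      exact absurd (by simpa using a) H.two]

theorem noJ2 (h1 : E L g 1 y) (h : y * y = 1) : y = 1 ∨ y = -1 := by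
  rcases tr_mu h with e | e | e
  exacts [.inl e, .inr e, by
    rcases H.noJ h1 (by rw [bl_mul, ← map_mul, ← map_mul, h]; simp [bl_one]) with a | a | a
    · exact .inl (mu_inj (by rw [map_one]; exact (bl_inj (a.trans bl_one.symm)).2))
    · rw [← bl_one, ← bl_neg] at a
      exact absurd ((map_one mu).symm.trans (bl_inj a).1) (ne_neg H.two _)
    · rw [tr_bl, e] at a
      exact absurd (by simpa using a) H.two]

theorem eep {ε : kˣ} (h1 : E L g x y) (h : Ep L ε g) : ∃ c : kˣ, c ^ 4 * (dt x * dt y) = 1 ∧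
    sc (c ^ 4) * x ^ 4 = sc ε ∧ sc (c ^ 4) * y ^ 4 = sc ε := by
  obtain ⟨A, h2, h3, h4⟩ := h
  obtain ⟨c, rfl⟩ := H.uniq h1 h2
  rw [← bl_ss, bl_mul, ← mu_sc, ← map_mul, ← map_mul] at h3 h4
  rw [det_bl, det_mu, det_mu, map_mul, map_mul, dt_sc] at h3
  rw [← map_pow, Prod.pow_mk, ← map_pow, ← map_pow, ← bl_ss, ← mu_sc, (Commute.mul_pow (sc_comm c x)),
    (Commute.mul_pow (sc_comm c y)), ← map_pow] at h4
  exact ⟨c, Units.ext (by push_cast at h3 ⊢; linear_combination h3), mu_inj (bl_inj h4).1, mu_inj (bl_inj h4).2⟩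

omit H [Group G] in
theorem ep_of {ε : kˣ} (h1 : E L g x y) (h2 : dt x = 1) (h3 : dt y = 1) (h4 : x ^ 4 = sc ε) (h5 : y ^ 4 = sc ε) :
    Ep L ε g := ⟨_, h1, by simp [det_bl, det_mu, h2, h3], by
  rw [← map_pow, Prod.pow_mk, ← map_pow, ← map_pow, h4, h5, mu_sc, bl_ss]⟩

theorem etr (h1 : E L g x y) : Tr L g ↔ (mu x).1.trace + (mu y).1.trace ≠ 0 := by
  refine ⟨fun ⟨A, h2, h3⟩ e => h3 ?_, fun h => ⟨_, h1, by rwa [tr_bl]⟩⟩
  obtain ⟨c, rfl⟩ := H.uniq h1 h2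
  rw [← tr_bl] at e
  simp [tr, ss_val, e]

end Lf

/-- a frame: the block diagonal elements of `S` are monomial -/
structure Pre (L : G4 k → G → Prop) (z : G) (S : Sylow 2 G) : Prop extends Lf L where
  hz : L (ZZ k) z
  mono : ∀ s ∈ S, ∀ x y, L (bl (x, y)) s → ∃ x' y', x = mu x' ∧ y = mu y'

/-- a frame with a root quaternion group -/
structure Fm (L : G4 k → G → Prop) (z : G) (S : Sylow 2 G) (i : kˣ) : Prop extends Pre L z S where
  ii : i * i = -1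
  ri : ∃ s ∈ S, E L s (dg i) 1
  rw : ∃ s ∈ S, E L s (ww k) 1

theorem Lf.pre (H : Lf L) (hz : L (ZZ k) z) (X Y : G2 k)
    (h : ∀ s ∈ S, ∀ x y, L (bl (x, y)) s → ∃ x' y', X⁻¹ * x * X = mu x' ∧ Y⁻¹ * y * Y = mu y') :
    Pre (fun A g => L (bl (X, Y) * A * (bl (X, Y))⁻¹) g) z S where
  toLf := H.cb _
  hz := by simpa [bl_inv, bl_mul] using hz
  mono s hs x y e := by
    rw [bl_inv, bl_mul, bl_mul] at e
    simpa [mul_assoc] using h s hs _ _ e

theorem Lf.exists_fm [IsAlgClosed k] [Finite G] (H : Lf L) (hz : L (ZZ k) z) {a b : G} (ha : a ∈ S) (hb : b ∈ S)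
    {u v : G2 k} (h1 : L (bl (u, 1)) a) (h2 : L (bl (v, 1)) b) (uu : u * u = -1) (vv : v * v = -1)
    (uv : u * v = -(v * u)) : ∃ (L : G4 k → G → Prop) (i : kˣ), Fm L z S i := by
  let D : Subgroup G :=
    { carrier := {s | s ∈ S ∧ ∃ x y, L (bl (x, y)) s}
      mul_mem' := fun ⟨a, _, _, b⟩ ⟨c, _, _, d⟩ => ⟨mul_mem a c, _, _, by simpa only [bl_mul] using H.mul b d⟩
      one_mem' := ⟨one_mem _, 1, 1, H.one.2 ⟨1, by simp [bl_one]⟩⟩
      inv_mem' := fun ⟨a, _, _, b⟩ => ⟨inv_mem a, _, _, by simpa only [bl_inv] using H.inv b⟩ }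
  have hD : IsPGroup 2 D := S.isPGroup'.to_le fun _ h => h.1
  have o : ∀ {x y}, L (bl (x, y)) 1 → ∃ c, x = ss c ∧ y = ss c := fun e =>
    (H.one.1 e).imp fun c e => bl_inj (e.trans (bl_ss c).symm)
  obtain ⟨X, hX⟩ := exists_mono H.two hD (fun s x => ∃ y, L (bl (x, y)) s) (fun s => s.2.2)
    (fun ⟨_, a⟩ ⟨_, b⟩ => ⟨_, by simpa only [bl_mul, Subgroup.coe_mul] using H.mul a b⟩) fun ⟨_, e⟩ => (o e).imp fun _ => And.left
  obtain ⟨Y, hY⟩ := exists_mono H.two hD (fun s y => ∃ x, L (bl (x, y)) s) (fun s => exists_comm.1 s.2.2)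
    (fun ⟨_, a⟩ ⟨_, b⟩ => ⟨_, by simpa only [bl_mul, Subgroup.coe_mul] using H.mul a b⟩) fun ⟨_, e⟩ => (o e).imp fun _ => And.right
  have fin : ∀ {a b : G} {u v : G2 k}, a ∈ S → b ∈ S → L (bl (u, 1)) a → L (bl (v, 1)) b → ∀ {p q p' q' : kˣ},
      X⁻¹ * u * X = mu ⟨p, q, false⟩ → X⁻¹ * v * X = mu ⟨p', q', true⟩ → u * u = -1 → v * v = -1 →
      u * v = -(v * u) → ∃ (L : G4 k → G → Prop) (i : kˣ), Fm L z S i := by
    intro a b u v ha hb h1 h2 p q p' q' e1 e2 uu vv uv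
    have kk : ∀ {u v u' v'}, X⁻¹ * u * X = mu u' → X⁻¹ * v * X = mu v' → X⁻¹ * (u * v) * X = mu (u' * v') :=
      fun e e' => by rw [map_mul, ← e, ← e']; group
    have r1 := mu_inj ((kk e1 e1).symm.trans (by rw [uu, mu_neg]; simp : _ = mu (-1)))
    have r2 := mu_inj ((kk e2 e2).symm.trans (by rw [vv, mu_neg]; simp : _ = mu (-1)))
    have r3 := mu_inj ((kk e1 e2).symm.trans (by rw [uv, mu_neg, ← kk e2 e1]; simp : _ = mu (-(_ * _))))
    have := p'.ne_zero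
    have := p.ne_zero
    refine ⟨_, p, H.pre hz (X * mu ⟨p', 1, false⟩) Y fun s hs x y e => ?_, ?_, ⟨a, ha, ?_⟩, ⟨b, hb, ?_⟩⟩
    · obtain ⟨d, e1⟩ := hX ⟨s, hs, _, _, e⟩ x ⟨y, e⟩
      obtain ⟨d', e2⟩ := hY ⟨s, hs, _, _, e⟩ y ⟨x, e⟩
      exact ⟨(⟨p', 1, false⟩ : Dm k)⁻¹ * d * ⟨p', 1, false⟩, d', by rw [map_mul, map_mul, map_inv, ← e1]; group, e2⟩
    · dsimpm at r1 ⊢; exact r1.1
    · have : (⟨p', 1, false⟩ : Dm k) * dg p * (⟨p', 1, false⟩ : Dm k)⁻¹ = ⟨p, q, false⟩ := by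
        dsimpm at r1 r3 ⊢; clear kk o; grind
      simp only [E, bl_inv, bl_mul, map_one, mul_one, mul_inv_cancel]
      rwa [show X * mu ⟨p', 1, false⟩ * mu (dg p) * (X * mu ⟨p', 1, false⟩)⁻¹ = u by
        rw [← (show X * mu ⟨p, q, false⟩ * X⁻¹ = u by rw [← e1]; group), ← this, map_mul, map_mul, map_inv]; group]
    · have : (⟨p', 1, false⟩ : Dm k) * ww k * (⟨p', 1, false⟩ : Dm k)⁻¹ = ⟨p', q', true⟩ := by
        dsimpm at r2 ⊢; clear kk o; grind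
      simp only [E, bl_inv, bl_mul, map_one, mul_one, mul_inv_cancel]
      rwa [show X * mu ⟨p', 1, false⟩ * mu (ww k) * (X * mu ⟨p', 1, false⟩)⁻¹ = v by
        rw [← (show X * mu ⟨p', q', true⟩ * X⁻¹ = v by rw [← e2]; group), ← this, map_mul, map_mul, map_inv]; group]
  obtain ⟨⟨p, q, e⟩, e1⟩ := hX ⟨a, ha, _, _, h1⟩ u ⟨1, h1⟩
  obtain ⟨⟨p', q', e'⟩, e2⟩ := hX ⟨b, hb, _, _, h2⟩ v ⟨1, h2⟩
  have e3 : X⁻¹ * (u * v) * X = mu (⟨p, q, e⟩ * ⟨p', q', e'⟩) := by rw [map_mul, ← e1, ← e2]; group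
  have e4 : X⁻¹ * (v * u) * X = mu (⟨p', q', e'⟩ * ⟨p, q, e⟩) := by rw [map_mul, ← e1, ← e2]; group
  rcases e with _ | _ <;> rcases e' with _ | _
  · refine absurd (uv.symm.trans ?_).symm (ne_neg H.two _)
    rw [show (⟨p, q, false⟩ * ⟨p', q', false⟩ : Dm k) = ⟨p', q', false⟩ * ⟨p, q, false⟩ by
      simp [Dm.mul_def, mul_comm], ← e4] at e3
    simpa using e3
  · exact fin ha hb h1 h2 e1 e2 uu vv uv
  · exact fin hb ha h2 h1 e2 e1 vv uu (by rw [uv, neg_neg])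
  · exact fin (mul_mem ha hb) hb (by simpa [bl_mul] using H.mul h1 h2) h2 e3 e2
      (by rw [mul_assoc, ← mul_assoc v, ← neg_neg (v * u), ← uv, neg_mul, mul_neg, ← mul_assoc, ← mul_assoc, uu,
        mul_assoc, vv]; simp) vv (by rw [mul_assoc, vv, ← mul_assoc, ← neg_mul, ← uv, mul_assoc, vv])

theorem Fm.reframe [IsAlgClosed k] (F : Fm L z S i) {t : G} (ht : t ∈ S) (h2 : t * t = 1) (h : Cs L (-1) t z) :
    ∃ L' : G4 k → G → Prop, Fm L' z S i ∧ L' (om k) t ∧ ∀ a, Cs L 1 a z → Cs L' 1 a z := by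
  obtain ⟨x, y, e⟩ := F.sw F.hz h
  have e1 := h2 ▸ F.mul e e
  rw [mul_assoc, ← mul_assoc (om k), om_bl, mul_assoc, om_sq, mul_one, bl_mul] at e1
  obtain ⟨c, e2⟩ := F.one.1 e1
  obtain ⟨d, rfl⟩ := exists_sqrt c
  have e3 := (bl_inj (e2.trans (bl_ss _).symm)).1
  have e4 := F.smul e d⁻¹
  rw [← mul_assoc, ← bl_ss, bl_mul, show ss d⁻¹ * x = (ss d⁻¹ * y)⁻¹ from eq_inv_of_mul_eq_one_left (by
    rw [mul_assoc, ss_left _ x, e3, ← map_mul, ← map_mul]; simp)] at e4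
  generalize ss d⁻¹ * y = u at e4
  refine ⟨_, ⟨F.pre F.hz 1 u fun s hs x y e => ?_, F.ii, ?_, ?_⟩, ?_, fun a ⟨A, B, h1, h2, e⟩ =>
    ⟨(bl (1, u))⁻¹ * A * bl (1, u), (bl (1, u))⁻¹ * B * bl (1, u), by simpa [mul_assoc] using h1,
      by simpa [mul_assoc] using h2, by simpa [mul_assoc] using congrArg (· * bl (1, u)) e⟩⟩
  · obtain ⟨x', -, e1, -⟩ := F.mono s hs x y e
    have := F.conj e e4
    rw [mul_assoc _ (om k), om_bl, _root_.mul_inv_rev, ← mul_assoc, ← mul_assoc, mul_inv_cancel_right, bl_inv,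
      bl_mul, bl_mul, inv_inv] at this
    obtain ⟨y', -, e2, -⟩ := F.mono _ (mul_mem (mul_mem ht hs) (inv_mem ht)) _ _ this
    exact ⟨x', y', by simpa using e1, e2⟩
  · simpa [E, bl_inv, bl_mul] using F.ri
  · simpa [E, bl_inv, bl_mul] using F.rw
  · rwa [bl_inv, mul_assoc, om_bl, ← mul_assoc, bl_mul, one_mul, inv_one, mul_one]

end CL.D4.A
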