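import Cfsg.Agent.CLAS.D4.A2
import Cfsg.Agent.CLAS.Sp4O3

/-!
# Block A, III: the block diagonal part of the Sylow subgroup
-/

set_option autoImplicit false

namespace CL.D4.A

variable {k : Type*} [Field k] {G : Type*} [Group G] {L : G4 k → G → Prop} {z g h s t a b : G} {S : Sylow 2 G}
  {x y x' y' : Dm k} {i c : kˣ}

/-- elements of order four and determinant one -/
def O4 (x : Dm k) : Prop := x * x = -1 ∧ dt x = 1

theorem O4.anti {p q : kˣ} (h : dt (⟨p, q, true⟩ : Dm k) = 1) : O4 (⟨p, q, true⟩ : Dm k) :=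
  ⟨by dsimpm at h ⊢; grind, h⟩

theorem O4.neg (h : O4 x) : O4 (-x) := ⟨by rw [neg_mul_neg, h.1], by rw [dt_neg, h.2]⟩

theorem O4.dg (h : i * i = -1) : O4 (dg i) := ⟨by rw [← map_mul, h, dg_neg, map_one], dt_dg i⟩

theorem O4.diag (hi : i * i = -1) (h : O4 x) (e : x.e = false) : x = A.dg i ∨ x = -A.dg i := by
  obtain ⟨p, q, _⟩ := x
  obtain rfl := e
  obtain ⟨h1, h2⟩ := h
  have := i.ne_zero
  dsimpm at hi h1 h2 ⊢
  grind

theorem anti_dg (hi : i * i = -1) (e : x.e = true) : dg i * x = -(x * dg i) := by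
  obtain ⟨p, q, _⟩ := x
  obtain rfl := e
  have := i.ne_zero
  dsimpm at hi ⊢
  grind

theorem diag_comm (e : x.e = false) (e' : y.e = false) : x * y = y * x := by
  obtain ⟨p, q, _⟩ := x
  obtain ⟨p', q', _⟩ := y
  obtain rfl := e
  obtain rfl := e'
  simp [Dm.mul_def, mul_comm]

theorem dm_ne_neg (h2 : (2 : k) ≠ 0) (x : Dm k) : x ≠ -x := fun h => ne_neg h2 _ ((congrArg mu h).trans (mu_neg x))

theorem sq_e (x : Dm k) : (x * x).e = false := Bool.xor_self _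

namespace Lf

variable (H : Lf L)
include H

theorem cs_ex (h : a * b = b * a) : ∃ ε, Cs L ε a b := by
  obtain ⟨A, hA⟩ := H.ex a
  obtain ⟨B, hB⟩ := H.ex b
  exact (H.uniq (H.mul hB hA) (h ▸ H.mul hA hB)).imp fun c e => ⟨A, B, hA, hB, e⟩

theorem cs_mul {ε δ : kˣ} (h1 : Cs L ε a g) (h2 : Cs L δ b g) : Cs L (ε * δ) (a * b) g := by
  obtain ⟨A, C, hA, hC, e⟩ := h1
  obtain ⟨B, hB⟩ := H.ex b
  exact ⟨_, _, H.mul hA hB, hC, by
    rw [mul_assoc, (H.cs_iff hB hC).1 h2, ss_left, ← mul_assoc A, e, mul_comm ε, map_mul]; simp only [mul_assoc]⟩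

omit [Group G] H in
theorem cs_symm' (h : Cs L 1 a b) : Cs L 1 b a := by
  obtain ⟨A, B, h1, h2, e⟩ := h
  exact ⟨B, A, h2, h1, by simpa using e.symm⟩

/-- the block diagonal part -/
def T (S : Sylow 2 G) : Subgroup (Dm k × Dm k) where
  carrier := {p | ∃ s ∈ S, E L s p.1 p.2}
  mul_mem' := fun ⟨_, a, b⟩ ⟨_, c, d⟩ => ⟨_, mul_mem a c, H.emul b d⟩
  one_mem' := ⟨1, one_mem _, H.eone.2 ⟨1, (map_one _).symm, (map_one _).symm⟩⟩
  inv_mem' := fun ⟨_, a, b⟩ => ⟨_, inv_mem a, H.einv b⟩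

theorem tsc (h : (x, y) ∈ H.T S) (c : kˣ) : (sc c * x, sc c * y) ∈ H.T S := h.imp fun _ e => ⟨e.1, H.esc e.2 c⟩

theorem tneg (h : (x, y) ∈ H.T S) : (-x, -y) ∈ H.T S := h.imp fun _ e => ⟨e.1, H.eneg e.2⟩

theorem tmul (h : (x, y) ∈ H.T S) (h' : (x', y') ∈ H.T S) : (x * x', y * y') ∈ H.T S := mul_mem h h'

theorem tinv (h : (x, y) ∈ H.T S) : (x⁻¹, y⁻¹) ∈ H.T S := inv_mem h

theorem tor (h : (x, y) ∈ H.T S) : ∃ n c, x ^ 2 ^ n = sc c ∧ y ^ 2 ^ n = sc c := by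
  obtain ⟨s, hs, e⟩ := h
  obtain ⟨n, hn⟩ := S.isPGroup' ⟨s, hs⟩
  exact ⟨n, H.eone.1 ((show s ^ 2 ^ n = 1 from congrArg Subtype.val hn) ▸ H.epow e _)⟩

/-- the diagonal parts of the two root groups -/
def A1 (S : Sylow 2 G) : Subgroup kˣ := (H.T S).comap (dg.prod 1)
def A2 (S : Sylow 2 G) : Subgroup kˣ := (H.T S).comap (MonoidHom.prod 1 dg)

theorem mem_A1 : c ∈ H.A1 S ↔ (dg c, 1) ∈ H.T S := Iff.rfl
theorem mem_A2 : c ∈ H.A2 S ↔ (1, dg c) ∈ H.T S := Iff.rfl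

/-- `x` lies in the first root group up to a scalar -/
def In (S : Sylow 2 G) (x : Dm k) : Prop := ∃ c, (sc c * x, 1) ∈ H.T S

theorem right (h : (x, y) ∈ H.T S) (h' : (sc c * x, 1) ∈ H.T S) : (1, sc c * y) ∈ H.T S := by
  simpa using H.tmul (H.tinv h') (H.tsc h c)

omit [Group G] H in
theorem pow_mem_neg_one {A : Subgroup kˣ} (hc : c ∈ A) {n : ℕ} (h : c ^ 2 ^ n = 1) (h1 : c * c ≠ 1) :
    ∃ d ∈ A, d * d = -1 := by
  induction n generalizing c with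
  | zero => exact absurd (by rw [show c = 1 by simpa using h, mul_one]) h1
  | succ n ih =>
    by_cases e : c * c * (c * c) = 1
    · exact ⟨c, hc, Units.ext ((mul_self_eq_one_iff.1 (congrArg Units.val e)).resolve_left fun e => h1 (Units.ext e))⟩
    · exact ih (mul_mem hc hc) (by rw [← sq, ← pow_mul, ← pow_succ', h]) e

end Lf

theorem Pre.ez (F : Pre L z S) : E L z 1 (-1) := by simpa only [E, map_one, mu_neg] using F.hz

theorem Pre.bk' (F : Pre L z S) (hs : s ∈ S) (h : Cs L 1 s z) : ∃ x y, E L s x y := by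
  obtain ⟨x, y, e⟩ := F.bk F.hz h
  obtain ⟨x, y, rfl, rfl⟩ := F.mono s hs x y e
  exact ⟨x, y, e⟩

/-- normal form of block diagonal involutions -/
theorem Pre.nf [IsAlgClosed k] (F : Pre L z S) (hs : s ∈ S) (h : Cs L 1 s z) (h2 : s * s = 1) (h1 : s ≠ 1)
    (h3 : s ≠ z) : ∃ x y, E L s x y ∧ O4 x ∧ O4 y := by
  obtain ⟨x, y, e⟩ := F.bk' hs h
  obtain ⟨c, e1, e2⟩ := F.eone.1 (h2 ▸ F.emul e e)
  obtain ⟨d, rfl⟩ := exists_sqrt c
  obtain ⟨i, hi⟩ := exists_sqrt (-1 : kˣ)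
  have k1 : ∀ {x : Dm k}, x * x = sc (d * d) → sc d⁻¹ * x * (sc d⁻¹ * x) = 1 := fun {x} h => by
    rw [(Commute.mul_mul_mul_comm (sc_comm _ _).symm), h, ← map_mul, ← map_mul]; simp
  have e3 := F.esc e d⁻¹
  replace e1 := k1 e1
  replace e2 := k1 e2
  generalize sc d⁻¹ * x = x at e1 e3
  generalize sc d⁻¹ * y = y at e2 e3
  have o : E L 1 1 1 := F.eone.2 ⟨1, (map_one _).symm, (map_one _).symm⟩
  have k2 : ∀ {x}, x * x = 1 → ¬ E L s x 1 := fun h e => (F.noJ1 e h).elim (fun a => h1 (F.efn (a ▸ e) o))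
    fun a => h3 (F.efn (a ▸ e) (by simpa using F.eneg F.ez))
  have k3 : ∀ {y}, y * y = 1 → ¬ E L s 1 y := fun h e => (F.noJ2 e h).elim (fun a => h1 (F.efn (a ▸ e) o))
    fun a => h3 (F.efn (a ▸ e) F.ez)
  have k4 : ∀ {x : Dm k}, x * x = 1 → x = 1 ∨ x = -1 ∨ O4 (sc i * x) := by
    rintro ⟨p, q, _ | _⟩ h <;> unfold O4 <;> dsimpm at h hi ⊢ <;> grind
  rcases k4 e1 with rfl | rfl | a
  · exact absurd e3 (k3 e2)
  · exact absurd (by simpa using F.eneg e3) (k3 (y := -y) (by simpa using e2))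
  rcases k4 e2 with rfl | rfl | b
  · exact absurd e3 (k2 e1)
  · exact absurd (by simpa using F.eneg e3) (k2 (x := -x) (by simpa using e1))
  exact ⟨_, _, F.esc e3 i, a, b⟩

namespace Fm

variable (F : Fm L z S i)
include F

theorem ti : (dg i, 1) ∈ F.T S := F.ri
theorem tw : (ww k, 1) ∈ F.T S := F.rw

theorem ne_inv : i ≠ i⁻¹ := fun h => neg_one_ne F.two (by rw [← F.ii]; nth_rw 2 [h]; exact mul_inv_cancel i)

/-- no biscalar of order four -/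
theorem f2 (h : E L g (sc c) 1) : c * c ≠ -1 := fun e => by
  obtain ⟨r, -, hr⟩ := F.ri
  have := F.noJ1 (by simpa using F.emul h hr) (by
    rw [(Commute.mul_mul_mul_comm (sc_comm _ _).symm), ← map_mul, ← map_mul, e, F.ii, sc_neg, dg_neg]; simp)
  have h1 := F.ne_inv
  have h2 := c.ne_zero
  dsimpm at this h1
  grind

theorem f3 (h : (sc c, 1) ∈ F.T S) : c * c = 1 := by
  by_contra h1
  obtain ⟨n, d, e1, e2⟩ := F.tor h
  obtain ⟨d, ⟨s, -, hd⟩, e⟩ := Lf.pow_mem_neg_one (A := (F.T S).comap (sc.prod 1)) h (n := n)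
    (congrArg Dm.p ((map_pow sc c _).trans (e1.trans (e2.symm.trans (one_pow _))))) h1
  exact F.f2 hd e

theorem f4 (h : (x, 1) ∈ F.T S) : dt x = 1 := by
  have key : ∀ {p q}, (⟨p, q, true⟩, 1) ∈ F.T S → dt (⟨p, q, true⟩ : Dm k) = 1 := fun {p q} h => by
    have h1 := F.f3 (c := p * q) (by simpa [Dm.mul_def, sc_def, mul_comm] using F.tmul h h)
    obtain ⟨s, -, h⟩ := h
    have h2 := F.noJ1 h
    dsimpm at h1 h2 ⊢
    grind
  obtain ⟨p, q, _ | _⟩ := x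
  · simpa [dt_def] using key (p := p) (q := -q) (by simpa [Dm.mul_def, ww] using F.tmul h F.tw)
  · exact key h

theorem neg_one_mem : -1 ∈ F.A1 S := F.ii ▸ mul_mem F.ti F.ti

theorem tz : (-1, 1) ∈ F.T S := by simpa [dg_neg] using F.mem_A1.1 F.neg_one_mem

theorem tneg1 (h : (x, y) ∈ F.T S) : (-x, y) ∈ F.T S := by simpa using F.tmul F.tz h

theorem tneg2 (h : (x, y) ∈ F.T S) : (x, -y) ∈ F.T S := by simpa using F.tneg (F.tneg1 h)

theorem z_mem : z ∈ S := by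
  obtain ⟨s, hs, e⟩ := F.tz
  exact F.efn (by simpa using F.eneg e) F.ez ▸ hs

theorem f1 (h : (x, y) ∈ F.T S) : x.p * x.q⁻¹ ∈ F.A1 S := by
  have := F.tmul (F.tmul (F.tmul h F.tw) (F.tinv h)) (F.tinv F.tw)
  rw [mul_one, mul_inv_cancel, inv_one, mul_one] at this
  obtain ⟨p, q, _ | _⟩ := x
  · simpa [F.mem_A1, Dm.mul_def, Dm.inv_def, ww, dg_def] using this
  · simpa [F.mem_A1, Dm.mul_def, Dm.inv_def, Dm.neg_def, ww, dg_def] using F.tneg1 this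

theorem inner (hc : c ∈ F.A1 S) (h : x.p * x.q⁻¹ = c * c) : F.In S x := by
  obtain ⟨p, q, _ | _⟩ := x
  · refine ⟨c * p⁻¹, (?_ : dg c = sc (c * p⁻¹) * ⟨p, q, false⟩) ▸ F.mem_A1.1 hc⟩
    have := p.ne_zero; have := q.ne_zero; have := c.ne_zero
    dsimpm at h ⊢; grind
  · refine ⟨i * c * p⁻¹, (?_ : dg i * dg c * ww k = sc (i * c * p⁻¹) * ⟨p, q, true⟩) ▸
      by simpa using F.tmul (F.tmul F.ti hc) F.tw⟩
    have := p.ne_zero; have := q.ne_zero; have := c.ne_zero; have := i.ne_zero; have h1 := F.ii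
    dsimpm at h h1 ⊢; grind

theorem o4_inner (h : O4 x) (e : x.e = false) : (x, 1) ∈ F.T S :=
  (h.diag F.ii e).elim (· ▸ F.ti) (· ▸ F.tneg1 F.ti)

/-- for elements of determinant one the scalar is a sign -/
theorem of_in (h : F.In S x) (hx : dt x = 1) : (x, 1) ∈ F.T S := by
  obtain ⟨c, h⟩ := h
  have := F.f4 h
  rw [map_mul, hx, mul_one, dt_sc] at this
  rcases mul_self_eq_one_iff.1 (congrArg Units.val this) with e | e
  · simpa [show c = 1 from Units.ext e] using h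
  · simpa [show c = -1 from Units.ext e, sc_neg] using F.tneg1 h

variable [Finite G]

theorem fin_A1 : Finite (F.A1 S) := by
  choose f h1 h2 using fun a : F.A1 S => a.2
  refine Finite.of_injective f fun a b e => ?_
  obtain ⟨c, e1, e2⟩ := F.euniq (h2 a) (e ▸ h2 b)
  obtain rfl : c = 1 := by simpa [sc_def, Dm.mul_def, Dm.one_def] using e2.symm
  exact Subtype.ext (congrArg Dm.p (e1.trans (one_mul _))).symm

theorem gen : ∃ β, F.A1 S = Subgroup.zpowers β := by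
  have := F.fin_A1
  obtain ⟨β, h⟩ := (Subgroup.isCyclic_iff_exists_zpowers_eq_top _).1 (inferInstance : IsCyclic (F.A1 S))
  exact ⟨β, h.symm⟩

theorem two_of (h : (x, y) ∈ F.T S) (h' : (x', y') ∈ F.T S) : F.In S x ∨ F.In S x' ∨ F.In S (x * x') := by
  obtain ⟨β, e⟩ := F.gen
  obtain ⟨m, hm⟩ := e.le (F.f1 h)
  obtain ⟨n, hn⟩ := e.le (F.f1 h')
  have k : ∀ n : ℤ, β ^ n ∈ F.A1 S := fun n => e.ge ⟨n, rfl⟩
  obtain ⟨a, rfl | rfl⟩ := Int.even_or_odd' m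
  · exact .inl (F.inner (k a) (by rw [← hm, two_mul]; exact zpow_add _ _ _))
  obtain ⟨b, rfl | rfl⟩ := Int.even_or_odd' n
  · exact .inr (.inl (F.inner (k b) (by rw [← hn, two_mul]; exact zpow_add _ _ _)))
  right; right
  obtain ⟨p, q, _ | _⟩ := x
  · refine F.inner (k (a + b + 1)) ?_
    rw [← zpow_add, show a + b + 1 + (a + b + 1) = 2 * a + 1 + (2 * b + 1) by ring, zpow_add]
    simp only at hm hn
    rw [hm, hn]
    simp [Dm.mul_def, mul_assoc, mul_comm, mul_left_comm]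
  · refine F.inner (k (a - b)) ?_
    rw [← zpow_add, show a - b + (a - b) = 2 * a + 1 - (2 * b + 1) by ring, zpow_sub]
    simp only at hm hn
    rw [hm, hn]
    simp [Dm.mul_def, mul_assoc, mul_comm, mul_left_comm]

variable [IsAlgClosed k]

theorem cz : ∀ s ∈ S, s * z = z * s := by
  have : Nontrivial S := ⟨⟨⟨z, F.z_mem⟩, 1, fun e => F.z1 F.hz (congrArg Subtype.val e)⟩⟩
  have := S.isPGroup'.center_nontrivial
  obtain ⟨n, h0, hn⟩ := (S.isPGroup'.to_subgroup (Subgroup.center S)).nontrivial_iff_card.1 this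
  obtain ⟨⟨⟨s, hs⟩, ha⟩, h3⟩ := exists_prime_orderOf_dvd_card' (G := Subgroup.center S) 2
    (hn ▸ dvd_pow_self 2 h0.ne')
  rw [← Subgroup.orderOf_coe, ← Subgroup.orderOf_coe] at h3
  obtain ⟨h4, h5⟩ := orderOf_eq_prime_iff.1 h3
  have hc : ∀ g ∈ S, g * s = s * g := fun g hg => congrArg Subtype.val (Subgroup.mem_center_iff.1 ha ⟨g, hg⟩)
  by_cases e : s = z
  · exact e ▸ hc
  rw [sq] at h4
  obtain ⟨r, hr, e1⟩ := F.ri
  obtain ⟨w, hw, e2⟩ := F.rw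
  have h6 : Cs L 1 (r * r) s := (F.cs_or (hc r hr) h4).elim (fun a => by simpa using F.cs_mul a a)
    fun a => by simpa using F.cs_mul a a
  rw [F.efn (F.emul e1 e1) (by simpa [(O4.dg F.ii).1] using F.eneg F.ez)] at h6
  obtain ⟨x, y, e3, ⟨a1, a2⟩, -⟩ := F.nf hs (Lf.cs_symm' h6) h4 h5 e
  obtain ⟨ε, h7⟩ := F.cs_ex (hc r hr)
  obtain ⟨δ, h8⟩ := F.cs_ex (hc w hw)
  rw [F.ecs e1 e3] at h7
  rw [F.ecs e2 e3] at h8
  simp only [one_mul, mul_one, right_eq_mul] at h7 h8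
  rw [h7.2] at h7
  rw [h8.2] at h8
  have b1 := h7.1
  have b2 := h8.1
  have b3 := F.ne_inv
  have b4 := F.two
  obtain ⟨p, q, _ | _⟩ := x <;> have := p.ne_zero <;> dsimpm at a1 a2 b1 b2 b3 <;> grind

theorem into (hg : g * z = z * g) {n : ℕ} (h : g ^ 2 ^ n = 1) : ∃ c, c * z * c⁻¹ = z ∧ c * g * c⁻¹ ∈ S := by
  obtain ⟨c, h1, h2⟩ := Sp4O.exists_conj_into S F.cz (Q := Subgroup.zpowers g) (by
    rintro ⟨_, m, rfl⟩
    exact ⟨n, Subtype.ext (by simp only [Subgroup.coe_pow, Subgroup.coe_one]; rw [← zpow_natCast, ← zpow_mul,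
      mul_comm, zpow_mul, zpow_natCast, h, one_zpow])⟩)
    (by rintro _ ⟨m, rfl⟩; exact Commute.zpow_left hg m)
  exact ⟨c, mul_inv_eq_iff_eq_mul.2 h1, h2 _ (Subgroup.mem_zpowers _)⟩

/-- an involution anticommuting with a conjugate of `z` gives a swap -/
theorem swap (hs : s * s = 1) (h : Cs L (-1) s (g * z * g⁻¹)) : ∃ t ∈ S, t * t = 1 ∧ Cs L (-1) t z := by
  have h1 := F.cs_conj h g⁻¹
  rw [show g⁻¹ * (g * z * g⁻¹) * g⁻¹⁻¹ = z by group] at h1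
  obtain ⟨c, h2, h3⟩ := F.into (F.cs_comm h1) (n := 1) (by rw [conj_pow]; simp [sq, hs])
  exact ⟨_, h3, by rw [conj_mul, conj_mul, hs]; simp, h2 ▸ F.cs_conj h1 c⟩

/-- a root element of a conjugate of `z` -/
theorem root (h1 : g * z * g⁻¹ ≠ z) (h : Cs L 1 (g * z * g⁻¹) z)
    (hin : ∀ g x y, g * z * g⁻¹ ∈ S → E L (g * z * g⁻¹) x y → O4 x → O4 y → (x, 1) ∈ F.T S) :
    ∃ θ ∈ S, ∃ x y g, E L θ x y ∧ Ep L 1 θ ∧ θ * θ = g * z * g⁻¹ ∧ θ * θ ≠ z := by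
  have zz := F.zz F.hz
  have h2 := F.cs_conj (Lf.cs_symm' h) g⁻¹
  rw [show g⁻¹ * (g * z * g⁻¹) * g⁻¹⁻¹ = z by group] at h2
  obtain ⟨c, h3, h4⟩ := F.into (F.cs_comm h2) (n := 1) (by rw [conj_pow]; simp [sq, zz])
  have h5 := h3 ▸ F.cs_conj h2 c
  rw [show c * (g⁻¹ * z * g⁻¹⁻¹) * c⁻¹ = c * g⁻¹ * z * (c * g⁻¹)⁻¹ by group] at h4 h5
  have h6 : g * z * g⁻¹ = (c * g⁻¹)⁻¹ * z * (c * g⁻¹)⁻¹⁻¹ := by
    conv_rhs => rw [← h3]
    group
  rw [h6] at h1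
  generalize c * g⁻¹ = γ at h1 h4 h5
  obtain ⟨x, y, e, a1, a2⟩ := F.nf h4 h5 (by rw [conj_mul, zz]; simp) (by simpa using F.z1 F.hz)
    fun e => h1 (by conv_lhs => rw [← e]
                    group)
  obtain ⟨θ, -, e1⟩ := hin _ _ _ h4 e a1 a2
  have h7 : θ * θ = z := F.efn (F.emul e1 e1) (by simpa [a1.1] using F.eneg F.ez)
  have h8 := F.cs_conj ((F.ecs (ε := 1) e1 e).2 (by simp)) γ⁻¹
  rw [show γ⁻¹ * (γ * z * γ⁻¹) * γ⁻¹⁻¹ = z by group] at h8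
  obtain ⟨d, h9, h10⟩ := F.into (F.cs_comm h8) (n := 2) (by
    rw [conj_pow, show θ ^ 2 ^ 2 = θ * θ * (θ * θ) by simp [pow_succ, mul_assoc], h7, zz]; simp)
  obtain ⟨x', y', e'⟩ := F.bk' h10 (h9 ▸ F.cs_conj h8 d)
  refine ⟨_, h10, x', y', d * γ⁻¹, e', F.ep_conj (F.ep_conj (Lf.ep_of e1 a1.2 (map_one _) ?_ (by simp)) _) _,
    by rw [conj_mul, conj_mul, h7]; group, fun e => h1 ?_⟩
  · rw [show x ^ 4 = x * x * (x * x) by simp [pow_succ, mul_assoc], a1.1]; simp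
  · rw [conj_mul, conj_mul, h7] at e
    exact (MulAut.conj d).injective (e.trans h9.symm)

end Fm

end CL.D4.A
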