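import Cfsg.Agent.CLAS.D4.A3

/-!
# Block A, IV: rank two or a swap
-/

set_option autoImplicit false

namespace CL.D4.A

variable {k : Type*} [Field k] {G : Type*} [Group G] {L : G4 k → G → Prop} {z g h s t a b : G} {S : Sylow 2 G}
  {x y x' y' : Dm k} {i c : kˣ}

theorem O4.comm (h2 : (2 : k) ≠ 0) (h : O4 x) (h' : O4 y) (e : x * y = y * x) : y = x ∨ y = -x := by
  obtain ⟨h1, h3⟩ := h
  obtain ⟨h4, h5⟩ := h'
  obtain ⟨p, q, _ | _⟩ := x <;> obtain ⟨p', q', _ | _⟩ := y <;> dsimpm at h1 h3 h4 h5 e ⊢ <;> grind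

theorem O4.mul (h : O4 x) (h' : O4 y) (e : x * y = -(y * x)) : O4 (x * y) :=
  ⟨by rw [mul_assoc, ← mul_assoc y, ← neg_neg (y * x), ← e, neg_mul, mul_neg, ← mul_assoc, ← mul_assoc, h.1,
    mul_assoc, h'.1]; simp, by rw [map_mul, h.2, h'.2, mul_one]⟩

theorem O4.sq (h : O4 (sc c * (x * x))) (h2 : (2 : k) ≠ 0) :
    x.e = false ∧ x.p * x.q⁻¹ * (x.p * x.q⁻¹) = -1 := by
  obtain ⟨h1, h3⟩ := h
  obtain ⟨p, q, _ | _⟩ := x <;> have := q.ne_zero <;> dsimpm at h1 h3 ⊢ <;> grind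

theorem eq_dg (e : x.e = false) (h : dt x = 1) : x = dg x.p := by
  obtain ⟨p, q, _⟩ := x
  obtain rfl := e
  exact Dm.ext rfl (eq_inv_of_mul_eq_one_right h) rfl

/-- the second root group is not abelian -/
def Lf.Q (H : Lf L) (S : Sylow 2 G) : Prop :=
  ∃ y y', (1, y) ∈ H.T S ∧ (1, y') ∈ H.T S ∧ dt y = 1 ∧ dt y' = 1 ∧ y * y' = -(y' * y)

namespace Fm

variable (F : Fm L z S i)
include F

theorem inv_of (h : E L s x y) (h1 : O4 x) (h2 : O4 y) : s * s = 1 :=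
  F.efn (F.emul h h) (F.eone.2 ⟨-1, h1.1, h2.1⟩)

theorem cs_anti (h : E L s x y) (h' : E L t x' y') (h1 : x * x' = -(x' * x)) (h2 : y * y' = -(y' * y)) :
    Cs L (-1) s t := (F.ecs h h').2 (by simp [sc_neg, h1, h2])

section NoQ

variable (hq : ¬ F.Q S)
include hq

theorem no_swap (hs : s ∈ S) : ¬ Cs L (-1) s z := fun h => by
  obtain ⟨x, y, e⟩ := F.sw F.hz h
  have key : ∀ {u}, (u, 1) ∈ F.T S → ∃ v, (1, v) ∈ F.T S ∧ y * mu u * y⁻¹ = mu v := by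
    rintro u ⟨r, hr, e1⟩
    have := F.conj e1 e
    rw [mul_assoc _ (om k), om_bl, _root_.mul_inv_rev, ← mul_assoc, ← mul_assoc, mul_inv_cancel_right, bl_inv,
      bl_mul, bl_mul, map_one, mul_one, mul_inv_cancel] at this
    have hm := mul_mem (mul_mem hs hr) (inv_mem hs)
    obtain ⟨-, v, -, e2⟩ := F.mono _ hm _ _ this
    exact ⟨v, ⟨_, hm, by simpa only [E, map_one, ← e2] using this⟩, e2⟩
  obtain ⟨v, h1, e1⟩ := key F.ti
  obtain ⟨w, h2, e2⟩ := key F.tw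
  have d : ∀ {u v}, y * mu u * y⁻¹ = mu v → dt v = dt u := fun e => Units.ext (by
    rw [← det_mu, ← e, Units.val_mul, Units.val_mul, Matrix.det_units_conj, det_mu])
  exact hq ⟨v, w, h1, h2, (d e1).trans (dt_dg i), (d e2).trans dt_ww, mu_inj (by
    rw [mu_neg, map_mul, map_mul, ← e1, ← e2, conj_mul, conj_mul, ← map_mul, anti_dg F.ii rfl, mu_neg, map_mul]
    simp)⟩

theorem q2 (h : (1, y) ∈ F.T S) (d : dt y = 1) (e : y.e = true) (h' : (1, y') ∈ F.T S) (d' : dt y' = 1) :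
    y' = 1 ∨ y' = -1 ∨ y' = y ∨ y' = -y := by
  have key : ∀ {u}, (1, u) ∈ F.T S → dt u = 1 → u.e = false → u = 1 ∨ u = -1 := fun {u} h1 h2 h3 => by
    rw [eq_dg h3 h2] at h1 ⊢
    by_cases h4 : u.p * u.p = 1
    · exact (mul_self_eq_one_iff.1 (congrArg Units.val h4)).imp (fun e => by rw [show u.p = 1 from Units.ext e, map_one])
        fun e => by rw [show u.p = -1 from Units.ext e, dg_neg, map_one]
    obtain ⟨n, c, e1, e2⟩ := F.tor h1
    obtain ⟨j, h5, h6⟩ := Lf.pow_mem_neg_one (A := F.A2 S) h1 (n := n)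
      (congrArg Dm.p ((map_pow dg _ _).trans (e2.trans (e1.symm.trans (one_pow _))))) h4
    exact absurd ⟨_, _, h5, h, dt_dg j, d, anti_dg h6 e⟩ hq
  cases e' : y'.e
  · exact (key h' d' e').imp_right .inl
  · refine .inr (.inr ((key (u := y' * y⁻¹) (by simpa using F.tmul h' (F.tinv h)) (by simp [d, d'])
      (by simp [Dm.mul_def, Dm.inv_def, e, e'])).imp mul_inv_eq_one.1 fun a => ?_))
    rw [mul_inv_eq_iff_eq_mul.1 a, neg_one_mul]

theorem q2_comm (h : (1, y) ∈ F.T S) (d : dt y = 1) (h' : (1, y') ∈ F.T S) (d' : dt y' = 1) : y * y' = y' * y := by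
  cases e : y.e
  · cases e' : y'.e
    · exact diag_comm e e'
    · rcases F.q2 hq h' d' e' h d with rfl | rfl | rfl | rfl <;> simp
  · rcases F.q2 hq h d e h' d' with rfl | rfl | rfl | rfl <;> simp

variable [Finite G] [IsAlgClosed k] [IsSimpleGroup G] (hG : ¬ IsMulCommutative G)
include hG

theorem core {xa ya xb yb : Dm k} (ha : (xa, ya) ∈ F.T S) (hb : (xb, yb) ∈ F.T S) (a1 : O4 xa) (a2 : O4 ya)
    (b1 : O4 xb) (b2 : O4 yb) (e : ya * yb = -(yb * ya)) : ¬ F.In S xa := fun h => by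
  have r : ∀ {x y}, (x, y) ∈ F.T S → (x, 1) ∈ F.T S → (1, y) ∈ F.T S := fun h h' => by
    simpa using F.right (c := 1) h (by simpa using h')
  have h1 := r ha (F.of_in h a1.2)
  have h2 : ¬ F.In S xb := fun h => hq ⟨_, _, h1, r hb (F.of_in h b1.2), a2.2, b2.2, e⟩
  have h3 : ∀ {x}, O4 x → ¬ F.In S x → x.e = true := fun h h' => by
    by_contra e
    exact h' ⟨1, by simpa using F.o4_inner h (by simpa using e)⟩
  have ns : ∀ {s g}, s * s = 1 → ¬ Cs L (-1) s (g * z * g⁻¹) := fun h h' => by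
    obtain ⟨t, ht, -, e⟩ := F.swap h h'
    exact F.no_swap hq ht e
  have K : ∀ g x y, g * z * g⁻¹ ∈ S → E L (g * z * g⁻¹) x y → O4 x → O4 y → (x, 1) ∈ F.T S ∧ x.e = true := by
    intro g x y hg e1 c1 c2
    by_cases h4 : F.In S x
    · refine ⟨F.of_in h4 c1.2, ?_⟩
      by_contra h5
      obtain ⟨s, -, hs⟩ := hb
      refine ns (F.inv_of hs b1 b2) (F.cs_anti hs e1 ?_ ?_)
      · rcases c1.diag F.ii (by simpa using h5) with rfl | rfl <;> simp [anti_dg F.ii (h3 b1 h2)]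
      · rcases a2.comm F.two c2 (F.q2_comm hq h1 a2.2 (r ⟨_, hg, e1⟩ (F.of_in h4 c1.2)) c2.2) with rfl | rfl <;>
          simp [e]
    obtain ⟨s, -, hs⟩ := F.tmul F.ti h1
    rw [mul_one, one_mul] at hs
    refine (ns (F.inv_of hs (O4.dg F.ii) a2) (F.cs_anti hs e1 (anti_dg F.ii (h3 c1 h4)) ?_)).elim
    have h5 := F.q2_comm hq h1 a2.2 (r (F.tmul ⟨_, hg, e1⟩ hb) (F.of_in (((F.two_of ⟨_, hg, e1⟩ hb).resolve_left
      h4).resolve_left h2) (by rw [map_mul, c1.2, b1.2, mul_one]))) (by rw [map_mul, c2.2, b2.2, mul_one])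
    refine mul_right_cancel (b := yb) ?_
    rw [mul_assoc, h5, neg_mul, mul_assoc, mul_assoc, e, mul_neg, neg_neg]
  obtain ⟨g, h4, h5⟩ := Sp4O.zstar hG S (F.zz F.hz) (F.z1 F.hz) F.cz
  obtain ⟨θ, h6, x, y, g, e1, -, e2, h7⟩ := F.root h5 ((F.cs_or (F.cz _ h4) (F.zz F.hz)).resolve_right
    (F.no_swap hq h4)) fun g x y a b c d => (K g x y a b c d).1
  have h8 := e2 ▸ mul_mem h6 h6
  obtain ⟨x', y', e3, c1, c2⟩ := F.nf h8 (Lf.cs_bk F.hz (e2 ▸ F.emul e1 e1)) (by rw [conj_mul, F.zz F.hz]; simp)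
    (by simpa using F.z1 F.hz) (e2 ▸ h7)
  obtain ⟨c, rfl, -⟩ := F.euniq (F.emul e1 e1) (e2 ▸ e3)
  simpa [Dm.mul_def, sc_def] using (K _ _ _ h8 e3 c1 c2).2

theorem rank : Cfsg.PRankLE 2 2 G := fun A hc hA => not_lt.1 fun h4 => by
  classical
  have k0 : ∀ S : Finset G, S.card ≤ 4 → ∃ a ∈ A, a ∉ S := fun S hS => by
    by_contra! e
    exact absurd ((Set.ncard_le_ncard (show (A : Set G) ⊆ S from e)).trans_eq (Set.ncard_coe_finset S))
      (not_le.2 (hS.trans_lt h4))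
  obtain ⟨g, -, hg⟩ := Sp4O.exists_conj_into S (z := 1) (by simp) (Q := A)
    (fun a => ⟨1, Subtype.ext (hA a a.2)⟩) (by simp)
  obtain ⟨a, ha, a1⟩ := k0 {1, g⁻¹ * z * g} (Finset.card_le_two.trans (by simp))
  obtain ⟨b, hb, b1⟩ := k0 {1, g⁻¹ * z * g, a, a * (g⁻¹ * z * g)} Finset.card_le_four
  simp only [Finset.mem_insert, Finset.mem_singleton, not_or] at a1 b1
  have n : ∀ a ∈ A, a ≠ 1 → a ≠ g⁻¹ * z * g → ∃ x y, E L (g * a * g⁻¹) x y ∧ O4 x ∧ O4 y := fun a ha h1 h2 =>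
    F.nf (hg a ha) ((F.cs_or (F.cz _ (hg a ha)) (F.zz F.hz)).resolve_right (F.no_swap hq (hg a ha)))
      (by rw [conj_mul, ← sq, hA a ha]; simp) (by simpa using h1) fun e => h2 (by rw [← e]; group)
  obtain ⟨xa, ya, e1, c1, c2⟩ := n a ha a1.1 a1.2
  obtain ⟨xb, yb, e2, c3, c4⟩ := n b hb b1.1 b1.2.1
  have t1 : (xa, ya) ∈ F.T S := ⟨_, hg a ha, e1⟩
  have t2 : (xb, yb) ∈ F.T S := ⟨_, hg b hb, e2⟩
  rcases F.cs_or (a := g * a * g⁻¹) (b := g * b * g⁻¹) (by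
    rw [conj_mul, conj_mul, show a * b = b * a from congrArg Subtype.val (hc.is_comm.comm (⟨a, ha⟩ : A) ⟨b, hb⟩)])
    (F.inv_of e2 c3 c4) with h | h <;> rw [F.ecs e1 e2] at h
  · have e3 := F.emul e1 F.ez
    have k1 : g * a * g⁻¹ ≠ g * b * g⁻¹ := fun e => b1.2.2.1 (by simpa using e.symm)
    have k2 : g * a * g⁻¹ * z ≠ g * b * g⁻¹ := fun e => b1.2.2.2 (by
      rw [show b = g⁻¹ * (g * b * g⁻¹) * g by group, ← e]; group)
    rcases c1.comm F.two c3 (by simpa using h.1) with rfl | rfl <;>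
      rcases c2.comm F.two c4 (by simpa using h.2) with rfl | rfl
    exacts [k1 (F.efn e1 e2), k2 (F.efn (by simpa using e3) e2), k2 (F.efn (by simpa using F.eneg e3) e2),
      k1 (F.efn (F.eneg e1) e2)]
  · simp only [sc_neg, map_one, neg_one_mul] at h
    rcases F.two_of t1 t2 with h1 | h1 | h1
    · exact F.core hq hG t1 t2 c1 c2 c3 c4 h.2 h1
    · exact F.core hq hG t2 t1 c3 c4 c1 c2 (by rw [h.2, neg_neg]) h1
    · exact F.core hq hG (F.tmul t1 t2) t2 (c1.mul c3 h.1) (c2.mul c4 h.2) c3 c4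
        (by rw [← mul_assoc, ← neg_mul, ← h.2]) h1

end NoQ

theorem exists_swap [Finite G] [IsAlgClosed k] [IsSimpleGroup G] (hG : ¬ IsMulCommutative G) (hq : F.Q S) :
    ∃ t ∈ S, t * t = 1 ∧ Cs L (-1) t z ∧
      ∃ g, t = g * z * g⁻¹ ∨ (g * z * g⁻¹ ≠ z ∧ Cs L 1 (g * z * g⁻¹) z) := by
  obtain ⟨g, h1, h2⟩ := Sp4O.zstar hG S (F.zz F.hz) (F.z1 F.hz) F.cz
  have h3 : g * z * g⁻¹ * (g * z * g⁻¹) = 1 := by rw [conj_mul, F.zz F.hz]; simp
  rcases F.cs_or (F.cz _ h1) (F.zz F.hz) with h | h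
  swap
  · exact ⟨_, h1, h3, h, g, .inl rfl⟩
  obtain ⟨x, y, e, c1, c2⟩ := F.nf h1 h h3 (by simpa using F.z1 F.hz) h2
  obtain ⟨u, v, h4, h5, d1, d2, e1⟩ := hq
  have k1 : ∃ x', (x', 1) ∈ F.T S ∧ O4 x' ∧ x' * x = -(x * x') := by
    cases e : x.e
    · exact ⟨_, F.tw, O4.anti dt_ww, by rcases c1.diag F.ii e with rfl | rfl <;> simp [anti_dg F.ii (x := ww k) rfl]⟩
    · exact ⟨_, F.ti, O4.dg F.ii, anti_dg F.ii e⟩
  have k2 : ∀ {u v}, (1, u) ∈ F.T S → (1, v) ∈ F.T S → dt u = 1 → dt v = 1 → u * v = -(v * u) → u.e = false →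
      v.e = true → ∃ y', (1, y') ∈ F.T S ∧ O4 y' ∧ y' * y = -(y * y') := by
    rintro ⟨p, q, _⟩ ⟨p', q', _⟩ h4 h5 d1 d2 e1 rfl rfl
    cases e : y.e
    · exact ⟨_, h5, O4.anti d2, by
        rcases c2.diag F.ii e with rfl | rfl <;> simp [anti_dg F.ii (x := ⟨p', q', true⟩) rfl]⟩
    · have : p * p = -1 := by have := p'.ne_zero; dsimpm at d1 e1 ⊢; grind
      rw [eq_dg rfl d1] at h4
      exact ⟨_, h4, O4.dg this, anti_dg this e⟩
  have k3 : ∃ y', (1, y') ∈ F.T S ∧ O4 y' ∧ y' * y = -(y * y') := by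
    cases e : u.e <;> cases e' : v.e
    · exact absurd ((diag_comm e' e).trans e1) (dm_ne_neg F.two _)
    · exact k2 h4 h5 d1 d2 e1 e e'
    · exact k2 h5 h4 d2 d1 (by rw [e1, neg_neg]) e' e
    · exact k2 (by simpa using F.tmul h4 h5) h5 (by simp [d1, d2]) d2 (by rw [← mul_assoc, ← neg_mul, ← e1])
        (by simp [Dm.mul_def, e, e']) e'
  obtain ⟨x', a1, a2, a3⟩ := k1
  obtain ⟨y', b1, b2, b3⟩ := k3
  obtain ⟨s, -, hs⟩ := F.tmul a1 b1
  rw [mul_one, one_mul] at hs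
  obtain ⟨t, ht, e2, e3⟩ := F.swap (F.inv_of hs a2 b2) (F.cs_anti hs e a3 b3)
  exact ⟨t, ht, e2, e3, g, .inr ⟨h2, h⟩⟩

end Fm

end CL.D4.A
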