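import Cfsg.Agent.CLAS.D4.A4

/-!
# Block A, V: the swap case; bounds for the order and the twisted type
-/

set_option autoImplicit false

namespace CL.D4.A

variable {k : Type*} [Field k] {G : Type*} [Group G] {L : G4 k → G → Prop} {z g h s t a b : G} {S : Sylow 2 G}
  {x y x' y' u : Dm k} {i c ζ β : kˣ}

theorem four (hi : i * i = -1) (h : c * c = 1 ∨ c * c = -1) : c = 1 ∨ c = -1 ∨ c = i ∨ c = -i := by
  dsimpm at *; grind

theorem Dm.ext1 (he : x.e = y.e) (hp : x.p = y.p) (h : dt x = dt y) : x = y := by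
  obtain ⟨p, q, e⟩ := x
  obtain ⟨p', q', e'⟩ := y
  obtain rfl := he
  obtain rfl := hp
  cases e <;> simpa [dt_def] using h

theorem sq_sc (h : x * x = sc c) : (∃ p, x = sc p ∧ p * p = c) ∨ ((mu x).1.trace = 0 ∧ dt x = -c) := by
  obtain ⟨p, q, _ | _⟩ := x
  · by_cases e : p = q
    · exact .inl ⟨p, e ▸ rfl, congrArg Dm.p h⟩
    · simp only [mu_val, cond_false, Matrix.trace_fin_two_of]
      right
      dsimpm at *; grind
  · exact .inr ⟨by simp [mu_val], congrArg (-·.p) h⟩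

theorem Lf.In.mul {H : Lf L} (h : H.In S x) (h' : H.In S y) : H.In S (x * y) := by
  obtain ⟨c, h⟩ := h
  obtain ⟨d, h'⟩ := h'
  exact ⟨c * d, by simpa [map_mul, (Commute.mul_mul_mul_comm (sc_comm d x))] using H.tmul h h'⟩

theorem Lf.In.inv {H : Lf L} (h : H.In S x) : H.In S x⁻¹ := by
  obtain ⟨c, h⟩ := h
  have := H.tinv h
  rw [mul_inv_rev, ← map_inv, ← sc_comm, inv_one] at this
  exact ⟨_, this⟩

theorem Fm.p_mem (F : Fm L z S i) (h : (x, 1) ∈ F.T S) : x.p ∈ F.A1 S := by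
  cases e : x.e
  · exact F.mem_A1.2 (eq_dg e (F.f4 h) ▸ h)
  · have h1 := F.tmul h F.tw
    rw [mul_one, eq_dg (x := x * ww k) (by simp [Dm.mul_def, e, ww]) (F.f4 (by simpa using h1))] at h1
    simpa [Dm.mul_def, e, ww] using mul_mem (F.mem_A1.2 h1) F.neg_one_mem

theorem Fm.root_mem (F : Fm L z S i) (h : c * c = 1 ∨ c * c = -1) : c ∈ F.A1 S := by
  rcases four F.ii h with rfl | rfl | rfl | rfl
  exacts [one_mem _, F.neg_one_mem, F.ti, by simpa using (F.A1 S).mul_mem F.ti F.neg_one_mem]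

/-- no square root of `z` with non-zero trace and `ε = -1` -/
theorem Fm.no_sqrt (F : Fm L z S i) (hs : s ∈ S) (h : s * s = z) (h1 : Ep L (-1) s) : ¬ Tr L s := fun h2 => by
  obtain ⟨A, hA⟩ := F.ex s
  obtain ⟨x, y, e⟩ := F.bk' hs ⟨A, A * A, hA, h ▸ F.mul hA hA, by simp [mul_assoc]⟩
  obtain ⟨c, e1, e2⟩ := F.euniq F.ez (h ▸ F.emul e e)
  obtain ⟨d, e3, e4, -⟩ := F.eep e h1
  rw [F.etr e] at h2
  rw [mul_one] at e1
  rw [mul_neg, mul_one, ← sc_neg] at e2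
  rw [show x ^ 4 = x * x * (x * x) by simp [pow_succ, mul_assoc], e1, ← map_mul, ← map_mul] at e4
  replace e4 : d ^ 4 * (c * c) = -1 := congrArg Dm.p e4
  rcases sq_sc e1 with ⟨p, rfl, a⟩ | a <;> rcases sq_sc e2 with ⟨q, rfl, b⟩ | b
  · refine F.f2 (g := s) (c := q⁻¹ * p) (by simpa using F.esc e q⁻¹) ?_
    rw [mul_mul_mul_comm, ← mul_inv, a, b]; simp
  · exact neg_one_ne F.two (e4.symm.trans (by rwa [dt_sc, a, b.2, neg_neg] at e3))
  · exact neg_one_ne F.two (e4.symm.trans (by rwa [dt_sc, a.2, b, neg_mul_neg] at e3))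
  · exact h2 (by rw [a.1, b.1, add_zero])

/-- a frame in which the swap of the two planes lifts `t` -/
structure Fw (L : G4 k → G → Prop) (z : G) (S : Sylow 2 G) (i : kˣ) (t : G) : Prop extends Fm L z S i where
  ht : t ∈ S
  hω : L (om k) t

namespace Fw

variable (F : Fw L z S i t)
include F

theorem tt : t * t = 1 := F.fn (F.mul F.hω F.hω) (F.one.2 ⟨1, by rw [om_sq, map_one]⟩)

theorem tsw (h : (x, y) ∈ F.T S) : (y, x) ∈ F.T S :=
  h.elim fun _ e => ⟨_, mul_mem (mul_mem F.ht e.1) (inv_mem F.ht), F.eswap F.hω e.2⟩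

theorem cst : Cs L (-1) t z := Lf.cs_sw F.hz (x := 1) (y := 1) (by simpa [bl_one] using F.hω)

theorem in_sw (h : (x, y) ∈ F.T S) (h' : F.In S x) : F.In S y ∧ dt x = dt y := by
  obtain ⟨c, h'⟩ := h'
  have h1 := F.tsw (F.right h h')
  exact ⟨⟨c, h1⟩, by simpa using (F.f4 h').trans (F.f4 h1).symm⟩

variable [Finite G]

theorem in_div (h : (x, y) ∈ F.T S) : ∃ c, (c * c = 1 ∨ c * c = -1) ∧ (sc c * (x * y⁻¹), 1) ∈ F.T S := by
  have h1 := F.tinv (F.tsw h)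
  obtain ⟨c, h2⟩ : F.In S (x * y⁻¹) := by
    rcases F.two_of h h1 with a | a | a
    exacts [a.mul (F.in_sw h a).1.inv, (inv_inv x ▸ (F.in_sw h1 a).1.inv).mul a, a]
  have h3 : dt x * dt x = dt y * dt y := by
    rcases F.two_of h h with a | a | a
    exacts [by rw [(F.in_sw h a).2], by rw [(F.in_sw h a).2], by simpa using (F.in_sw (F.tmul h h) a).2]
  have h4 := F.f4 h2
  rw [map_mul, map_mul, map_inv, dt_sc] at h4
  refine ⟨c, ?_, h2⟩
  have := (dt y).ne_zero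
  simp only [Units.ext_iff, Units.val_mul, Units.val_inv_eq_inv_val, Units.val_neg, Units.val_one] at *
  grind

theorem w_mem (h : (x, y) ∈ F.T S) : x.p * y.p⁻¹ ∈ F.A1 S := by
  obtain ⟨c, h1, h2⟩ := F.in_div h
  have h3 := mul_mem (inv_mem (F.root_mem h1)) (F.p_mem h2)
  have h4 := mul_mem h3 (inv_mem (F.f1 (F.tsw h)))
  have h5 := mul_mem h3 (F.f1 (F.tsw h))
  obtain ⟨p, q, _ | _⟩ := x <;> obtain ⟨p', q', _ | _⟩ := y <;>
    simp [Dm.mul_def, Dm.inv_def, sc_def, mul_assoc] at h3 h4 h5 ⊢ <;> assumption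

/-- the normal form of an outer element -/
theorem out (hβ : F.A1 S = Subgroup.zpowers β) (h : (x, y) ∈ F.T S) (h' : ¬ F.In S x) :
    (⟨β, 1, false⟩, ⟨β, 1, false⟩) ∈ F.T S ∨ (sc i * ⟨β, 1, false⟩, ⟨β, 1, false⟩) ∈ F.T S := by
  obtain ⟨c, h1, h2⟩ := F.in_div h
  have h3 := F.tmul (F.tinv h2) h
  rw [inv_one, one_mul, show (sc c * (x * y⁻¹))⁻¹ * x = sc c⁻¹ * y by
    rw [mul_inv_rev, ← map_inv, ← sc_comm]; group] at h3
  obtain ⟨m, hm⟩ := hβ.le (F.f1 (F.tsw h))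
  have kk : ∀ n : ℤ, β ^ n ∈ F.A1 S := fun n => hβ.ge ⟨n, rfl⟩
  obtain ⟨n, rfl | rfl⟩ := Int.even_or_odd' m
  · exact absurd (F.in_sw (F.tsw h) (F.inner (kk n) (by rw [← hm, two_mul]; exact zpow_add _ _ _))).1 h'
  obtain ⟨d, h4⟩ : F.In S ((⟨β, 1, false⟩ : Dm k) * y⁻¹) := by
    simp only at hm
    obtain ⟨p, q, _ | _⟩ := y
    · refine F.inner (kk (-n)) ?_
      rw [← zpow_add, show -n + -n = 1 - (2 * n + 1) by ring, zpow_sub, hm]
      simp [Dm.mul_def, Dm.inv_def, mul_comm, mul_left_comm]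
    · refine F.inner (kk (n + 1)) ?_
      rw [← zpow_add, show n + 1 + (n + 1) = 1 + (2 * n + 1) by ring, zpow_add, hm]
      simp [Dm.mul_def, Dm.inv_def, mul_comm, mul_left_comm]
  have h5 := F.tsc (F.tmul (F.tmul h4 (F.tsw h4)) h3) d⁻¹
  have e : ∀ c : kˣ, sc d⁻¹ * (sc d * (⟨β, 1, false⟩ * y⁻¹) * (sc c * y)) = sc c * ⟨β, 1, false⟩ := fun c => by
    rw [sc_comm c, sc_comm c, map_inv]; group
  have e' := e 1
  rw [map_one, one_mul, one_mul] at e'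
  rw [mul_one, one_mul, e, e'] at h5
  rcases four F.ii (c := c⁻¹) (by rw [← mul_inv]; exact h1.imp (by simp +contextual) (by simp +contextual)) with
    a | a | a | a <;> rw [a] at h5
  exacts [.inl (by simpa using h5), .inl (by simpa [sc_neg] using F.tneg1 h5), .inr h5,
    .inr (by simpa [sc_neg] using F.tneg1 h5)]

variable [IsAlgClosed k]

theorem card_le (B : Subgroup kˣ) [Finite B] (hB : ∀ x y, (x, y) ∈ F.T S → x.p * x.q⁻¹ ∈ B) :
    Nat.card S ≤ 8 * (Nat.card B * Nat.card (F.A1 S)) := by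
  have := F.fin_A1
  have : ∀ s : S, ∃ d : Bool, ∃ x y, E L (s * bif d then t else 1) x y := fun ⟨s, hs⟩ =>
    (F.cs_or (F.cz s hs) (F.zz F.hz)).elim (fun h => ⟨false, by simpa using F.bk' hs h⟩)
      fun h => ⟨true, F.bk' (mul_mem hs F.ht) (by simpa using F.cs_mul h F.cst)⟩
  choose d x y e using this
  have m : ∀ s, (x s, y s) ∈ F.T S := fun s => ⟨_, mul_mem s.2 (by cases d s <;> simp [F.ht]), e s⟩
  refine (Nat.card_le_card_of_injective (fun s : S => ((d s, (x s).e, (y s).e, ⟨_, hB _ _ (m s)⟩,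
    ⟨_, F.w_mem (m s)⟩) : Bool × Bool × Bool × B × F.A1 S)) fun s s' h => ?_).trans_eq (by simp; ring)
  simp only [Prod.mk.injEq, Subtype.mk.injEq] at h
  obtain ⟨h1, h2, h3, h4, h5⟩ := h
  have e1 := F.esc (e s) ((x s').p * (x s).p⁻¹)
  have e2 := e s'
  have h6 := F.tmul (F.tinv (F.tsc (m s) ((x s').p * (x s).p⁻¹))) (m s')
  have h7 : sc ((x s').p * (x s).p⁻¹) * x s = x s' :=
    Dm.ext (by simp [Dm.mul_def, sc_def]) (by
      rw [mul_inv_eq_iff_eq_mul, mul_right_comm, eq_mul_inv_iff_mul_eq] at h4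
      simp [Dm.mul_def, sc_def, mul_right_comm, ← h4, mul_comm (x s).p]) (by simpa [Dm.mul_def, sc_def] using h2)
  rw [h7, inv_mul_cancel] at h6
  have h8 := F.f4 (F.tsw h6)
  rw [map_mul, map_inv, inv_mul_eq_one] at h8
  rw [h7, h1, Dm.ext1 (by simpa [Dm.mul_def, sc_def] using h3) (by
    rw [mul_inv_eq_iff_eq_mul, mul_right_comm, eq_mul_inv_iff_mul_eq] at h5
    simp [Dm.mul_def, sc_def, mul_right_comm, ← h5, mul_comm (x s).p]) h8] at e1
  exact Subtype.ext (mul_right_cancel (F.efn e1 e2))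

section Tw

variable (hζ : ζ ∈ F.A1 S) (h4 : ζ * ζ * (ζ * ζ) = -1)
include hζ h4

omit [Finite G] in
theorem star (hs : s ∈ S) (e : E L s x y) (h1 : s * s * (s * s) = 1) (h2 : s * s ≠ 1) (h3 : s * s ≠ z) :
    ∃ a ∈ F.A1 S, ∃ b : kˣ, a * a * (a * a) = -1 ∧ b * b * (b * b) = -1 ∧ E L s (dg a) (dg b) := by
  obtain ⟨x', y', e1, c1, c2⟩ := F.nf (mul_mem hs hs) (Lf.cs_bk F.hz (F.emul e e)) h1 h2 h3
  obtain ⟨c, rfl, rfl⟩ := F.euniq (F.emul e e) e1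
  obtain ⟨a1, a2⟩ := c1.sq F.two
  obtain ⟨b1, b2⟩ := c2.sq F.two
  obtain ⟨d, h5⟩ : F.In S x := by
    rcases mul_self_eq_mul_self_iff.1 (congrArg Units.val (a2.trans h4.symm)) with e | e
    · exact F.inner hζ (Units.ext e)
    · exact F.inner ((F.A1 S).mul_mem F.ti hζ) (by rw [mul_mul_mul_comm, F.ii, neg_one_mul]; exact Units.ext e)
  have h6 := F.f4 (F.tsw (F.right ⟨s, hs, e⟩ h5))
  have key : ∀ {x : Dm k}, x.e = false → x.p * x.q⁻¹ * (x.p * x.q⁻¹) = -1 → dt (sc d * x) = 1 →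
      d * x.p * (d * x.p) * (d * x.p * (d * x.p)) = -1 ∧ sc d * x = dg (d * x.p) := by
    rintro ⟨p, q, _⟩ rfl a b
    refine ⟨?_, eq_dg rfl b⟩
    rwa [show d * p * (d * p) = p * q⁻¹ from eq_mul_inv_of_mul_eq (by
      nth_rw 3 [← mul_one p]; rw [← b]; simp [dt_def, sc_def, Dm.mul_def, mul_comm, mul_left_comm])]
  exact ⟨_, F.p_mem h5, _, (key a1 a2 (F.f4 h5)).1, (key b1 b2 h6).1,
    (key a1 a2 (F.f4 h5)).2 ▸ (key b1 b2 h6).2 ▸ F.esc e d⟩

theorem no_tw (hσ : (sc i * u, u) ∈ F.T S)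
    (h : ∃ g, t = g * z * g⁻¹ ∨ (g * z * g⁻¹ ≠ z ∧ Cs L 1 (g * z * g⁻¹) z)) : False := by
  have zz := F.zz F.hz
  have n1 := neg_one_ne F.two
  have p4 : ∀ {a : kˣ}, a * a * (a * a) = -1 → dg a ^ 4 = sc (-1) := fun {a} h => by
    rw [← map_pow, show a ^ 4 = a * a * (a * a) by simp [pow_succ, mul_assoc], h, dg_neg, sc_neg, map_one, map_one]
  obtain ⟨g, h | ⟨h1, h⟩⟩ := h
  swap
  · obtain ⟨θ, h5, x, y, g, e, h6, h7, h8⟩ := F.root h1 h fun g x y a b c d => F.of_in (by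
      have h9 : (x, y) ∈ F.T S := ⟨_, a, b⟩
      rcases F.two_of h9 hσ with e | e | e
      · exact e
      · exact absurd (mul_right_cancel (b := dt u) (by simpa [dt_sc, F.ii] using (F.in_sw hσ e).2)) n1
      · exact absurd (mul_right_cancel (b := dt u)
          (by simpa [dt_sc, F.ii, c.2, d.2] using (F.in_sw (F.tmul h9 hσ) e).2)) n1) c.2
    obtain ⟨a, -, b, a1, -, e⟩ := F.star hζ h4 h5 e (by rw [h7, conj_mul, zz]; simp)
      (by rw [h7]; simpa using F.z1 F.hz) h8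
    obtain ⟨c, e1, e2, -⟩ := F.eep e h6
    rw [dt_dg, dt_dg, mul_one, mul_one] at e1
    rw [e1, p4 a1, map_one, one_mul] at e2
    exact n1 (congrArg Dm.p e2)
  have two : ∀ {a b}, a ∈ F.A1 S → b ∈ F.A1 S → ∃ s ∈ S, E L s (dg a) (dg b) := fun ha hb => by
    have := F.tmul (F.mem_A1.1 ha) (F.tsw (F.mem_A1.1 hb))
    rwa [mul_one, one_mul] at this
  obtain ⟨δ, hδ, eδ⟩ := two hζ hζ
  obtain ⟨r, -, er⟩ := two (mul_mem hζ hζ) (one_mem _)
  obtain ⟨σ, hσ, eσ : E L σ (sc i * u) u⟩ := hσ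
  have e0 := F.emul eδ eδ
  rw [← map_mul] at e0
  have oi : (dg (ζ * ζ))⁻¹ = -dg (ζ * ζ) := inv_eq_of_mul_eq_one_right (by rw [mul_neg, (O4.dg h4).1, neg_neg])
  have r2 : σ * (t * σ⁻¹ * t⁻¹) = z := F.efn (F.emul eσ (F.eswap F.hω (F.einv eσ))) (by
    simpa [← map_inv, ← sc_neg, inv_eq_of_mul_eq_one_right (by rw [mul_neg, F.ii, neg_neg] : i * -i = 1)]
      using F.esc F.ez i)
  have r3 : r * (t * r⁻¹ * t⁻¹) = δ * δ * z := F.efn (F.emul er (F.eswap F.hω (F.einv er))) (by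
    simpa [oi, -map_mul] using F.emul e0 F.ez)
  have r4 : σ * (δ * δ) * σ⁻¹ = δ * δ := by
    have e1 := F.emul (F.emul eσ e0) (F.einv eσ)
    rw [show sc i * u * dg (ζ * ζ) * (sc i * u)⁻¹ = u * dg (ζ * ζ) * u⁻¹ by
      rw [sc_comm, mul_assoc u, sc_comm]; group] at e1
    cases e : u.e
    · exact F.efn (by rwa [diag_comm e rfl, mul_inv_cancel_right] at e1) e0
    · exact F.efn (by rwa [← neg_neg (u * _), ← anti_dg h4 e, neg_mul, mul_inv_cancel_right] at e1) (F.eneg e0)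
  have ti := inv_eq_of_mul_eq_one_right F.tt
  have r5 : δ * δ * t = σ * r * g * z * (σ * r * g)⁻¹ :=
    calc _ = σ * (δ * δ) * σ⁻¹ * (z * z) * t := by rw [r4, zz, mul_one]
      _ = σ * (δ * δ * z) * σ⁻¹ * (σ * (t * σ⁻¹ * t⁻¹)) * t := by
        rw [r2, ← mul_assoc σ _ z, mul_assoc _ z σ⁻¹, ← F.cz _ (inv_mem hσ)]; group
      _ = σ * r * (t * r⁻¹ * (t⁻¹ * t)) * σ⁻¹ := by rw [← r3]; group
      _ = _ := by rw [inv_mul_cancel, h]; group
  have c1 := F.cs_conj (⟨_, _, eδ, F.hω, by simp [om_bl]⟩ : Cs L 1 δ t) g⁻¹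
  rw [h, show g⁻¹ * (g * z * g⁻¹) * g⁻¹⁻¹ = z by group] at c1
  have d4 : δ * δ * (δ * δ) = 1 := F.inv_of e0 (O4.dg h4) (O4.dg h4)
  obtain ⟨γ, h5, h6⟩ := F.into (F.cs_comm c1) (n := 2) (by
    rw [conj_pow, show δ ^ 2 ^ 2 = δ * δ * (δ * δ) by simp [pow_succ, mul_assoc], d4]; simp)
  obtain ⟨x, y, e⟩ := F.bk' h6 (h5 ▸ F.cs_conj c1 γ)
  obtain ⟨a, ha, b, a1, b1, e⟩ := F.star hζ h4 h6 e (by simp only [conj_mul, d4]; simp) (fun e => by
    obtain ⟨c, e1, -⟩ := F.eone.1 ((by simpa only [conj_mul, mul_inv_eq_one, mul_eq_left, conj_eq_one_iff] using e :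
      δ * δ = 1) ▸ e0)
    exact dm_ne_neg F.two _ (((sc_comm c _).trans (e1 ▸ rfl)).symm.trans (e1 ▸ anti_dg h4 (x := ww k) rfl))) fun e =>
      F.cs_not (Lf.cs_bk F.hz e0) ((show t = δ * δ by
        rw [conj_mul, conj_mul, ← h5] at e; rw [h, ← (MulAut.conj γ).injective e]; group) ▸ F.cst)
  obtain ⟨b', hb, b2, b3⟩ : ∃ b' ∈ F.A1 S, dg (b' * b') = -dg (b * b) ∧ (b' : k) + (b'⁻¹ : kˣ) = a + (a⁻¹ : kˣ) := by
    rcases mul_self_eq_mul_self_iff.1 (congrArg Units.val (b1.trans a1.symm)) with e | e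
    · refine ⟨_, inv_mem ha, ?_, by rw [inv_inv, add_comm]⟩
      rw [← dg_neg, show b * b = a * a from Units.ext e, ← mul_inv,
        inv_eq_of_mul_eq_one_right (by rw [mul_neg, a1, neg_neg] : a * a * -(a * a) = 1)]
    · exact ⟨a, ha, by rw [← dg_neg, show b * b = -(a * a) from Units.ext e, neg_neg], rfl⟩
  obtain ⟨η, -, eη⟩ := two ha hb
  have r6 : η * η = γ * g⁻¹ * (σ * r * g) * z * (γ * g⁻¹ * (σ * r * g))⁻¹ := by
    rw [F.efn (F.emul eη eη) (by simpa [← map_mul, b2] using F.emul (F.emul e e) F.ez)]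
    calc _ = γ * g⁻¹ * (δ * δ * (g * z * g⁻¹)) * (γ * g⁻¹)⁻¹ := by nth_rw 1 [← h5]; group
      _ = _ := by rw [← h, r5]; group
  generalize γ * g⁻¹ * (σ * r * g) = m at r6
  have r7 : m⁻¹ * η * m⁻¹⁻¹ * (m⁻¹ * η * m⁻¹⁻¹) = z := by rw [conj_mul, r6]; group
  obtain ⟨c, h7, h8⟩ := F.into (g := m⁻¹ * η * m⁻¹⁻¹) (by rw [← r7]; group) (n := 2) (by
    rw [show (2 : ℕ) ^ 2 = 2 * 2 from rfl, pow_mul, sq, sq, r7, zz])
  refine F.no_sqrt h8 (by rw [conj_mul, r7, h7]) (F.ep_conj (F.ep_conj (Lf.ep_of eη (dt_dg _) (dt_dg _) (p4 a1) (p4 ?_)) _) _)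
    (F.tr_conj (F.tr_conj ((F.etr eη).2 ?_) _) _)
  · rw [show b' * b' = -(b * b) from congrArg Dm.p b2, neg_mul_neg, b1]
  · simp only [mu_val, dg_def, cond_false, Matrix.trace_fin_two_of, b3]
    intro e
    have h9 : (a : k) * a = -1 := by
      have := mul_left_cancel₀ F.two (show (2 : k) * (a + (a⁻¹ : kˣ)) = 2 * 0 by linear_combination e)
      linear_combination a * this - a.mul_inv
    exact n1 (a1.symm.trans (Units.ext (by simp [h9])))

end Tw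

end Fw

end CL.D4.A
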