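import Cfsg.Agent.CLAS.D4.Def

/-!
# Block B: the abstract context

`Cm g h`: lifts of `g`, `h` commute. `Y t y`: a lift of `y` is a scalar on both eigenplanes of the involution `t`.
-/

set_option autoImplicit false

namespace CL.D4.B

open Matrix Cfsg Cfsg.Geo CL.Asch

section Abs

variable {G : Type*} [Group G]

/-- a four-group `⟨t, w⟩` whose lifts commute -/
structure Dp (Cm : G → G → Prop) (t w : G) : Prop where
  t2 : t * t = 1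
  w2 : w * w = 1
  t1 : t ≠ 1
  w1 : w ≠ 1
  ne : t ≠ w
  cm : Cm t w

/-- `A₄ = ⟨a, b⟩⟨x⟩` acts on both eigenplanes of `t` -/
structure Good (Cm : G → G → Prop) (t a b x : G) : Prop where
  t2 : t * t = 1
  t1 : t ≠ 1
  a2 : a * a = 1
  b2 : b * b = 1
  ab : a * b = b * a
  q : ¬ Cm a b
  ta : Cm t a
  tb : Cm t b
  odd : Odd (orderOf x)
  xt : x * t = t * x
  xa : x * a * x⁻¹ = b
  xb : x * b * x⁻¹ = a * b

structure Ctx1 (Cm Y : G → G → Prop) : Prop where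
  comm : ∀ {g h}, Cm g h → g * h = h * g
  symm : ∀ {g h}, Cm g h → Cm h g
  refl : ∀ g, Cm g g
  mul : ∀ {g h h'}, Cm g h → Cm g h' → Cm g (h * h')
  inv : ∀ {g h}, Cm g h → Cm g h⁻¹
  conj : ∀ c {g h}, Cm g h → Cm (c * g * c⁻¹) (c * h * c⁻¹)
  two : ∀ {t h h'}, t * t = 1 → h * t = t * h → h' * t = t * h' → ¬ Cm t h → ¬ Cm t h' → Cm t (h * h')
  iso : ∀ {t w f}, Dp Cm t w → f * f = 1 → Cm t f → Cm w f → f = 1 ∨ f = t ∨ f = w ∨ f = t * w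
  Y_self : ∀ t, Y t t
  Y_mul : ∀ {t y y'}, t * t = 1 → Y t y → Y t y' → Y t (y * y')
  Y_inv : ∀ {t y}, t * t = 1 → Y t y → Y t y⁻¹
  Y_conj : ∀ c {t y}, Y t y → Y (c * t * c⁻¹) (c * y * c⁻¹)
  Y_cm : ∀ {t y g}, Y t y → Cm g t → Cm g y
  Y_anti : ∀ {t y g}, t * t = 1 → Y t y → g * t = t * g → ¬ Cm t g → g * y * g⁻¹ = y⁻¹
  Y_two : ∀ {t y}, t * t = 1 → t ≠ 1 → Y t y → y * y = 1 → y = 1 ∨ y = t
  Y_cyc : ∀ {t}, t * t = 1 → t ≠ 1 → ∃ y₀, Y t y₀ ∧ ∀ y, Y t y → y ∈ Subgroup.zpowers y₀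
  tor : ∀ {t w a a'}, Dp Cm t w → Cm t a → Cm w a → Cm t a' → Cm w a' → Cm a a'
  sq : ∀ {t w n}, Dp Cm t w → Cm t n → n * w = w * n → ¬ Cm w n → Y t (n * n)
  ga : ∀ {t w n a}, Dp Cm t w → Cm t n → n * w = w * n → ¬ Cm w n → Cm t a → Cm w a → a * n = n * a →
    Y t a ∨ Y t (a * w)
  noJ : ∀ {t w y₁ y₂ y₃}, Dp Cm t w → Y t y₁ → y₁ * y₁ = t → Y w y₂ → y₂ * y₂ = w → Y (t * w) y₃ →
    y₃ * y₃ = t * w → False
  swap : ∀ {t w j r}, Dp Cm t w → j * j = 1 → j * t * j⁻¹ = w → r * r = 1 → Cm t r → r * w = w * r → ¬ Cm w r →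
    r * (j * r * j⁻¹) = j * r * j⁻¹ * r ∧ ¬ Cm r (j * r * j⁻¹)

/-- an element normalising `⟨a, b⟩` on both planes acts on both planes as the same element of `⟨a, b⟩` -/
def Dag (Cm Y : G → G → Prop) : Prop :=
  ∀ t a b x g, Good Cm t a b x → Cm t g → Y t (g * a * g⁻¹ * a⁻¹) → Y t (g * b * g⁻¹ * b⁻¹) →
    Y t g ∨ Y t (g * a) ∨ Y t (g * b) ∨ Y t (g * (a * b))

/-- elements of odd order normalising a `2`-subgroup inside an involution centraliser -/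
def Act (Cm : G → G → Prop) : Prop :=
  ∀ (H : Subgroup G) (t x : G), IsPGroup 2 H → t * t = 1 → t ≠ 1 → (∀ h ∈ H, h * t = t * h) →
    Odd (orderOf x) → x * t = t * x → (∀ h ∈ H, x * h * x⁻¹ ∈ H) →
    (∀ h ∈ H, x * h = h * x) ∨ ∃ a ∈ H, ∃ b ∈ H, Good Cm t a b x ∧ ∀ h ∈ H,
      x * h * x⁻¹ * h⁻¹ = 1 ∨ x * h * x⁻¹ * h⁻¹ = a ∨ x * h * x⁻¹ * h⁻¹ = b ∨ x * h * x⁻¹ * h⁻¹ = a * b

structure Ctx (Cm Y : G → G → Prop) : Prop extends Ctx1 Cm Y where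
  dag : Dag Cm Y
  act : Act Cm

end Abs

variable {k : Type*} [Field k]

/-- lifts commute -/
def CmP (P : Subgroup (G4 k)) (g h : Bar P) : Prop :=
  ∃ A B : P, pr P A = g ∧ pr P B = h ∧ A * B = B * A

/-- a lift of `y` lies in the span of `1` and a lift of `t` -/
def YP (P : Subgroup (G4 k)) (t y : Bar P) : Prop :=
  ∃ A B : P, pr P A = t ∧ pr P B = y ∧
    ∃ α β : k, ((B : G4 k) : M4 k) = α • (1 : M4 k) + β • ((A : G4 k) : M4 k)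

end CL.D4.B
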