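import Cfsg.Agent.CLAS.D4.B0

/-!
# Block B: first consequences of the abstract context
-/

set_option autoImplicit false

namespace CL.D4.B

variable {G : Type*} [Group G] {Cm Y : G → G → Prop}

def In4 (a b g : G) : Prop := g = 1 ∨ g = a ∨ g = b ∨ g = a * b

def Gd (Cm : G → G → Prop) (t a b : G) : Prop := ∃ x, Good Cm t a b x

def HasY (Y : G → G → Prop) (f : G) : Prop := ∃ y, Y f y ∧ y * y = f

theorem inv_eq {t : G} (h : t * t = 1) : t⁻¹ = t := inv_eq_of_mul_eq_one_right h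

theorem mul_cancel2 {t : G} (h : t * t = 1) (g : G) : t * (t * g) = g := by rw [← mul_assoc, h, one_mul]

theorem lcomm {a b : G} (h : a * b = b * a) (g : G) : a * (b * g) = b * (a * g) := by
  rw [← mul_assoc, h, mul_assoc]

theorem conj_of_comm {a b : G} (h : a * b = b * a) : a * b * a⁻¹ = b := by rw [h, mul_inv_cancel_right]

theorem comm_of_conj {a b : G} (h : a * b * a⁻¹ = b) : a * b = b * a := by
  calc a * b = a * b * a⁻¹ * a := by group
    _ = b * a := by rw [h]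

theorem conj_sq {t : G} (h : t * t = 1) (c : G) : c * t * c⁻¹ * (c * t * c⁻¹) = 1 := by
  calc _ = c * (t * t) * c⁻¹ := by group
    _ = 1 := by rw [h]; group

theorem conj_comm {a b : G} (h : a * b = b * a) (c : G) :
    c * a * c⁻¹ * (c * b * c⁻¹) = c * b * c⁻¹ * (c * a * c⁻¹) := by
  calc _ = c * (a * b) * c⁻¹ := by group
    _ = _ := by rw [h]; group

theorem conj_mul' (c a b : G) : c * (a * b) * c⁻¹ = c * a * c⁻¹ * (c * b * c⁻¹) := by group

theorem conj_inj {c a b : G} (h : c * a * c⁻¹ = c * b * c⁻¹) : a = b := by simpa using h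

theorem sq_mul {a b : G} (ha : a * a = 1) (hb : b * b = 1) (h : a * b = b * a) : a * b * (a * b) = 1 := by
  rw [mul_assoc, ← mul_assoc b, ← h, mul_assoc, hb, mul_one, ha]

/-- an element of odd order is a power of its square -/
theorem odd_pow {x : G} (h : Odd (orderOf x)) : ∃ n, (x * x) ^ n = x := by
  obtain ⟨n, hn⟩ := h
  refine ⟨n + 1, ?_⟩
  rw [← pow_two, ← pow_mul, show 2 * (n + 1) = orderOf x + 1 by omega, pow_succ, pow_orderOf_eq_one, one_mul]

theorem comm_of_sq {x g : G} (h : Odd (orderOf x)) (h2 : x * x * g = g * (x * x)) : x * g = g * x := by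
  obtain ⟨n, hn⟩ := odd_pow h
  rw [← hn]
  exact (Commute.pow_left h2 n).eq

theorem odd_sq {x : G} (h : Odd (orderOf x)) : Odd (orderOf (x * x)) :=
  h.of_dvd_nat (by rw [← pow_two]; exact orderOf_pow_dvd 2)

theorem odd_conj {x : G} (h : Odd (orderOf x)) (c : G) : Odd (orderOf (c * x * c⁻¹)) := by
  have : orderOf (c * x * c⁻¹) = orderOf x := (MulAut.conj c).orderOf_eq x
  rwa [this]

theorem exists_sq_four {ρ : G} {n : ℕ} (h : ρ ^ 2 ^ n = 1) (h2 : ρ * ρ ≠ 1) :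
    ∃ m : ℕ, ρ ^ m * ρ ^ m ≠ 1 ∧ ρ ^ m * ρ ^ m * (ρ ^ m * ρ ^ m) = 1 := by
  induction n generalizing ρ with
  | zero => simp at h; simp [h] at h2
  | succ n ih =>
    by_cases h4 : ρ * ρ * (ρ * ρ) = 1
    · exact ⟨1, by simpa using h2, by simpa using h4⟩
    · obtain ⟨m, h5, h6⟩ := ih (ρ := ρ * ρ) (by rw [← pow_two, ← pow_mul, ← pow_succ']; exact h) h4
      have e : (ρ * ρ) ^ m = ρ ^ (2 * m) := by rw [← pow_two, ← pow_mul]
      rw [e] at h5 h6
      exact ⟨2 * m, h5, h6⟩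

structure Cx (Cm Y : G → G → Prop) : Prop extends Ctx Cm Y where
  two' : ∀ {t w g}, t * t = 1 → w * w = 1 → g * t = t * g → g * w = w * g → ¬ Cm t g → ¬ Cm w g → Cm (t * w) g

namespace Good

variable {t a b x : G} (h : Good Cm t a b x)
include h

theorem xab : x * (a * b) * x⁻¹ = a := by
  rw [conj_mul', h.xa, h.xb, lcomm h.ab.symm, h.b2, mul_one]

theorem ab2 : a * b * (a * b) = 1 := sq_mul h.a2 h.b2 h.ab

end Good

namespace Cx

variable (c : Cx Cm Y)
include c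

theorem one (g : G) : Cm g 1 := by simpa using c.mul (c.refl g) (c.inv (c.refl g))

theorem symm_iff {g h : G} : Cm g h ↔ Cm h g := ⟨c.symm, c.symm⟩

theorem mul_iff {g h h' : G} (hh : Cm g h) : Cm g (h * h') ↔ Cm g h' :=
  ⟨fun e => by simpa using c.mul (c.inv hh) e, c.mul hh⟩

theorem mul_iff' {g h h' : G} (hh : Cm g h') : Cm g (h * h') ↔ Cm g h :=
  ⟨fun e => by simpa using c.mul e (c.inv hh), fun e => c.mul e hh⟩

theorem lmul {g g' h : G} (e : Cm g h) (e' : Cm g' h) : Cm (g * g') h := c.symm (c.mul (c.symm e) (c.symm e'))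

theorem lmul_iff {g g' h : G} (e : Cm g h) : Cm (g * g') h ↔ Cm g' h := by
  rw [c.symm_iff, c.mul_iff (c.symm e), c.symm_iff]

theorem lmul_iff' {g g' h : G} (e : Cm g' h) : Cm (g * g') h ↔ Cm g h := by
  rw [c.symm_iff, c.mul_iff' (c.symm e), c.symm_iff]

theorem inv_iff {g h : G} : Cm g h⁻¹ ↔ Cm g h := ⟨fun e => by simpa using c.inv e, c.inv⟩

theorem pow {g h : G} (hh : Cm g h) (n : ℕ) : Cm g (h ^ n) := by
  induction n with
  | zero => simpa using c.one g
  | succ n ih => rw [pow_succ]; exact c.mul ih hh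

theorem conj_iff (x : G) {g h : G} : Cm (x * g * x⁻¹) (x * h * x⁻¹) ↔ Cm g h :=
  ⟨fun e => by simpa [mul_assoc] using c.conj x⁻¹ e, c.conj x⟩

theorem conj_r {x g h : G} (e : x * g = g * x) : Cm g (x * h * x⁻¹) ↔ Cm g h := by
  rw [← c.conj_iff x (g := g) (h := h), conj_of_comm e]

theorem sq_cm {t g : G} (t2 : t * t = 1) (h : g * t = t * g) : Cm t (g * g) := by
  by_cases e : Cm t g
  · exact c.mul e e
  · exact c.two t2 h h e e

theorem odd_cm {t x : G} (t2 : t * t = 1) (h : x * t = t * x) (ho : Odd (orderOf x)) : Cm t x := by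
  obtain ⟨n, hn⟩ := odd_pow ho
  rw [← hn]
  exact c.pow (c.sq_cm t2 h) n

theorem mul_cm {t h h' : G} (t2 : t * t = 1) (e : h * t = t * h) (e' : h' * t = t * h') :
    Cm t (h * h') ↔ (Cm t h ↔ Cm t h') := by
  by_cases a : Cm t h
  · simp [c.mul_iff a, a]
  · by_cases b : Cm t h'
    · simp [c.mul_iff' b, a, b]
    · simp [c.two t2 e e' a b, a, b]

theorem cm3 {t w g : G} (t2 : t * t = 1) (w2 : w * w = 1) (e : g * t = t * g) (e' : g * w = w * g) :
    Cm (t * w) g ↔ (Cm t g ↔ Cm w g) := by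
  by_cases a : Cm t g
  · simp [c.lmul_iff a, a]
  · by_cases b : Cm w g
    · simp [c.lmul_iff' b, a, b]
    · simp [c.two' t2 w2 e e' a b, a, b]

theorem Y_one {t : G} (t2 : t * t = 1) : Y t 1 := by
  simpa using c.Y_mul t2 (c.Y_self t) (c.Y_inv t2 (c.Y_self t))

theorem Y_pow {t y : G} (t2 : t * t = 1) (h : Y t y) (n : ℕ) : Y t (y ^ n) := by
  induction n with
  | zero => simpa using c.Y_one t2
  | succ n ih => rw [pow_succ]; exact c.Y_mul t2 ih h

theorem Y_cm' {t y g : G} (h : Y t y) (e : Cm t g) : Cm g y := c.Y_cm h (c.symm e)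

theorem Y_comm {t y g : G} (h : Y t y) (e : Cm t g) : g * y = y * g := c.comm (c.Y_cm' h e)

theorem Y_conj' {t y g : G} (h : Y t y) (e : g * t = t * g) : Y t (g * y * g⁻¹) := by
  have := c.Y_conj g h
  rwa [conj_of_comm e] at this

theorem Y_small {t y : G} (t2 : t * t = 1) (t1 : t ≠ 1) (hn : ¬ HasY Y t) (h : Y t y) {n : ℕ}
    (e : y ^ 2 ^ n = 1) : y = 1 ∨ y = t := by
  induction n generalizing y with
  | zero => exact .inl (by simpa using e)
  | succ n ih =>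
    rcases ih (c.Y_mul t2 h h) (by rw [← pow_two, ← pow_mul, ← pow_succ']; exact e) with h1 | h1
    · exact c.Y_two t2 t1 h h1
    · exact absurd ⟨y, h, h1⟩ hn

theorem hasY_conj {t : G} (h : HasY Y t) (g : G) : HasY Y (g * t * g⁻¹) := by
  obtain ⟨y, h1, h2⟩ := h
  exact ⟨_, c.Y_conj g h1, by rw [← conj_mul', h2]⟩

theorem noJ' {t w : G} (d : Dp Cm t w) (h1 : HasY Y t) (h2 : HasY Y w) (h3 : HasY Y (t * w)) : False := by
  obtain ⟨_, a, b⟩ := h1
  obtain ⟨_, a', b'⟩ := h2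
  obtain ⟨_, a'', b''⟩ := h3
  exact c.noJ d a b a' b' a'' b''

/-! ### `Dp` -/

theorem dp_symm {t w : G} (d : Dp Cm t w) : Dp Cm w t := ⟨d.w2, d.t2, d.w1, d.t1, d.ne.symm, c.symm d.cm⟩

theorem dp_mul {t w : G} (d : Dp Cm t w) : Dp Cm t (t * w) :=
  ⟨d.t2, sq_mul d.t2 d.w2 (c.comm d.cm), d.t1,
    fun h => d.ne (by rw [eq_inv_of_mul_eq_one_left h, inv_eq d.w2]),
    fun h => d.w1 (by simpa using h.symm), c.mul (c.refl t) d.cm⟩

theorem dp_mul' {t w : G} (d : Dp Cm t w) : Dp Cm w (t * w) := by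
  rw [c.comm d.cm]; exact c.dp_mul (c.dp_symm d)

theorem dp_conj {t w : G} (d : Dp Cm t w) (g : G) : Dp Cm (g * t * g⁻¹) (g * w * g⁻¹) :=
  ⟨conj_sq d.t2 g, conj_sq d.w2 g, fun h => d.t1 (by simpa using h), fun h => d.w1 (by simpa using h),
    fun h => d.ne (conj_inj h), c.conj g d.cm⟩

/-! ### `Good` -/

theorem good_rot {t a b x : G} (h : Good Cm t a b x) : Good Cm t b (a * b) x :=
  ⟨h.t2, h.t1, h.b2, h.ab2, by rw [lcomm h.ab.symm, mul_assoc], fun e => h.q (c.symm ((c.mul_iff' (c.refl b)).1 e)),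
    h.tb, c.mul h.ta h.tb, h.odd, h.xt, h.xb, by rw [h.xab, lcomm h.ab.symm, h.b2, mul_one]⟩

theorem good_swap {t a b x : G} (h : Good Cm t a b x) : Good Cm t b a (x * x) :=
  ⟨h.t2, h.t1, h.b2, h.a2, h.ab.symm, fun e => h.q (c.symm e), h.tb, h.ta, odd_sq h.odd,
    by rw [mul_assoc, h.xt, lcomm h.xt],
    by rw [show x * x * b * (x * x)⁻¹ = x * (x * b * x⁻¹) * x⁻¹ by group, h.xb, h.xab],
    by rw [show x * x * a * (x * x)⁻¹ = x * (x * a * x⁻¹) * x⁻¹ by group, h.xa, h.xb, h.ab]⟩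

theorem good_conj {t a b x : G} (h : Good Cm t a b x) (g : G) :
    Good Cm (g * t * g⁻¹) (g * a * g⁻¹) (g * b * g⁻¹) (g * x * g⁻¹) :=
  ⟨conj_sq h.t2 g, fun e => h.t1 (by simpa using e), conj_sq h.a2 g, conj_sq h.b2 g, conj_comm h.ab g,
    fun e => h.q ((c.conj_iff g).1 e), c.conj g h.ta, c.conj g h.tb, odd_conj h.odd g, conj_comm h.xt g,
    by rw [← h.xa]; group, by rw [← conj_mul' g a b, ← h.xb]; group⟩

theorem gd_rot {t a b : G} (h : Gd Cm t a b) : Gd Cm t b (a * b) := h.elim fun _ h => ⟨_, c.good_rot h⟩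

theorem gd_swap {t a b : G} (h : Gd Cm t a b) : Gd Cm t b a := h.elim fun _ h => ⟨_, c.good_swap h⟩

theorem gd_mul {t a b : G} (h : Gd Cm t a b) : Gd Cm t a (a * b) := by
  obtain ⟨x, hx⟩ := h
  have := c.gd_rot (c.gd_swap ⟨x, hx⟩)
  rwa [← hx.ab] at this

theorem gd_conj {t a b : G} (h : Gd Cm t a b) (g : G) : Gd Cm (g * t * g⁻¹) (g * a * g⁻¹) (g * b * g⁻¹) :=
  h.elim fun _ h => ⟨_, c.good_conj h g⟩

theorem good_dp {t a b x : G} (h : Good Cm t a b x) : Dp Cm t a :=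
  ⟨h.t2, h.a2, h.t1, fun e => h.q (e ▸ c.symm (c.one b)), fun e => h.q (e ▸ h.tb), h.ta⟩

theorem gd_dp {t a b : G} (h : Gd Cm t a b) : Dp Cm t a := h.elim fun _ h => c.good_dp h

/-- the basic overlap -/
theorem base {t a b : G} (h : Gd Cm t a b) (h' : Gd Cm t a (t * b)) : False := by
  obtain ⟨x, h⟩ := h
  obtain ⟨y, h'⟩ := h'
  have ta := c.comm h.ta
  have tb := c.comm h.tb
  have xt : x⁻¹ * t = t * x⁻¹ := (Commute.inv_left h.xt).eq
  have e1 : x⁻¹ * b * x = a := by rw [← h.xa]; group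
  have e2 : x⁻¹ * (a * b) * x = b := by rw [← h.xb]; group
  have e3 : y * b * y⁻¹ = a * b := by
    have := h'.xb
    rw [conj_mul', conj_of_comm h'.xt, lcomm ta.symm] at this
    exact mul_left_cancel this
  have z1 : x⁻¹ * y * a * (x⁻¹ * y)⁻¹ = t * a := by
    rw [show x⁻¹ * y * a * (x⁻¹ * y)⁻¹ = x⁻¹ * (y * a * y⁻¹) * x by group, h'.xa, lcomm xt, mul_assoc, e1]
  have z2 : x⁻¹ * y * b * (x⁻¹ * y)⁻¹ = b := by
    rw [show x⁻¹ * y * b * (x⁻¹ * y)⁻¹ = x⁻¹ * (y * b * y⁻¹) * x by group, e3, e2]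
  have k : ∀ e, e * a = a * e → Y t (x⁻¹ * y * e) → False := fun e he hy => by
    have h1 := c.Y_comm hy h.ta
    have h2 : x⁻¹ * y * a = a * (x⁻¹ * y) := by
      apply mul_right_cancel (b := e)
      rw [mul_assoc _ a, ← he, ← mul_assoc, ← h1, mul_assoc a]
    rw [conj_of_comm h2] at z1
    exact h.t1 (by simpa using z1)
  rcases c.dag t a b x (x⁻¹ * y) h (c.mul (c.inv (c.odd_cm h.t2 h.xt h.odd)) (c.odd_cm h.t2 h'.xt h'.odd))
    (by rw [z1, mul_inv_cancel_right]; exact c.Y_self t) (by rw [z2, mul_inv_cancel]; exact c.Y_one h.t2) with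
    e | e | e | e
  · exact k 1 (by simp) (by simpa using e)
  · exact k a rfl e
  · exact k b h.ab.symm e
  · exact k _ (by rw [mul_assoc, h.ab]) e

theorem star {t w r g f : G} (h : Gd Cm t w r) (e1 : g * t = t * g) (e2 : g * w = w * g)
    (e : g * r * g⁻¹ = f * r) (hf : In4 t w f) : f = 1 ∨ f = w := by
  have h' := c.gd_conj h g
  rw [conj_of_comm e1, conj_of_comm e2, e] at h'
  rcases hf with rfl | rfl | rfl | rfl
  · exact .inl rfl
  · exact (c.base h h').elim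
  · exact .inr rfl
  · exact (c.base (c.gd_mul h) (by rwa [mul_assoc] at h')).elim

theorem gd_tw {t w r : G} (h : Gd Cm t w r) : ¬ Cm (t * w) r := by
  obtain ⟨x, h⟩ := h
  rw [c.lmul_iff h.tb]; exact h.q

theorem noY {t w r : G} (h : Gd Cm t w r) : ¬ HasY Y (t * w) := by
  rintro ⟨y, hy, e⟩
  have d := c.gd_dp h
  have d' := c.dp_mul d
  have n := c.gd_tw h
  obtain ⟨x, hx⟩ := id h
  have e1 := c.Y_anti d'.w2 hy (g := r) (by rw [← mul_assoc, ← c.comm hx.tb, mul_assoc, ← hx.ab, mul_assoc]) n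
  have e2 : y * r * y⁻¹ = t * w * r := by
    rw [← e1, ← e, inv_eq hx.b2]; simp only [mul_assoc, mul_cancel2 hx.b2]
  rcases c.star h (c.Y_comm hy (c.symm d'.cm)).symm (c.Y_comm hy (c.symm (c.dp_mul' d).cm)).symm e2
    (.inr (.inr (.inr rfl))) with e | e
  · exact d'.w1 e
  · exact d.t1 (by simpa using e)

/-- two good subgroups over the same involution have the same central element -/
theorem sameK {t w r r' : G} (h : Gd Cm t w r) (h' : Gd Cm t (t * w) r') {n : ℕ} (hn : (r * r') ^ 2 ^ n = 1) :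
    False := by
  have d := c.gd_dp h
  have d' := c.dp_mul d
  obtain ⟨x, hx⟩ := id h
  obtain ⟨y, hy⟩ := id h'
  have tr' := c.comm hy.tb
  have wr' : r' * w = w * r' := by
    apply mul_left_cancel (a := t)
    rw [← mul_assoc, tr', mul_assoc, ← hy.ab, mul_assoc]
  have a1 : Cm t (r * r') := c.mul hx.tb hy.tb
  have a2 : Cm w (r * r') := c.two d.w2 hx.ab.symm wr' hx.q fun e => hy.q (c.lmul hy.tb e)
  have i1 : ∀ m : ℕ, (r * r') ^ m * r * ((r * r') ^ m)⁻¹ = (r * r') ^ m * (r * r') ^ m * r := fun m => by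
    have : r * (r * r') ^ m * r⁻¹ = ((r * r') ^ m)⁻¹ := by
      rw [← conj_pow, ← inv_pow, mul_inv_rev, inv_eq hx.b2, inv_eq hy.b2, mul_cancel2 hx.b2]
    calc _ = (r * r') ^ m * (r * ((r * r') ^ m)⁻¹ * r⁻¹) * r := by group
      _ = _ := by rw [← conj_inv, this, inv_inv]
  have i2 : ∀ m : ℕ, (r * r') ^ m * r' * ((r * r') ^ m)⁻¹ = (r * r') ^ m * (r * r') ^ m * r' := fun m => by
    have : r' * (r * r') ^ m * r'⁻¹ = ((r * r') ^ m)⁻¹ := by
      rw [← conj_pow, ← inv_pow, mul_inv_rev, inv_eq hx.b2, inv_eq hy.b2, mul_assoc, mul_assoc, hy.b2, mul_one]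
    calc _ = (r * r') ^ m * (r' * ((r * r') ^ m)⁻¹ * r'⁻¹) * r' := by group
      _ = _ := by rw [← conj_inv, this, inv_inv]
  by_cases h2 : r * r' * (r * r') = 1
  · have k : ∀ p, Gd Cm t w p → Gd Cm t (t * w) p → False := fun p a b => c.base (c.gd_swap a) (c.gd_swap b)
    have tr := c.comm hx.tb
    have tw := c.comm d.cm
    have e : r' = r * (r * r') := (mul_cancel2 hx.b2 _).symm
    rcases c.iso d h2 a1 a2 with e' | e' | e' | e' <;> rw [e'] at e <;> subst e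
    · exact k _ h (by simpa using h')
    · refine k _ (c.gd_mul h) ?_
      have := c.gd_mul h'
      rwa [← tr, tw, mul_assoc, mul_cancel2 d.t2, ← tw] at this
    · exact k _ (c.gd_mul h) (by rwa [← hx.ab] at h')
    · refine k _ h ?_
      have := c.gd_mul h'
      rwa [hy.ab, mul_assoc r, d'.w2, mul_one] at this
  · obtain ⟨m, h3, h4⟩ := exists_sq_four hn h2
    have b1 := c.pow a1 m
    have b2 := c.pow a2 m
    have f := c.iso d h4 (c.mul b1 b1) (c.mul b2 b2)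
    rcases c.star h (c.comm b1).symm (c.comm b2).symm (i1 m) f with e | e
    · exact h3 e
    rcases c.star h' (c.comm b1).symm (c.comm (c.lmul b1 b2)).symm (i2 m)
      (.inr (.inr (.inr (by rw [e, mul_cancel2 d.t2])))) with e' | e'
    · exact h3 e'
    · exact d.t1 (by simpa using e'.symm.trans e)

end Cx

end CL.D4.B
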