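import Cfsg.Agent.CLAS.D4.B1

/-!
# Block B: elementary abelian groups of order sixteen
-/

set_option autoImplicit false

namespace CL.D4.B

variable {G : Type*} [Group G] {Cm Y : G → G → Prop}

/-- `E₁₆ = ⟨w, r⟩ × ⟨t, u⟩` -/
structure Fr (Cm : G → G → Prop) (w r t u : G) : Prop where
  w2 : w * w = 1
  r2 : r * r = 1
  t2 : t * t = 1
  u2 : u * u = 1
  wr : w * r = r * w
  tu : t * u = u * t
  q : ¬ Cm w r
  q' : ¬ Cm t u
  wt : Cm w t
  wu : Cm w u
  rt : Cm r t
  ru : Cm r u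

def In16 (w r t u g : G) : Prop := ∃ p q, In4 w r p ∧ In4 t u q ∧ g = p * q

def pw (g : G) (b : Bool) : G := if b then g else 1

abbrev V := Bool × Bool × Bool × Bool

def V.ad (v v' : V) : V := (xor v.1 v'.1, xor v.2.1 v'.2.1, xor v.2.2.1 v'.2.2.1, xor v.2.2.2 v'.2.2.2)

def V.om (v v' : V) : Bool :=
  xor (xor (v'.1 && v.2.1) (v'.2.1 && v.1)) (xor (v'.2.2.1 && v.2.2.2) (v'.2.2.2 && v.2.2.1))

def V.tau (v : V) : V := (v.2.1, xor v.1 v.2.1, v.2.2.1, v.2.2.2)

def V.z : V := (false, false, false, false)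

def V.six (v v' : V) : List (V × V) :=
  [(v, v'), (v', v.ad v'), (v.ad v', v), (v', v), (v, v.ad v'), (v.ad v', v')]

def ee (w r t u : G) (v : V) : G := pw w v.1 * pw r v.2.1 * (pw t v.2.2.1 * pw u v.2.2.2)

theorem pw_xor {g : G} (h : g * g = 1) (a b : Bool) : pw g (xor a b) = pw g a * pw g b := by
  cases a <;> cases b <;> simp [pw, h]

theorem pw_comm {g h : G} (e : g * h = h * g) (a b : Bool) : Commute (pw g a) (pw h b) := by
  cases a <;> cases b <;> simp [pw, Commute, SemiconjBy, e]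

theorem pw_comm' {g h : G} (e : g * h = h * g) (b : Bool) : Commute g (pw h b) := pw_comm e true b

theorem in4_iff {a b g : G} : In4 a b g ↔ ∃ x y, g = pw a x * pw b y := by
  simp [In4, pw, or_assoc, or_comm, or_left_comm]

theorem in16_iff {w r t u g : G} : In16 w r t u g ↔ ∃ v, g = ee w r t u v := by
  simp only [In16, in4_iff, ee]
  exact ⟨fun ⟨_, _, ⟨a, b, e⟩, ⟨c, d, e'⟩, h⟩ => ⟨(a, b, c, d), by rw [h, e, e']⟩,
    fun ⟨v, h⟩ => ⟨_, _, ⟨_, _, rfl⟩, ⟨_, _, rfl⟩, h⟩⟩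

set_option synthInstance.maxSize 4096 in
set_option synthInstance.maxHeartbeats 200000 in
theorem V.ex_u : ∀ s v v' : V, s ≠ V.z → v.om v' = true → s.om v = false → s.om v' = false →
    ∃ u : V, v.om u = false ∧ v'.om u = false ∧ s.om u = true ∧
      ∀ q : V, q.om v = false → q.om v' = false → q = V.z ∨ q = s ∨ q = u ∨ q = s.ad u := by
  decide +kernel

set_option synthInstance.maxSize 4096 in
set_option synthInstance.maxHeartbeats 200000 in
theorem V.key : ∀ v v' : V, v.om v' = true → ¬ (v.2.2.1 = false ∧ v.2.2.2 = false) → ¬ (v.1 = false ∧ v.2.1 = false) →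
    ∃ s : V, s ≠ V.z ∧ ∃ p ∈ v.six v', s.om p.1 = false ∧ s.om p.2 = false ∧
      ((p.1, s.ad p.2) ∈ V.six (true, false, false, false) (false, true, false, false) ∨
        (p.1, s.ad p.2) ∈ v.tau.six v'.tau) := by
  decide +kernel

theorem V.tau_perp : ∀ v q : V, q.tau.om v.tau = q.om v := by decide +kernel

theorem V.tau_surj : ∀ q : V, q.tau.tau.tau = q := by decide +kernel

theorem V.nondeg : ∀ v : V, (∀ q : V, v.om q = false) → v = V.z := by decide +kernel

namespace Cx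

variable (c : Cx Cm Y)
include c

theorem fr_symm {w r t u : G} (f : Fr Cm w r t u) : Fr Cm t u w r :=
  ⟨f.t2, f.u2, f.w2, f.r2, f.tu, f.wr, f.q', f.q, c.symm f.wt, c.symm f.rt, c.symm f.wu, c.symm f.ru⟩

/-- an element of order three centralising the second factor -/
theorem pure {w r t u x : G} (f : Fr Cm w r t u) (h : Good Cm t w r x) :
    ∃ x, Good Cm t w r x ∧ x * u = u * x := by
  have d := c.good_dp h
  set y := x * u * x⁻¹ * u with hy
  have a1 : Cm w y := c.mul (by simpa only [h.xab] using c.conj x (c.lmul f.wu f.ru)) f.wu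
  have a2 : Cm r y := c.mul (by simpa only [h.xa] using c.conj x f.wu) f.ru
  have a3 : Cm t y := c.two f.t2 (by simpa only [conj_of_comm h.xt] using conj_comm f.tu.symm x) f.tu.symm
    (fun e => f.q' ((c.conj_r h.xt).1 e)) f.q'
  have hY : Y t y := (c.ga d h.tb f.wr.symm f.q a3 a1 (c.comm a2).symm).resolve_right fun e =>
    f.q (c.symm ((c.mul_iff a2).1 (c.Y_cm' e h.tb)))
  have xy : Commute x y := c.Y_comm hY (c.odd_cm f.t2 h.xt h.odd)
  have uy : ∀ n : ℕ, y ^ n * u = u * (y ^ n)⁻¹ := fun n => by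
    have := c.Y_anti f.t2 (c.Y_pow f.t2 hY n) f.tu.symm f.q'
    rw [← this, inv_eq f.u2, mul_assoc, mul_cancel2 f.u2]
  have xu : x * u * x⁻¹ = y * u := by rw [hy, mul_assoc _ u u, f.u2, mul_one]
  have xn : ∀ n : ℕ, x ^ n * u * (x ^ n)⁻¹ = y ^ n * u := fun n => by
    induction n with
    | zero => simp
    | succ n ih =>
      rw [show x ^ (n + 1) * u * (x ^ (n + 1))⁻¹ = x * (x ^ n * u * (x ^ n)⁻¹) * x⁻¹ by group, ih, conj_mul', xu,
        conj_of_comm (xy.pow_right n).eq, pow_succ, mul_assoc (y ^ n)]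
  obtain ⟨m, hm⟩ := h.odd
  have y1 : y ^ (2 * m + 1) = 1 := by simpa [← hm] using (xn (orderOf x)).symm
  have k : ∀ g, Cm g y → x * y ^ m * g * (x * y ^ m)⁻¹ = x * g * x⁻¹ := fun g e => by
    rw [show x * y ^ m * g * (x * y ^ m)⁻¹ = x * (y ^ m * g * (y ^ m)⁻¹) * x⁻¹ by group,
      conj_of_comm (c.comm (c.pow e m)).symm]
  refine ⟨x * y ^ m, ⟨h.t2, h.t1, h.a2, h.b2, h.ab, h.q, h.ta, h.tb, ?_,
    comm_of_conj (by rw [k t a3, conj_of_comm h.xt]), by rw [k w a1, h.xa], by rw [k r a2, h.xb]⟩, comm_of_conj ?_⟩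
  · refine Odd.of_dvd_nat ⟨m, rfl⟩ (orderOf_dvd_of_pow_eq_one ?_)
    rw [(xy.pow_right m).mul_pow, ← pow_mul, mul_comm m, pow_mul y, y1, ← hm]; simp
  · rw [show x * y ^ m * u * (x * y ^ m)⁻¹ = x * (y ^ m * (u * (y ^ m)⁻¹)) * x⁻¹ by group, ← uy, ← mul_assoc (y ^ m),
      ← pow_add, conj_mul', xu, conj_of_comm (xy.pow_right _).eq, ← mul_assoc, ← pow_succ, ← two_mul, y1, one_mul]

section E

variable {w r t u : G} (f : Fr Cm w r t u)
include f

theorem ee_ad (v v' : V) : ee w r t u (v.ad v') = ee w r t u v * ee w r t u v' := by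
  simp only [ee, V.ad, pw_xor f.w2, pw_xor f.r2, pw_xor f.t2, pw_xor f.u2]
  rw [Commute.mul_mul_mul_comm (a := pw w v.1 * pw r v.2.1) (((pw_comm (c.comm f.wt).symm _ _).mul_right
    (pw_comm (c.comm f.rt).symm _ _)).mul_left ((pw_comm (c.comm f.wu).symm _ _).mul_right
    (pw_comm (c.comm f.ru).symm _ _))), (pw_comm f.wr.symm v.2.1 v'.1).mul_mul_mul_comm,
    (pw_comm f.tu.symm v.2.2.2 v'.2.2.1).mul_mul_mul_comm]

omit c f in
theorem ee_z : ee w r t u V.z = 1 := by simp [ee, V.z, pw]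

theorem ee_sq (v : V) : ee w r t u v * ee w r t u v = 1 := by
  rw [← c.ee_ad f, show v.ad v = V.z by simp [V.ad, V.z], ee_z]

theorem ee_comm (v v' : V) : ee w r t u v * ee w r t u v' = ee w r t u v' * ee w r t u v := by
  rw [← c.ee_ad f, ← c.ee_ad f]; simp [V.ad, Bool.xor_comm]

omit f in
theorem cm_ee {g : G} (g2 : g * g = 1) (e1 : g * w = w * g) (e2 : g * r = r * g) (e3 : g * t = t * g)
    (e4 : g * u = u * g) (v : V) (a b d e : Bool) (h1 : Cm g w ↔ a = false) (h2 : Cm g r ↔ b = false)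
    (h3 : Cm g t ↔ d = false) (h4 : Cm g u ↔ e = false) :
    Cm g (ee w r t u v) ↔ xor (xor (v.1 && a) (v.2.1 && b)) (xor (v.2.2.1 && d) (v.2.2.2 && e)) = false := by
  have k : ∀ {h : G} {z : Bool} (x : Bool), (Cm g h ↔ z = false) → (Cm g (pw h x) ↔ (x && z) = false) :=
    fun x hh => by cases x <;> simp [pw, hh, c.one]
  rw [ee, c.mul_cm g2 ((pw_comm' e1 _).mul_right (pw_comm' e2 _)).symm.eq
    ((pw_comm' e3 _).mul_right (pw_comm' e4 _)).symm.eq, c.mul_cm g2 (pw_comm' e1 _).symm.eq (pw_comm' e2 _).symm.eq,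
    c.mul_cm g2 (pw_comm' e3 _).symm.eq (pw_comm' e4 _).symm.eq, k _ h1, k _ h2, k _ h3, k _ h4]
  generalize (v.1 && a) = p
  generalize (v.2.1 && b) = q
  generalize (v.2.2.1 && d) = p'
  generalize (v.2.2.2 && e) = q'
  cases p <;> cases q <;> cases p' <;> cases q' <;> simp

theorem ee_cm (v v' : V) : Cm (ee w r t u v) (ee w r t u v') ↔ v.om v' = false := by
  have e1 := c.ee_comm f v (true, false, false, false)
  have e2 := c.ee_comm f v (false, true, false, false)
  have e3 := c.ee_comm f v (false, false, true, false)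
  have e4 := c.ee_comm f v (false, false, false, true)
  simp only [ee, pw, if_true, Bool.false_eq_true, if_false, one_mul, mul_one] at e1 e2 e3 e4
  refine c.cm_ee (c.ee_sq f v) e1 e2 e3 e4 v' _ _ _ _ ?_ ?_ ?_ ?_ <;> rw [c.symm_iff]
  · simpa using c.cm_ee f.w2 rfl f.wr (c.comm f.wt) (c.comm f.wu) v false true false false (by simp [c.refl])
      (by simp [f.q]) (by simp [f.wt]) (by simp [f.wu])
  · simpa using c.cm_ee f.r2 f.wr.symm rfl (c.comm f.rt) (c.comm f.ru) v true false false false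
      (by simp [c.symm_iff (g := r), f.q]) (by simp [c.refl]) (by simp [f.rt]) (by simp [f.ru])
  · simpa using c.cm_ee f.t2 (c.comm f.wt).symm (c.comm f.rt).symm rfl f.tu v false false false true
      (by simp [c.symm f.wt]) (by simp [c.symm f.rt]) (by simp [c.refl]) (by simp [f.q'])
  · simpa using c.cm_ee f.u2 (c.comm f.wu).symm (c.comm f.ru).symm f.tu.symm rfl v false false true false
      (by simp [c.symm f.wu]) (by simp [c.symm f.ru]) (by simp [c.symm_iff (g := u), f.q']) (by simp [c.refl])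

theorem ee_ne {v : V} (h : v ≠ V.z) : ee w r t u v ≠ 1 := fun e =>
  h (V.nondeg v fun q => (c.ee_cm f v q).1 (e ▸ c.symm (c.one _)))

end E

end Cx

/-- a pure element of order three on the frame -/
def PG (w r t u : G) (v v' : V) : Prop :=
  v.om v' = true ∧ ∃ y : G, Odd (orderOf y) ∧ y * ee w r t u v * y⁻¹ = ee w r t u v' ∧
    y * ee w r t u v' * y⁻¹ = ee w r t u (v.ad v') ∧
    ∀ q : V, q.om v = false → q.om v' = false → y * ee w r t u q = ee w r t u q * y

namespace Cx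

variable (c : Cx Cm Y) {w r t u : G} (f : Fr Cm w r t u)
include c f

theorem pg_gd {v v' s : V} (h : PG w r t u v v') (hs : s ≠ V.z) (a : s.om v = false) (b : s.om v' = false) :
    Gd Cm (ee w r t u s) (ee w r t u v) (ee w r t u v') := by
  obtain ⟨h0, y, h1, h2, h3, h4⟩ := h
  exact ⟨y, c.ee_sq f _, c.ee_ne f hs, c.ee_sq f _, c.ee_sq f _, c.ee_comm f _ _, by simp [c.ee_cm f, h0],
    (c.ee_cm f _ _).2 a, (c.ee_cm f _ _).2 b, h1, h4 s a b, h2, by rw [h3, c.ee_ad f]⟩

theorem gd_pg {v v' s : V} (h : Gd Cm (ee w r t u s) (ee w r t u v) (ee w r t u v')) : PG w r t u v v' := by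
  obtain ⟨x, h⟩ := h
  have h0 : v.om v' = true := by simpa [c.ee_cm f] using h.q
  have a := (c.ee_cm f _ _).1 h.ta
  have b := (c.ee_cm f _ _).1 h.tb
  obtain ⟨u', h1, h2, h3, h4⟩ := V.ex_u s v v' (fun e => h.t1 (e ▸ ee_z)) h0 a b
  obtain ⟨y, g, e⟩ := c.pure (u := ee w r t u u') ⟨h.a2, h.b2, h.t2, c.ee_sq f _, h.ab, c.ee_comm f _ _, h.q,
    by simp [c.ee_cm f, h3], c.symm h.ta, (c.ee_cm f _ _).2 h1, c.symm h.tb, (c.ee_cm f _ _).2 h2⟩ h
  refine ⟨h0, y, g.odd, g.xa, by rw [g.xb, c.ee_ad f], fun q a b => ?_⟩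
  rcases h4 q a b with rfl | rfl | rfl | rfl
  · simp [ee_z]
  · exact g.xt
  · exact e
  · rw [c.ee_ad f, ← mul_assoc, g.xt, mul_assoc, e, mul_assoc]

theorem gd_six {v v' s : V} {p : V × V} (h : Gd Cm (ee w r t u s) (ee w r t u v) (ee w r t u v'))
    (hp : p ∈ v.six v') : Gd Cm (ee w r t u s) (ee w r t u p.1) (ee w r t u p.2) := by
  simp only [V.six, List.mem_cons, List.not_mem_nil, or_false] at hp
  rcases hp with rfl | rfl | rfl | rfl | rfl | rfl <;> simp only [c.ee_ad f]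
  · exact h
  · exact c.gd_rot h
  · exact c.gd_swap (c.gd_mul h)
  · exact c.gd_swap h
  · exact c.gd_mul h
  · exact c.gd_swap (c.gd_rot h)

/-- a good four-group inside the frame group is one of the two factors -/
theorem ov (h : Gd Cm t w r) {s a b : G} (h' : Gd Cm s a b) (hs : In16 w r t u s) (ha : In16 w r t u a)
    (hb : In16 w r t u b) : In4 w r a ∨ In4 t u a := by
  obtain ⟨s, rfl⟩ := in16_iff.1 hs
  obtain ⟨v, rfl⟩ := in16_iff.1 ha
  obtain ⟨v', rfl⟩ := in16_iff.1 hb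
  have p2 := c.gd_pg f h'
  have p1 : PG w r t u (true, false, false, false) (false, true, false, false) :=
    c.gd_pg f (s := (false, false, true, false)) (by simpa [ee, pw] using h)
  have p3 : PG w r t u v.tau v'.tau := by
    obtain ⟨x, hx⟩ := h
    obtain ⟨x, hx, xu⟩ := c.pure f hx
    have k : ∀ q, x * ee w r t u q * x⁻¹ = ee w r t u q.tau := fun ⟨a, b, d, e⟩ => by
      have e1 : x * pw w a * x⁻¹ = pw r a := by cases a <;> simp [pw, hx.xa]
      have e2 : x * pw r b * x⁻¹ = pw w b * pw r b := by cases b <;> simp [pw, hx.xb]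
      simp only [ee, V.tau, conj_mul', e1, e2, conj_of_comm (pw_comm' hx.xt d).eq, conj_of_comm (pw_comm' xu e).eq,
        pw_xor f.r2]
      rw [lcomm (pw_comm f.wr b a).symm.eq]
    obtain ⟨h0, y, h1, h2, h3, h4⟩ := p2
    refine ⟨by rw [V.tau_perp, h0], x * y * x⁻¹, odd_conj h1 x, by rw [← k, ← k, ← h2]; group, ?_, fun q a b => ?_⟩
    · rw [c.ee_ad f, ← k, ← k, ← conj_mul' x (ee w r t u v), ← c.ee_ad f, ← h3]; group
    · rw [← V.tau_surj q] at a b ⊢
      rw [V.tau_perp] at a b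
      rw [← k]
      exact conj_comm (h4 _ a b) x
  by_contra hn
  rw [not_or] at hn
  obtain ⟨s', hs', p, hp, a, b, e⟩ := V.key v v' p2.1
    (fun e => hn.1 (in4_iff.2 ⟨v.1, v.2.1, by simp [ee, e.1, e.2, pw]⟩))
    (fun e => hn.2 (in4_iff.2 ⟨v.2.2.1, v.2.2.2, by simp [ee, e.1, e.2, pw]⟩))
  have z : ∀ {α β : V} {π : V × V}, π ∈ α.six β → s'.om π.1 = false → s'.om π.2 = false →
      s'.om α = false ∧ s'.om β = false := by
    clear * -
    revert s'
    intro s' α β π h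
    simp only [V.six, List.mem_cons, List.not_mem_nil, or_false] at h
    rcases h with rfl | rfl | rfl | rfl | rfl | rfl <;> revert s' α β <;> decide +kernel
  have b' : s'.om (s'.ad p.2) = false := by
    clear * - b
    generalize p.2 = q at b
    revert s' q
    decide +kernel
  have g1 := c.gd_six f (c.pg_gd f p2 hs' (z hp a b).1 (z hp a b).2) hp
  refine c.base g1 ?_
  rw [← c.ee_ad f]
  rcases e with e | e
  · exact c.gd_six f (c.pg_gd f p1 hs' (z e a b').1 (z e a b').2) e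
  · exact c.gd_six f (c.pg_gd f p3 hs' (z e a b').1 (z e a b').2) e

theorem in4_cm {p q : G} (hp : In4 w r p) (hq : In4 t u q) : Cm p q := by
  have k : ∀ g, Cm g t → Cm g u → Cm g q := fun g a b => by
    rcases hq with rfl | rfl | rfl | rfl
    exacts [c.one g, a, b, c.mul a b]
  rcases hp with rfl | rfl | rfl | rfl
  exacts [c.symm (c.one q), k _ f.wt f.wu, k _ f.rt f.ru, c.lmul (k _ f.wt f.wu) (k _ f.rt f.ru)]

theorem in4_eq_one {p : G} (hp : In4 w r p) (a : Cm p w) (b : Cm p r) : p = 1 := by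
  rcases hp with rfl | rfl | rfl | rfl
  · rfl
  · exact (f.q b).elim
  · exact (f.q (c.symm a)).elim
  · exact (f.q ((c.lmul_iff' (c.refl r)).1 b)).elim

/-- a mixed element lies in no good four-group -/
theorem mixed (h : Gd Cm t w r) {s p q b : G} (h' : Gd Cm s (p * q) b) (hs : In16 w r t u s) (hp : In4 w r p)
    (hq : In4 t u q) (hb : In16 w r t u b) (p1 : p ≠ 1) (q1 : q ≠ 1) : False := by
  have f' := c.fr_symm f
  rcases c.ov f h h' hs ⟨p, q, hp, hq, rfl⟩ hb with e | e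
  · refine q1 (c.in4_eq_one f' hq ?_ ?_)
    · exact (c.lmul_iff (c.in4_cm f hp (.inr (.inl rfl)))).1 (c.in4_cm f e (.inr (.inl rfl)))
    · exact (c.lmul_iff (c.in4_cm f hp (.inr (.inr (.inl rfl))))).1 (c.in4_cm f e (.inr (.inr (.inl rfl))))
  · refine p1 (c.in4_eq_one f hp ?_ ?_)
    · exact (c.lmul_iff' (c.in4_cm f' hq (.inr (.inl rfl)))).1 (c.in4_cm f' e (.inr (.inl rfl)))
    · exact (c.lmul_iff' (c.in4_cm f' hq (.inr (.inr (.inl rfl))))).1 (c.in4_cm f' e (.inr (.inr (.inl rfl))))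

end Cx

end CL.D4.B
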