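import Cfsg.Agent.CLAS.D4.B2

/-!
# Block B: pairs of good four-groups
-/

set_option autoImplicit false
set_option linter.unusedSectionVars false

namespace CL.D4.B

variable {G : Type*} [Group G] {Cm Y : G → G → Prop}

theorem comm_of_sq_one {a b : G} (ha : a * a = 1) (hb : b * b = 1) (h : a * b * (a * b) = 1) : a * b = b * a := by
  rw [eq_inv_of_mul_eq_one_left h, mul_inv_rev, inv_eq ha, inv_eq hb]

theorem comm_left {t w g : G} (a : g * (t * w) = t * w * g) (b : g * w = w * g) : g * t = t * g := by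
  apply mul_right_cancel (b := w)
  rw [mul_assoc, a, mul_assoc, mul_assoc, b]

theorem comm_mul {t w g : G} (a : g * t = t * g) (b : g * w = w * g) : g * (t * w) = t * w * g :=
  (Commute.mul_right a b).eq

theorem mul_comm' {t g h : G} (a : g * t = t * g) (b : h * t = t * h) : g * h * t = t * (g * h) :=
  (Commute.mul_left a b).eq

theorem in4_comm {a b e g : G} (h : In4 a b e) (x : a * g = g * a) (y : b * g = g * b) : e * g = g * e := by
  rcases h with rfl | rfl | rfl | rfl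
  exacts [by simp, x, y, mul_comm' x y]

theorem in4_mem {a b e : G} {S : Subgroup G} (h : In4 a b e) (x : a ∈ S) (y : b ∈ S) : e ∈ S := by
  rcases h with rfl | rfl | rfl | rfl
  exacts [S.one_mem, x, y, S.mul_mem x y]

theorem in4_sq {a b e : G} (h : In4 a b e) (x : a * a = 1) (y : b * b = 1) (z : a * b = b * a) : e * e = 1 := by
  rcases h with rfl | rfl | rfl | rfl
  exacts [by simp, x, y, sq_mul x y z]

theorem in4_mul {a b e e' : G} (h : In4 a b e) (h' : In4 a b e') (x : a * a = 1) (y : b * b = 1) (z : a * b = b * a) :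
    In4 a b (e * e') := by
  obtain ⟨p, q, rfl⟩ := in4_iff.1 h
  obtain ⟨p', q', rfl⟩ := in4_iff.1 h'
  exact in4_iff.2 ⟨xor p p', xor q q', by
    rw [pw_xor x, pw_xor y, (pw_comm z.symm q p').mul_mul_mul_comm]⟩

theorem in4_symm {a b e : G} (h : In4 a b e) (z : a * b = b * a) : In4 b a e := by
  rcases h with rfl | rfl | rfl | rfl
  exacts [.inl rfl, .inr (.inr (.inl rfl)), .inr (.inl rfl), .inr (.inr (.inr z))]

theorem in4_mul_r {a b e : G} (h : In4 a (a * b) e) (x : a * a = 1) : In4 a b e := by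
  rcases h with rfl | rfl | rfl | rfl
  exacts [.inl rfl, .inr (.inl rfl), .inr (.inr (.inr rfl)), .inr (.inr (.inl (mul_cancel2 x b)))]

/-- `K ∪ K r` -/
def ext (K : Subgroup G) (r : G) (h1 : ∀ k ∈ K, r * k * r⁻¹ ∈ K) (h2 : r * r ∈ K) : Subgroup G where
  carrier := {g | g ∈ K ∨ g * r ∈ K}
  one_mem' := .inl K.one_mem
  mul_mem' := by
    have h3 : ∀ k ∈ K, r⁻¹ * k * r ∈ K := fun k hk => by
      simpa [mul_assoc] using K.mul_mem (K.mul_mem (K.inv_mem h2) (h1 k hk)) h2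
    rintro a b (ha | ha) (hb | hb)
    · exact .inl (K.mul_mem ha hb)
    · exact .inr (by rw [mul_assoc]; exact K.mul_mem ha hb)
    · exact .inr (by simpa [mul_assoc] using K.mul_mem ha (h3 b hb))
    · exact .inl (by simpa [mul_assoc] using K.mul_mem (K.mul_mem ha (h3 _ hb)) (K.inv_mem h2))
  inv_mem' := by
    rintro a (ha | ha)
    · exact .inl (K.inv_mem ha)
    · exact .inr (by simpa [mul_assoc] using K.mul_mem (K.inv_mem (h1 _ ha)) (K.mul_mem (h1 _ ha)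
        (K.mul_mem (K.inv_mem ha) (K.mul_mem ha (K.mul_mem (K.inv_mem (h1 _ ha)) h2)))))

theorem mem_ext {K : Subgroup G} {r : G} {h1 : ∀ k ∈ K, r * k * r⁻¹ ∈ K} {h2 : r * r ∈ K} {g : G} :
    g ∈ ext K r h1 h2 ↔ g ∈ K ∨ g * r ∈ K := Iff.rfl

/-- a `2`-group centralising `⟨t, w⟩` and containing the good group `⟨t, w, r⟩` -/
structure St (Cm : G → G → Prop) (S : Subgroup G) (t w r : G) : Prop where
  pg : IsPGroup 2 S
  gd : Gd Cm t w r
  tS : t ∈ S
  wS : w ∈ S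
  rS : r ∈ S
  ct : ∀ s ∈ S, s * t = t * s
  cw : ∀ s ∈ S, s * w = w * s

theorem pw2 {S : Subgroup G} (h : IsPGroup 2 S) {s : G} (hs : s ∈ S) : ∃ n, s ^ 2 ^ n = 1 :=
  (h ⟨s, hs⟩).imp fun _ e => congrArg Subtype.val e

namespace Cx

variable (c : Cx Cm Y)
include c

def cmS (g : G) : Subgroup G where
  carrier := {h | Cm g h}
  one_mem' := c.one g
  mul_mem' := c.mul
  inv_mem' := c.inv

def YS (t : G) (t2 : t * t = 1) : Subgroup G where
  carrier := {h | Y t h}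
  one_mem' := c.Y_one t2
  mul_mem' := c.Y_mul t2
  inv_mem' := c.Y_inv t2

theorem dec {t w r u s : G} (d : Dp Cm t w) (st : s * t = t * s) (sw : s * w = w * s) (tr : Cm t r)
    (rw' : r * w = w * r) (wr : ¬ Cm w r) (wu : Cm w u) (ut : u * t = t * u) (tu : ¬ Cm t u) :
    ∃ e, In4 r u e ∧ Cm t (s * e) ∧ Cm w (s * e) := by
  by_cases a : Cm t s <;> by_cases b : Cm w s
  · exact ⟨1, .inl rfl, by simpa using a, by simpa using b⟩
  · exact ⟨r, .inr (.inl rfl), c.mul a tr, c.two d.w2 sw rw' b wr⟩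
  · exact ⟨u, .inr (.inr (.inl rfl)), c.two d.t2 st ut a tu, c.mul b wu⟩
  · exact ⟨r * u, .inr (.inr (.inr rfl)),
      c.two d.t2 st (mul_comm' (c.comm tr).symm ut) a fun e => tu ((c.mul_iff tr).1 e),
      c.two d.w2 sw (mul_comm' rw' (c.comm wu).symm) b fun e => wr ((c.mul_iff' wu).1 e)⟩

theorem in4_of_Y {t w a : G} (d : Dp Cm t w) (h : a = 1 ∨ a = t ∨ a * w = 1 ∨ a * w = t) : In4 t w a := by
  rcases h with h | h | h | h
  · exact .inl h
  · exact .inr (.inl h)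
  · exact .inr (.inr (.inl (by rw [eq_inv_of_mul_eq_one_left h, inv_eq d.w2])))
  · exact .inr (.inr (.inr (by rw [← h, mul_assoc, d.w2, mul_one])))

/-- a torus element commuting with elements of two types -/
theorem cA {t w r u a : G} (d : Dp Cm t w) (tr : Cm t r) (rw' : r * w = w * r) (wr : ¬ Cm w r)
    (uw : u * w = w * u) (ut : u * t = t * u) (tu : ¬ Cm t u) (ta : Cm t a) (wa : Cm w a) (ar : a * r = r * a)
    (au : a * u = u * a) : In4 t w a := by
  have k : ∀ y, Y t y → u * y = y * u → y = 1 ∨ y = t := fun y hy e => c.Y_two d.t2 d.t1 hy (by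
    have := c.Y_anti d.t2 hy ut tu
    rw [conj_of_comm e] at this
    exact mul_eq_one_iff_eq_inv.2 this)
  refine c.in4_of_Y d ?_
  rcases c.ga d tr rw' wr ta wa ar with h | h
  · exact (k _ h au.symm).imp_right .inl
  · exact .inr (.inr (k _ h (comm_mul au.symm uw)))

theorem cA' {t w r a : G} (d : Dp Cm t w) (tr : Cm t r) (rw' : r * w = w * r) (wr : ¬ Cm w r) (hn : ¬ HasY Y t)
    (ta : Cm t a) (wa : Cm w a) (ar : a * r = r * a) {n : ℕ} (h2 : a ^ 2 ^ (n + 1) = 1) : In4 t w a := by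
  refine c.in4_of_Y d ?_
  rcases c.ga d tr rw' wr ta wa ar with h | h
  · exact (c.Y_small d.t2 d.t1 hn h h2).imp_right .inl
  · refine .inr (.inr (c.Y_small d.t2 d.t1 hn h (n := n + 1) ?_))
    rw [(show Commute a w from (c.comm wa).symm).mul_pow, h2, pow_succ', pow_mul, pow_two, d.w2]; simp

theorem fr_dp {w r t u : G} (f : Fr Cm w r t u) : Dp Cm t w :=
  ⟨f.t2, f.w2, fun e => f.q' (e ▸ c.symm (c.one u)), fun e => f.q (e ▸ c.symm (c.one r)),
    fun e => f.q (e ▸ c.symm f.rt), c.symm f.wt⟩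

/-- the frame group is self-centralising -/
theorem ce16 {w r t u g : G} (f : Fr Cm w r t u) (gw : g * w = w * g) (gr : g * r = r * g) (gt : g * t = t * g)
    (gu : g * u = u * g) : In16 w r t u g := by
  have d := c.fr_dp f
  have ru := c.comm f.ru
  obtain ⟨e, he, a, b⟩ := c.dec d gt gw (c.symm f.rt) f.wr.symm f.q f.wu f.tu.symm f.q'
  have h := c.cA d (c.symm f.rt) f.wr.symm f.q (c.comm f.wu).symm f.tu.symm f.q' a b
    (mul_comm' gr (in4_comm he rfl ru.symm)) (mul_comm' gu (in4_comm he ru rfl))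
  have e' : g = g * e * e := by rw [mul_assoc, in4_sq he f.r2 f.u2 ru, mul_one]
  obtain ⟨p, q, h⟩ := in4_iff.1 h
  obtain ⟨p', q', rfl⟩ := in4_iff.1 he
  refine in16_iff.2 ⟨(q, p', p, q'), ?_⟩
  rw [e', h, ee, (pw_comm (c.comm d.cm) p q).eq, (pw_comm (c.comm f.rt).symm p p').mul_mul_mul_comm]

theorem fr_of {t w r u : G} (h : Gd Cm t w r) (u2 : u * u = 1) (ut : u * t = t * u) (ur : u * r = r * u)
    (wu : Cm w u) (tu : ¬ Cm t u) : Cm r u ∧ Fr Cm w r t u ∨ ¬ Cm r u ∧ Fr Cm w r t (w * u) := by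
  obtain ⟨x, h⟩ := h
  by_cases e : Cm r u
  · exact .inl ⟨e, h.a2, h.b2, h.t2, u2, h.ab, ut.symm, h.q, tu, c.symm h.ta, wu, c.symm h.tb, e⟩
  · exact .inr ⟨e, h.a2, h.b2, h.t2, sq_mul h.a2 u2 (c.comm wu), h.ab, comm_mul (c.comm h.ta) ut.symm, h.q,
      fun e => tu ((c.mul_iff h.ta).1 e), c.symm h.ta, c.mul (c.refl w) wu, c.symm h.tb,
      c.two h.b2 h.ab ur (fun e => h.q (c.symm e)) e⟩

theorem fr_ex {t w r u : G} (h : Gd Cm t w r) (u2 : u * u = 1) (ut : u * t = t * u) (ur : u * r = r * u)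
    (wu : Cm w u) (tu : ¬ Cm t u) : ∃ u', Fr Cm w r t u' ∧ (u' = u ∨ u' = w * u) :=
  (c.fr_of h u2 ut ur wu tu).elim (fun e => ⟨_, e.2, .inl rfl⟩) fun e => ⟨_, e.2, .inr rfl⟩

/-- an involution reflecting the plane of the fixed vector is aligned -/
theorem nn {t w r u : G} (h : Gd Cm t w r) (u2 : u * u = 1) (ut : u * t = t * u) (wu : Cm w u) (tu : ¬ Cm t u)
    {n : ℕ} (hn : (r * u) ^ 2 ^ n = 1) : r * u = u * r := by
  have d := c.gd_dp h
  have d' := c.dp_mul d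
  obtain ⟨x, hx⟩ := id h
  have a : ¬ Cm t (r * u) := fun e => tu ((c.mul_iff hx.tb).1 e)
  have a' := mul_comm' (c.comm hx.tb).symm ut
  have b := c.sq (c.dp_symm d') (c.two' d.t2 d.w2 a' (mul_comm' hx.ab.symm (c.comm wu).symm) a
    fun e => hx.q ((c.mul_iff' wu).1 e)) a' a
  rcases c.Y_small d'.w2 d'.w1 (c.noY h) b (n := n) (by rw [← pow_two, ← pow_mul, mul_comm, pow_mul, hn]; simp) with
    e | e
  · exact comm_of_sq_one hx.b2 u2 e
  · have : u * r * u⁻¹ = t * w * r := by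
      rw [← comm_mul (c.comm hx.tb).symm hx.ab.symm, ← e, inv_eq u2]
      simp only [mul_assoc, mul_cancel2 hx.b2]
    rcases c.star h ut (c.comm wu).symm this (.inr (.inr (.inr rfl))) with e | e
    · exact (d'.w1 e).elim
    · exact (d.t1 (by simpa using e)).elim

theorem in16_l {w r t u p : G} (h : In4 w r p) : In16 w r t u p := ⟨p, 1, h, .inl rfl, by simp⟩

theorem in16_r {w r t u p : G} (h : In4 t u p) : In16 w r t u p := ⟨1, p, .inl rfl, h, by simp⟩

theorem fr_u1 {w r t u : G} (f : Fr Cm w r t u) : u ≠ 1 := fun e => f.q' (e ▸ c.one t)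

theorem pIIb {t w r r' : G} (h : Gd Cm t w r) (h' : Gd Cm w (t * w) r') {n : ℕ} (hn : (r * r') ^ 2 ^ n = 1) :
    False := by
  have d := c.gd_dp h
  obtain ⟨y, hy⟩ := id h'
  have a : r' * t = t * r' := comm_left hy.ab.symm (c.comm hy.tb).symm
  have b : ¬ Cm t r' := fun e => hy.q (c.lmul e hy.tb)
  obtain ⟨u, f, e⟩ := c.fr_ex h hy.b2 a (c.nn h hy.b2 a hy.tb b hn).symm hy.tb b
  rw [c.comm d.cm] at h'
  refine c.mixed f h h' (c.in16_l (.inr (.inl rfl))) (.inr (.inl rfl)) (.inr (.inl rfl)) ?_ d.w1 d.t1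
  rcases e with rfl | rfl
  · exact c.in16_r (.inr (.inr (.inl rfl)))
  · exact ⟨w, _, .inr (.inl rfl), .inr (.inr (.inl rfl)), (mul_cancel2 d.w2 _).symm⟩

theorem pI {t w r r' : G} (h : Gd Cm t w r) (h' : Gd Cm w t r') {n : ℕ} (hn : (r * r') ^ 2 ^ n = 1) :
    Fr Cm w r t r' := by
  have d := c.gd_dp h
  obtain ⟨y, hy⟩ := id h'
  rcases c.fr_of h hy.b2 hy.ab.symm (c.nn h hy.b2 hy.ab.symm hy.tb hy.q hn).symm hy.tb hy.q with e | ⟨-, f⟩
  · exact e.2
  · have h'' := c.gd_swap h'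
    rw [← mul_cancel2 d.w2 r'] at h''
    exact (c.mixed f h h'' (c.in16_l (.inr (.inl rfl))) (.inr (.inl rfl)) (.inr (.inr (.inl rfl)))
      (c.in16_r (.inr (.inl rfl))) d.w1 (c.fr_u1 f)).elim

theorem pIIa {t w r r' : G} (h : Gd Cm t w r) (h' : Gd Cm (t * w) w r') (e : r * r' = r' * r) : False := by
  have d := c.gd_dp h
  obtain ⟨x, hx⟩ := id h
  obtain ⟨y, hy⟩ := id h'
  have a : r' * t = t * r' := comm_left (c.comm hy.tb).symm hy.ab.symm
  have b : ¬ Cm t r' := fun e => hy.q ((c.lmul_iff e).1 hy.tb)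
  obtain ⟨u, f, e'⟩ := c.fr_ex h (sq_mul hx.b2 hy.b2 e) (mul_comm' (c.comm hx.tb).symm a)
    (mul_comm' rfl e.symm) (c.two d.w2 hx.ab.symm hy.ab.symm hx.q hy.q) fun e => b ((c.mul_iff hx.tb).1 e)
  have h'' := c.gd_swap h'
  have s : In16 w r t u (t * w) := ⟨w, t, .inr (.inl rfl), .inr (.inl rfl), c.comm d.cm⟩
  rcases e' with rfl | rfl
  · rw [← mul_cancel2 hx.b2 r'] at h''
    exact c.mixed f h h'' s (.inr (.inr (.inl rfl))) (.inr (.inr (.inl rfl))) (c.in16_l (.inr (.inl rfl)))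
      (fun e => hx.q (e ▸ c.one w)) (c.fr_u1 f)
  · rw [show r' = w * r * (w * (r * r')) by rw [← mul_assoc w r r', ← mul_assoc, hx.ab2, one_mul]] at h''
    exact c.mixed f h h'' s (.inr (.inr (.inr rfl))) (.inr (.inr (.inl rfl))) (c.in16_l (.inr (.inl rfl)))
      (fun e => hx.q ((c.mul_iff (c.refl w)).1 (e ▸ c.one w))) (c.fr_u1 f)

/-- the three maps from the torus to the groups `Y` -/
theorem phi {t w r u a : G} (d : Dp Cm t w) (r2 : r * r = 1) (u2 : u * u = 1) (tr : Cm t r) (rw' : r * w = w * r)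
    (wr : ¬ Cm w r) (wu : Cm w u) (ut : u * t = t * u) (tu : ¬ Cm t u) (ta : Cm t a) (wa : Cm w a) :
    Y t (a * (r * a * r⁻¹)) ∧ Y w (a * (u * a * u⁻¹)) ∧ Y (t * w) (a * (r * u * a * (r * u)⁻¹)) ∧
      Y (t * w) (r * u * (r * u)) ∧
      a * (r * a * r⁻¹)⁻¹ = a * (u * a * u⁻¹) * (a * (r * u * a * (r * u)⁻¹)) ∧
      a * (u * a * u⁻¹)⁻¹ = a * (r * a * r⁻¹) * (a * (r * u * a * (r * u)⁻¹)) := by
  have d' := c.dp_mul d
  have rt := (c.comm tr).symm
  have uw := (c.comm wu).symm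
  have at' := (c.comm ta).symm
  have aw := (c.comm wa).symm
  have h1 : Y t (a * (r * a * r⁻¹)) := by
    simpa only [inv_eq r2, mul_assoc] using
      c.sq d (c.mul ta tr) (mul_comm' aw rw') fun e => wr ((c.mul_iff wa).1 e)
  have h2 : Y w (a * (u * a * u⁻¹)) := by
    simpa only [inv_eq u2, mul_assoc] using
      c.sq (c.dp_symm d) (c.mul wa wu) (mul_comm' at' ut) fun e => tu ((c.mul_iff ta).1 e)
  have n1 : ¬ Cm t (r * u) := fun e => tu ((c.mul_iff tr).1 e)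
  have n2 := c.two' d.t2 d.w2 (mul_comm' rt ut) (mul_comm' rw' uw) n1 fun e => wr ((c.mul_iff' wu).1 e)
  have h4 := c.sq (c.dp_symm d') n2 (mul_comm' rt ut) n1
  have h3 := c.Y_mul d'.w2 (c.sq (c.dp_symm d') (c.mul (c.lmul ta wa) n2) (mul_comm' at' (mul_comm' rt ut))
    fun e => n1 ((c.mul_iff ta).1 e)) (c.Y_inv d'.w2 h4)
  have h5 := c.Y_anti d.w2 h2 rw' wr
  have k : ∀ g, g * t = t * g → g * w = w * g → a * (g * a * g⁻¹) = g * a * g⁻¹ * a := fun g x y =>
    c.comm (c.tor d ta wa ((c.conj_r x).2 ta) ((c.conj_r y).2 wa))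
  have k' : r * a * r⁻¹ * (u * a * u⁻¹) = u * a * u⁻¹ * (r * a * r⁻¹) :=
    c.comm (c.tor d ((c.conj_r rt).2 ta) ((c.conj_r rw').2 wa) ((c.conj_r ut).2 ta) ((c.conj_r uw).2 wa))
  have h6 : r * u * a * (r * u)⁻¹ = (r * a * r⁻¹)⁻¹ * (a * (u * a * u⁻¹))⁻¹ := by rw [← h5]; group
  refine ⟨h1, h2, by convert h3 using 1; group, h4, ?_, ?_⟩ <;> rw [h6]
  · have e1 := k r rt rw'
    have e2 := k u ut uw
    generalize r * a * r⁻¹ = ρ at *
    generalize u * a * u⁻¹ = σ at *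
    have e3 : Commute (a * σ) (a * ρ⁻¹) := Commute.mul_right (Commute.mul_left rfl e2.symm)
      (Commute.inv_right (Commute.mul_left e1 k'.symm))
    rw [← mul_assoc a ρ⁻¹, ← mul_assoc, e3.eq, mul_inv_cancel_right]
  · have e1 := k r rt rw'
    have e2 := k u ut uw
    generalize r * a * r⁻¹ = ρ at *
    generalize u * a * u⁻¹ = σ at *
    rw [mul_assoc a ρ, ← lcomm e1, mul_inv_cancel_left, e2]; group

end Cx

end CL.D4.B
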