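import Cfsg.Agent.CLAS.D4.B3
import Cfsg.Agent.S0206

/-!
# Block B: the two possible shapes of a `2`-group with two kinds of good subgroups
-/

set_option autoImplicit false
set_option linter.unusedSectionVars false

namespace CL.D4.B

variable {G : Type*} [Group G] {Cm Y : G → G → Prop}

/-- `N` contains the good four-groups over `⟨t, w⟩` that lie in `S` -/
def Cov (Cm : G → G → Prop) (S N : Subgroup G) (t w : G) : Prop :=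
  ∀ s p q, In4 t w s → In4 t w p → q ∈ S → Gd Cm s p q → p ∈ N ∧ q ∈ N

theorem comm_mem {N : Subgroup G} {a a' m m' : G} (h : a * a' = a' * a) (hm : m ∈ N) (hm' : m' ∈ N)
    (n : ∀ x ∈ N, a * x * a⁻¹ ∈ N) (n' : ∀ x ∈ N, a' * x * a'⁻¹ ∈ N) :
    a * m * (a' * m') * (a * m)⁻¹ * (a' * m')⁻¹ ∈ N := by
  have e : a * m * (a' * m') * (a * m)⁻¹ * (a' * m')⁻¹ =
      a * m * a⁻¹ * (a * (a' * (m' * m⁻¹) * a'⁻¹) * a⁻¹) * (a * a' * a⁻¹ * m'⁻¹ * a'⁻¹) := by group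
  rw [e, conj_of_comm h]
  exact N.mul_mem (N.mul_mem (n _ hm) (n _ (n' _ (N.mul_mem hm' (N.inv_mem hm))))) (n' _ (N.inv_mem hm'))

theorem sup_conj {A B : Subgroup G} {a : G} (h : ∀ x ∈ A, a * x * a⁻¹ ∈ A) (h' : ∀ x ∈ B, a * x * a⁻¹ ∈ B) :
    ∀ x ∈ A ⊔ B, a * x * a⁻¹ ∈ A ⊔ B :=
  sup_le (c := (A ⊔ B).comap (MulAut.conj a).toMonoidHom) (fun x hx => Subgroup.mem_sup_left (h x hx))
    fun x hx => Subgroup.mem_sup_right (h' x hx)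

namespace Cx

variable (c : Cx Cm Y)
include c

theorem cov_cases {t w s p q : G} (hs : In4 t w s) (hp : In4 t w p) (h : Gd Cm s p q) :
    s = t ∧ p = w ∨ s = t ∧ p = t * w ∨ s = w ∧ p = t ∨ s = w ∧ p = t * w ∨ s = t * w ∧ p = t ∨
      s = t * w ∧ p = w := by
  have d := c.gd_dp h
  have a := d.t1
  have b := d.w1
  have e := d.ne
  unfold In4 at hs hp
  grind

theorem Ygen [Finite G] (S : Subgroup G) {t : G} (t2 : t * t = 1) (t1 : t ≠ 1) :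
    ∃ y₀ ∈ S, Y t y₀ ∧ ∀ y ∈ S, Y t y → ∃ n : ℕ, y = y₀ ^ n := by
  obtain ⟨z, hz, h⟩ := c.Y_cyc t2 t1
  have : IsCyclic ↥(S ⊓ c.YS t t2) :=
    Subgroup.isCyclic_of_le (H' := Subgroup.zpowers z) fun y hy => h y hy.2
  obtain ⟨g, hg⟩ := IsCyclic.exists_monoid_generator (α := ↥(S ⊓ c.YS t t2))
  exact ⟨g, g.2.1, g.2.2, fun y a b => (hg ⟨y, a, b⟩).imp fun n e => (congrArg Subtype.val e).symm⟩

theorem Ytri [Finite G] (S : Subgroup G) {t : G} (t2 : t * t = 1) (t1 : t ≠ 1) {y y' : G} (a : y ∈ S) (b : Y t y)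
    (a' : y' ∈ S) (b' : Y t y') : ∃ z ∈ S, Y t z ∧ (y = z * z ∨ y' = z * z ∨ y * y' = z * z) := by
  obtain ⟨z, h1, h2, h⟩ := c.Ygen S t2 t1
  obtain ⟨n, rfl⟩ := h y a b
  obtain ⟨m, rfl⟩ := h y' a' b'
  have k : ∀ j, Even j → ∃ i, z ^ j = z ^ i * z ^ i := fun j ⟨i, e⟩ => ⟨i, by rw [e, pow_add]⟩
  rcases Nat.even_or_odd n with e | e
  · exact (k n e).elim fun i e => ⟨_, S.pow_mem h1 i, c.Y_pow t2 h2 i, .inl e⟩
  rcases Nat.even_or_odd m with e' | e'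
  · exact (k m e').elim fun i e => ⟨_, S.pow_mem h1 i, c.Y_pow t2 h2 i, .inr (.inl e)⟩
  · exact (k _ (e.add_odd e')).elim fun i e =>
      ⟨_, S.pow_mem h1 i, c.Y_pow t2 h2 i, .inr (.inr (by rw [← pow_add, e]))⟩

/-! ### the product type -/

section I

variable {S : Subgroup G} {t w r u : G} (h : St Cm S t w r) (uS : u ∈ S) (h' : Gd Cm w t u)
include h uS h'

theorem st_swap : St Cm S w t u := ⟨h.pg, h', h.wS, h.tS, uS, h.cw, h.ct⟩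

theorem I_fr : Fr Cm w r t u := (pw2 h.pg (S.mul_mem h.rS uS)).elim fun _ e => c.pI h.gd h' e

theorem I_conj {s : G} (hs : s ∈ S) : Fr Cm w r t (s * u * s⁻¹) :=
  c.I_fr h (S.mul_mem (S.mul_mem hs uS) (S.inv_mem hs))
    (by simpa only [conj_of_comm (h.ct s hs), conj_of_comm (h.cw s hs)] using c.gd_conj h' s)

theorem I_inv {a : G} (ha : a ∈ S) (ta : Cm t a) (wa : Cm w a) : a * (r * u) * (a * (r * u)) = 1 := by
  have f := c.I_fr h uS h'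
  have d := c.fr_dp f
  have d' := c.dp_mul d
  obtain ⟨p1, -, p3, -, -, p6⟩ := c.phi d f.r2 f.u2 (c.symm f.rt) f.wr.symm f.q f.wu f.tu.symm f.q' ta wa
  have n2 := sq_mul f.r2 f.u2 (c.comm f.ru)
  have e : a * (r * u * a * (r * u)⁻¹) = a * (r * u) * (a * (r * u)) := by rw [inv_eq n2]; group
  rw [e] at p3 p6
  have nS := S.mul_mem ha (S.mul_mem h.rS uS)
  obtain ⟨n, hn⟩ := pw2 h.pg (S.mul_mem nS nS)
  refine (c.Y_small d'.w2 d'.w1 (c.noY h.gd) p3 hn).resolve_right fun e' => c.gd_tw h.gd (c.symm ?_)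
  have k := c.mul (c.I_conj h uS h' ha).ru (c.inv f.ru)
  rw [show a * u * a⁻¹ * u⁻¹ = a * (u * a * u⁻¹)⁻¹ by group, p6, e'] at k
  exact (c.mul_iff (c.Y_cm p1 f.rt)).1 k

theorem D_mem {x : G} (tx : Cm t x) (ux : Cm u x) (hx : x ∈ S) : Y w x ∨ Y w (x * r) := by
  have f := c.I_fr h uS h'
  have d := c.dp_symm (c.fr_dp f)
  have k : ∀ x, Cm t x → Cm u x → Cm w x → Y w x := fun x a b e =>
    (c.ga d f.wu f.tu.symm f.q' e a (c.comm b).symm).resolve_right fun e' =>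
      f.q' (c.symm ((c.mul_iff b).1 (c.Y_cm' e' f.wu)))
  by_cases e : Cm w x
  · exact .inl (k x tx ux e)
  · exact .inr (k _ (c.mul tx (c.symm f.rt)) (c.mul ux (c.symm f.ru)) (c.two f.w2 (h.cw x hx) f.wr.symm e f.q))

theorem D_cm {x v : G} (tx : Cm t x) (ux : Cm u x) (hx : x ∈ S) (wv : Cm w v) (rv : Cm r v) : Cm v x := by
  rcases c.D_mem h uS h' tx ux hx with e | e
  · exact c.Y_cm' e wv
  · exact (c.mul_iff' (c.symm rv)).1 (c.Y_cm' e wv)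

theorem D_norm {s x : G} (hs : s ∈ S) (hx : x ∈ S ⊓ c.cmS t ⊓ c.cmS u) : s * x * s⁻¹ ∈ S ⊓ c.cmS t ⊓ c.cmS u := by
  obtain ⟨⟨a, b⟩, e⟩ := hx
  have f := c.I_conj h uS h' (S.inv_mem hs)
  refine ⟨⟨S.mul_mem (S.mul_mem hs a) (S.inv_mem hs), (c.conj_r (h.ct s hs)).2 b⟩, ?_⟩
  show Cm u _
  simpa [mul_assoc] using c.conj s (c.D_cm h uS h' b e a f.wu f.ru)

theorem D_dih [Finite G] : ∃ m : ℕ, 2 ≤ m ∧ Nonempty (↥(S ⊓ c.cmS t ⊓ c.cmS u) ≃* DihedralGroup m) := by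
  have f := c.I_fr h uS h'
  have d := c.fr_dp f
  obtain ⟨y, yS, hy, g⟩ := c.Ygen S d.w2 d.w1
  have y1 : y ≠ 1 := fun e => (g w h.wS (c.Y_self w)).elim fun n e' => d.w1 (by simpa [e] using e')
  have r1 : r ≠ 1 := fun e => f.q (e ▸ c.one w)
  have i := c.Y_anti d.w2 hy f.wr.symm f.q
  have yr : y * r * (y * r) = 1 := by
    rw [show y * r * (y * r) = y * (r * y * r⁻¹) * (r * r) by group, i, f.r2]; simp
  have yr1 : y * r ≠ 1 := fun e => f.q ((c.mul_iff (c.Y_cm hy (c.refl w))).1 (e ▸ c.one w))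
  have o : ∀ {g : G}, g * g = 1 → g ≠ 1 → orderOf g = 2 := fun a b => orderOf_eq_prime (by rw [pow_two, a]) b
  have e : Subgroup.closure {y * r, r} = S ⊓ c.cmS t ⊓ c.cmS u := by
    have m1 : r ∈ S ⊓ c.cmS t ⊓ c.cmS u := ⟨⟨h.rS, c.symm f.rt⟩, c.symm f.ru⟩
    refine le_antisymm ((Subgroup.closure_le _).2 ?_) fun x ⟨⟨a, b⟩, e⟩ => ?_
    · rintro _ (rfl | rfl)
      · exact Subgroup.mul_mem _ ⟨⟨yS, c.Y_cm hy d.cm⟩, c.Y_cm' hy f.wu⟩ m1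
      · exact m1
    · have m2 : r ∈ Subgroup.closure {y * r, r} := Subgroup.subset_closure (by simp)
      have m3 : y ∈ Subgroup.closure {y * r, r} := by
        simpa using Subgroup.mul_mem _ (Subgroup.subset_closure (show y * r ∈ ({y * r, r} : Set G) by simp))
          (Subgroup.inv_mem _ m2)
      rcases c.D_mem h uS h' b e a with k | k
      · obtain ⟨n, rfl⟩ := g x a k
        exact Subgroup.pow_mem _ m3 n
      · obtain ⟨n, e⟩ := g _ (S.mul_mem a h.rS) k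
        rw [eq_mul_inv_of_mul_eq e]
        exact Subgroup.mul_mem _ (Subgroup.pow_mem _ m3 n) (Subgroup.inv_mem _ m2)
  have := Cfsg.Agent.S0206.result (y * r) r (o yr yr1) (o f.r2 r1) (by simpa using y1)
  rw [e, mul_assoc, f.r2, mul_one] at this
  have h0 := orderOf_pos y
  have h1 : orderOf y ≠ 1 := by simpa using y1
  exact ⟨_, by omega, this⟩

theorem D_comm {x x' : G} (hx : x ∈ S ⊓ c.cmS t ⊓ c.cmS u) (hx' : x' ∈ S ⊓ c.cmS w ⊓ c.cmS r) : x * x' = x' * x :=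
  (c.comm (c.D_cm h uS h' hx.1.2 hx.2 hx.1.1 hx'.1.2 hx'.2)).symm

theorem D_inf : (S ⊓ c.cmS t ⊓ c.cmS u) ⊓ (S ⊓ c.cmS w ⊓ c.cmS r) = ⊥ := by
  have f := c.I_fr h uS h'
  refine (Subgroup.eq_bot_iff_forall _).2 fun x ⟨⟨⟨_, a⟩, b⟩, ⟨_, d⟩, e⟩ => ?_
  obtain ⟨p, q, hp, hq, rfl⟩ := c.ce16 f (c.comm d).symm (c.comm e).symm (c.comm a).symm (c.comm b).symm
  have f' := c.fr_symm f
  rw [c.in4_eq_one f hp ((c.lmul_iff' (c.in4_cm f' hq (.inr (.inl rfl)))).1 (c.symm d))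
      ((c.lmul_iff' (c.in4_cm f' hq (.inr (.inr (.inl rfl))))).1 (c.symm e)),
    c.in4_eq_one f' hq ((c.lmul_iff (c.in4_cm f hp (.inr (.inl rfl)))).1 (c.symm a))
      ((c.lmul_iff (c.in4_cm f hp (.inr (.inr (.inl rfl))))).1 (c.symm b)), mul_one]

theorem I_dec {s : G} (hs : s ∈ S) : ∃ e, In4 r u e ∧ Cm t (s * e) ∧ Cm w (s * e) :=
  have f := c.I_fr h uS h'
  c.dec (c.fr_dp f) (h.ct s hs) (h.cw s hs) (c.symm f.rt) f.wr.symm f.q f.wu f.tu.symm f.q'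

theorem I_comm {s s' : G} (hs : s ∈ S) (hs' : s' ∈ S) :
    s * s' * s⁻¹ * s'⁻¹ ∈ (S ⊓ c.cmS t ⊓ c.cmS u) ⊔ (S ⊓ c.cmS w ⊓ c.cmS r) := by
  have f := c.I_fr h uS h'
  have m : ∀ {e}, In4 r u e → e⁻¹ ∈ (S ⊓ c.cmS t ⊓ c.cmS u) ⊔ (S ⊓ c.cmS w ⊓ c.cmS r) := fun he =>
    Subgroup.inv_mem _ (in4_mem he (Subgroup.mem_sup_left ⟨⟨h.rS, c.symm f.rt⟩, c.symm f.ru⟩)
      (Subgroup.mem_sup_right ⟨⟨uS, f.wu⟩, f.ru⟩))
  have n : ∀ a ∈ S, ∀ x ∈ (S ⊓ c.cmS t ⊓ c.cmS u) ⊔ (S ⊓ c.cmS w ⊓ c.cmS r),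
      a * x * a⁻¹ ∈ (S ⊓ c.cmS t ⊓ c.cmS u) ⊔ (S ⊓ c.cmS w ⊓ c.cmS r) := fun a ha =>
    sup_conj (fun x hx => c.D_norm h uS h' ha hx) fun x hx => c.D_norm (c.st_swap h uS h') h.rS h.gd ha hx
  obtain ⟨e, he, a, b⟩ := c.I_dec h uS h' hs
  obtain ⟨e', he', a', b'⟩ := c.I_dec h uS h' hs'
  simpa using comm_mem (c.comm (c.tor (c.fr_dp f) a b a' b')) (m he) (m he')
    (n _ (S.mul_mem hs (in4_mem he h.rS uS))) (n _ (S.mul_mem hs' (in4_mem he' h.rS uS)))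

theorem I_cov : Cov Cm S ((S ⊓ c.cmS t ⊓ c.cmS u) ⊔ (S ⊓ c.cmS w ⊓ c.cmS r)) t w := by
  intro s p q hs hp hq g
  have f := c.I_fr h uS h'
  have d := c.fr_dp f
  obtain ⟨n, e1⟩ := pw2 h.pg (S.mul_mem h.rS hq)
  obtain ⟨n, e2⟩ := pw2 h.pg (S.mul_mem uS hq)
  obtain ⟨n, e3⟩ := pw2 h.pg (S.mul_mem hq h.rS)
  obtain ⟨n, e4⟩ := pw2 h.pg (S.mul_mem hq uS)
  rcases c.cov_cases hs hp g with ⟨rfl, rfl⟩ | ⟨rfl, rfl⟩ | ⟨rfl, rfl⟩ | ⟨rfl, rfl⟩ | ⟨rfl, rfl⟩ | ⟨rfl, rfl⟩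
  · have f' := c.pI g h' e4
    exact ⟨Subgroup.mem_sup_left ⟨⟨h.wS, d.cm⟩, c.symm f.wu⟩,
      Subgroup.mem_sup_left ⟨⟨hq, c.symm f'.rt⟩, c.symm f'.ru⟩⟩
  · exact (c.sameK h.gd g e1).elim
  · have f' := c.pI h.gd g e1
    exact ⟨Subgroup.mem_sup_right ⟨⟨h.tS, f.wt⟩, f.rt⟩, Subgroup.mem_sup_right ⟨⟨hq, f'.wu⟩, f'.ru⟩⟩
  · exact (c.pIIb h.gd g e1).elim
  · exact (c.pIIb g (by rw [c.comm d.cm, mul_assoc, d.t2, mul_one]; exact h.gd) e3).elim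
  · exact (c.pIIb g (by rw [mul_assoc, d.w2, mul_one]; exact h') e4).elim

/-- `S` is generated by involutions -/
theorem I_gen {v : G} (hv : ∀ i ∈ S, i * i = 1 → i * v = v * i) {s : G} (hs : s ∈ S) : s * v = v * s := by
  have f := c.I_fr h uS h'
  obtain ⟨e, he, a, b⟩ := c.I_dec h uS h' hs
  have m := S.mul_mem hs (in4_mem he h.rS uS)
  have h1 := hv _ (S.mul_mem m (S.mul_mem h.rS uS)) (c.I_inv h uS h' m a b)
  have h2 := in4_comm he (hv r h.rS f.r2) (hv u uS f.u2)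
  have h3 := mul_comm' (hv r h.rS f.r2) (hv u uS f.u2)
  simpa only [mul_inv_cancel_right] using
    (Commute.mul_left (Commute.mul_left h1 (Commute.inv_left h3)) (Commute.inv_left h2)).eq

end I

end Cx

end CL.D4.B
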