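import Cfsg.Agent.CLAS.D4.B4

/-!
# Block B: the shape `dihedral × 2`
-/

set_option autoImplicit false
set_option linter.unusedSectionVars false

namespace CL.D4.B

variable {G : Type*} [Group G] {Cm Y : G → G → Prop}

theorem sqn {f y n : G} (a : y * n = n * y) (b : f * n = n * f) (d : f * y = y * f) (e : f * f = 1) :
    f * y * n * (f * y * n) = y * y * (n * n) := by
  rw [(show Commute n (f * y) from (Commute.mul_left b a).symm).mul_mul_mul_comm,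
    (show Commute y f from d.symm).mul_mul_mul_comm, e, one_mul]

namespace Cx

variable [Finite G] (c : Cx Cm Y) {S : Subgroup G} {t w r u : G} (h : St Cm S t w r) (uS : u ∈ S)
  (h' : Gd Cm (t * w) w u)
include c h uS h'

theorem II_swap : St Cm S (t * w) w u ∧ Gd Cm (t * w * w) w r :=
  ⟨⟨h.pg, h', S.mul_mem h.tS h.wS, h.wS, uS, fun s hs => comm_mul (h.ct s hs) (h.cw s hs), h.cw⟩,
    by rw [mul_assoc, (c.gd_dp h.gd).w2, mul_one]; exact h.gd⟩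

theorem II_base : r * r = 1 ∧ u * u = 1 ∧ Cm t r ∧ ¬ Cm w r ∧ ¬ Cm w u ∧ ¬ Cm t u ∧ Cm w (r * u) ∧
    ¬ Cm t (r * u) ∧ ¬ HasY Y t := by
  obtain ⟨x, hx⟩ := h.gd
  obtain ⟨y, hy⟩ := id h'
  have b : ¬ Cm t u := fun e => hy.q ((c.lmul_iff e).1 hy.tb)
  exact ⟨hx.b2, hy.b2, hx.tb, hx.q, hy.q, b, c.two hx.a2 hx.ab.symm hy.ab.symm hx.q hy.q,
    fun e => b ((c.mul_iff hx.tb).1 e), by simpa only [mul_assoc, hx.a2, mul_one] using c.noY h'⟩

theorem II_phi {a : G} (ta : Cm t a) (wa : Cm w a) :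
    Y t (a * (r * a * r⁻¹)) ∧ Y (t * w) (a * (u * a * u⁻¹)) ∧ Y w (a * (r * u * a * (r * u)⁻¹)) ∧
      Y w (r * u * (r * u)) ∧
      a * (r * a * r⁻¹)⁻¹ = a * (u * a * u⁻¹) * (a * (r * u * a * (r * u)⁻¹)) ∧
      a * (u * a * u⁻¹)⁻¹ = a * (r * a * r⁻¹) * (a * (r * u * a * (r * u)⁻¹)) := by
  have d := c.gd_dp h.gd
  obtain ⟨r2, u2, tr, -, -, tu, -⟩ := c.II_base h uS h'
  obtain ⟨y, hy⟩ := id h'
  simpa only [mul_cancel2 d.t2] using c.phi (c.dp_mul d) r2 u2 tr (comm_mul (h.ct r h.rS) (h.cw r h.rS))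
    (c.gd_tw h.gd) hy.tb (h.ct u uS) tu ta (c.lmul ta wa)

theorem II_al {q b : G} (hq : Gd Cm t w q) (hb : b ∈ S) : q * (b * u * b⁻¹) * (q * (b * u * b⁻¹)) ≠ 1 := fun e => by
  have g := c.gd_conj h' b
  rw [conj_of_comm (comm_mul (h.ct b hb) (h.cw b hb)), conj_of_comm (h.cw b hb)] at g
  obtain ⟨x, hx⟩ := id hq
  obtain ⟨y, hy⟩ := id g
  exact c.pIIa hq g (comm_of_sq_one hx.b2 hy.b2 e)

theorem II_s3 {b : G} (hb : b ∈ S) (tb : Cm t b) (wb : Cm w b) :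
    r * u * (r * u) ≠ b * (r * u * b * (r * u)⁻¹) * (b * (r * u * b * (r * u)⁻¹)) := fun e => by
  have d := c.gd_dp h.gd
  obtain ⟨r2, u2, tr, wr, wu, tu, wn, tn, nt⟩ := c.II_base h uS h'
  obtain ⟨p1, -, p3, -, -, p6⟩ := c.II_phi h uS h' tb wb
  have m := S.mul_mem hb (S.mul_mem (S.mul_mem h.rS hb) (S.inv_mem h.rS))
  obtain ⟨k, hk⟩ := pw2 h.pg m
  have f2 : b * (r * b * r⁻¹) * (b * (r * b * r⁻¹)) = 1 := by
    rcases c.Y_small d.t2 d.t1 nt p1 hk with e | e <;> simp [e, d.t2]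
  have fc : ∀ s ∈ S, b * (r * b * r⁻¹) * s = s * (b * (r * b * r⁻¹)) := fun s hs => by
    rcases c.Y_small d.t2 d.t1 nt p1 hk with e | e <;> simp [e, h.ct s hs]
  refine c.II_al h uS h' h.gd hb ?_
  rw [show b * u * b⁻¹ = b * (u * b * u⁻¹)⁻¹ * u by group, p6]
  have i := c.Y_anti d.w2 p3 (h.cw r h.rS) wr
  have j := c.Y_comm (c.Y_inv d.w2 p3) wn
  have j' := c.Y_comm (c.Y_inv d.w2 p3) (c.Y_cm (c.Y_mul d.w2 p3 p3) (c.refl w))
  have f3 := fc _ (S.inv_mem (S.mul_mem hb (S.mul_mem (S.mul_mem (S.mul_mem h.rS uS) hb)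
    (S.inv_mem (S.mul_mem h.rS uS)))))
  have f4 := fc _ (S.mul_mem h.rS uS)
  have f5 := fc _ h.rS
  generalize b * (r * b * r⁻¹) = f at *
  generalize b * (r * u * b * (r * u)⁻¹) = y at *
  rw [show r * (f * y * u) = r * f * r⁻¹ * (r * y * r⁻¹) * (r * u) by group, i, conj_of_comm f5.symm,
    sqn j.symm f4 f3 f2, e]
  group

theorem II_phi1 {a : G} (ha : a ∈ S) (ta : Cm t a) (wa : Cm w a) : a * (u * a * u⁻¹) = 1 := by
  have d := c.gd_dp h.gd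
  have d' := c.dp_mul d
  obtain ⟨r2, u2, tr, wr, wu, tu, wn, tn, nt⟩ := c.II_base h uS h'
  have nS := S.mul_mem h.rS uS
  have st : ∀ g ∈ S, g * r * g⁻¹ ≠ t * w * r := fun g hg e => by
    rcases c.star h.gd (h.ct g hg) (h.cw g hg) e (.inr (.inr (.inr rfl))) with e | e
    · exact d'.w1 e
    · exact d.t1 (by simpa using e)
  have s0 : ∀ a, Cm t a → Cm w a → a * (u * a * u⁻¹) = t * w →
      a * r * a⁻¹ = t * w * (a * (r * u * a * (r * u)⁻¹)) * r := fun a ta wa e => by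
    rw [← e, ← (c.II_phi h uS h' ta wa).2.2.2.2.1]; group
  have sh : ∀ y, Y w y → Cm t (a * y⁻¹) ∧ Cm w (a * y⁻¹) ∧
      a * y⁻¹ * (u * (a * y⁻¹) * u⁻¹) = a * (u * a * u⁻¹) ∧
      a * y⁻¹ * (r * u * (a * y⁻¹) * (r * u)⁻¹) = a * (r * u * a * (r * u)⁻¹) * (y * y)⁻¹ := fun y hy => by
    have hy' := c.Y_inv d.w2 hy
    refine ⟨c.mul ta (c.Y_cm hy' d.cm), c.mul wa (c.Y_cm hy' (c.refl w)), ?_, ?_⟩
    · rw [conj_mul', c.Y_anti d.w2 hy' (h.cw u uS) wu, inv_inv, c.Y_comm hy ((c.conj_r (h.cw u uS)).2 wa)]; group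
    · rw [conj_mul', conj_of_comm (c.Y_comm hy' wn), mul_assoc a, ← lcomm (c.Y_comm hy'
        ((c.conj_r (h.cw _ nS)).2 wa))]; group
  obtain ⟨-, p2, p3, p4, -, -⟩ := c.II_phi h uS h' ta wa
  obtain ⟨k, hk⟩ := pw2 h.pg (S.mul_mem ha (S.mul_mem (S.mul_mem uS ha) (S.inv_mem uS)))
  refine (c.Y_small d'.w2 d'.w1 (c.noY h.gd) p2 hk).resolve_right fun e => ?_
  have fS := S.mul_mem ha (S.mul_mem (S.mul_mem nS ha) (S.inv_mem nS))
  have n1 : ∀ z ∈ S, Y w z → a * (r * u * a * (r * u)⁻¹) ≠ z * z := fun z hz y e' => by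
    obtain ⟨a1, a2, a3, a4⟩ := sh z y
    exact st _ (S.mul_mem ha (S.inv_mem hz)) (by rw [s0 _ a1 a2 (a3.trans e), a4, e']; simp)
  obtain ⟨z, zS, hz, e1 | e1 | e1⟩ := c.Ytri S d.w2 d.w1 fS p3 (S.mul_mem nS nS) p4
  · exact n1 z zS hz e1
  · obtain ⟨b, bS, hb, e2 | e2 | e2⟩ := c.Ytri S d.w2 d.w1 fS p3 (S.inv_mem zS) (c.Y_inv d.w2 hz)
    · exact n1 b bS hb e2
    · have hb' := c.Y_inv d.w2 hb
      refine c.II_s3 h uS h' (S.inv_mem bS) (c.Y_cm hb' d.cm) (c.Y_cm hb' (c.refl w)) ?_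
      rw [conj_of_comm (c.Y_comm hb' wn), ← mul_inv_rev, ← e2, inv_inv, e1]
    · obtain ⟨a1, a2, -, a4⟩ := sh b hb
      refine c.II_s3 h uS h' (S.mul_mem ha (S.inv_mem bS)) a1 a2 ?_
      rw [a4, ← e2, e1, c.Y_comm (c.Y_inv d.w2 hz) (c.Y_cm p3 (c.refl w))]; group
  · obtain ⟨a1, a2, a3, a4⟩ := sh z hz
    refine st _ (S.mul_mem uS (S.mul_mem ha (S.inv_mem zS))) ?_
    have j := c.Y_comm p4 (c.Y_cm p3 (c.refl w))
    rw [show u * (a * z⁻¹) * r * (u * (a * z⁻¹))⁻¹ = u * (a * z⁻¹ * r * (a * z⁻¹)⁻¹) * u⁻¹ by group,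
      s0 _ a1 a2 (a3.trans e), a4, ← e1, j, mul_inv_rev (r * u * (r * u)), mul_inv_cancel_left, conj_mul', conj_mul',
      conj_of_comm (comm_mul (h.ct u uS) (h.cw u uS)), c.Y_anti d.w2 (c.Y_inv d.w2 p4) (h.cw u uS) wu, inv_inv,
      inv_eq u2]
    simp only [mul_assoc, u2, mul_cancel2 u2, mul_cancel2 r2, mul_one]

theorem II_inv {a : G} (ha : a ∈ S) (ta : Cm t a) (wa : Cm w a) :
    r * a * r⁻¹ = a⁻¹ ∧ u * a * u⁻¹ = a⁻¹ ∧ (Y w a ∨ Y w (a * t)) := by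
  obtain ⟨g, g'⟩ := c.II_swap h uS h'
  have e1 := eq_inv_of_mul_eq_one_right (c.II_phi1 g h.rS g' ha (c.lmul ta wa) wa)
  have e2 := eq_inv_of_mul_eq_one_right (c.II_phi1 h uS h' ha ta wa)
  obtain ⟨r2, u2, tr, wr, wu, tu, wn, tn, nt⟩ := c.II_base h uS h'
  refine ⟨e1, e2, c.ga (c.dp_symm (c.gd_dp h.gd)) wn (h.ct _ (S.mul_mem h.rS uS)) tn wa ta (comm_of_conj ?_).symm⟩
  rw [show r * u * a * (r * u)⁻¹ = r * (u * a * u⁻¹) * r⁻¹ by group, e2, conj_inv.symm, e1, inv_inv]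

theorem II_good {q : G} (hq : q ∈ S) (g : Gd Cm t w q) : Y w (q * r) := by
  have d := c.gd_dp h.gd
  obtain ⟨r2, u2, tr, wr, wu, tu, wn, tn, nt⟩ := c.II_base h uS h'
  obtain ⟨x, hx⟩ := id g
  have nS := S.mul_mem h.rS uS
  have m := S.mul_mem hq h.rS
  refine (c.II_inv h uS h' m (c.mul hx.tb tr) (c.two d.w2 hx.ab.symm (h.cw r h.rS) hx.q wr)).2.2.resolve_right
    fun hy => ?_
  have yS := S.mul_mem m h.tS
  have eq : q = t * (q * r * t * r) := by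
    rw [← mul_assoc, ← h.ct _ yS, mul_assoc _ t t, d.t2, mul_one, mul_assoc, r2, mul_one]
  have p4 := (c.II_phi h uS h' (c.one t) (c.one w)).2.2.2.1
  generalize q * r * t = y at *
  have cj : ∀ b, Y w b → ∀ v, v * w = w * v → ¬ Cm w v → b * v * b⁻¹ = b * b * v := fun b hb v a a' => by
    rw [show b * v * b⁻¹ = b * (v * b * v⁻¹)⁻¹ * v by group, c.Y_anti d.w2 hb a a', inv_inv]
  have k : ∀ s ∈ S, s * r * s⁻¹ ≠ y * r := fun s hs e => by
    have := c.gd_conj h.gd s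
    rw [conj_of_comm (h.ct s hs), conj_of_comm (h.cw s hs), e] at this
    exact c.base this (eq ▸ g)
  have n1 : ∀ z ∈ S, Y w z → y ≠ z * z := fun z hz a e => k z hz (by rw [cj z a r (h.cw r h.rS) wr, e])
  obtain ⟨z, zS, hz, e1 | e1 | e1⟩ := c.Ytri S d.w2 d.w1 yS hy (S.mul_mem nS nS) p4
  · exact n1 z zS hz e1
  · obtain ⟨b, bS, hb, e2 | e2 | e2⟩ := c.Ytri S d.w2 d.w1 yS hy zS hz
    · exact n1 b bS hb e2
    · refine c.II_s3 h uS h' bS (c.Y_cm hb d.cm) (c.Y_cm hb (c.refl w)) ?_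
      rw [conj_of_comm (c.Y_comm hb wn), ← e2, e1]
    · refine c.II_al h uS h' g bS ?_
      have hz' := c.Y_inv d.w2 hz
      have i := c.Y_anti d.w2 (c.Y_mul d.w2 hy hz) (h.cw r h.rS) wr
      rw [cj b hb u (h.cw u uS) wu, ← e2, eq, show t * (y * r) * (y * z * u) = t * (y * (r * (y * z) * r⁻¹)) * (r * u)
        by group, i, c.Y_comm hz (c.Y_cm hy (c.refl w)), mul_inv_rev z y, mul_inv_cancel_left,
        sqn (c.Y_comm hz' wn).symm (h.ct _ nS).symm (h.ct _ (S.inv_mem zS)).symm d.t2, e1]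
      group
  · refine k _ (S.mul_mem zS uS) ?_
    have i := c.Y_anti d.w2 p4 (h.cw u uS) wu
    have e2 : u * r * u⁻¹ = (r * u * (r * u))⁻¹ * r := by
      rw [← i, inv_eq u2]; simp only [mul_assoc, u2, mul_one, r2]
    rw [show z * u * r * (z * u)⁻¹ = z * (u * r * u⁻¹) * z⁻¹ by group, e2, conj_mul',
      conj_of_comm (c.Y_comm (c.Y_inv d.w2 p4) (c.Y_cm hz (c.refl w))), cj z hz r (h.cw r h.rS) wr, ← e1,
      c.Y_comm p4 (c.Y_cm hy (c.refl w))]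
    group

theorem II_dec {s : G} (hs : s ∈ S) : ∃ e, In4 r (r * u) e ∧ Cm t (s * e) ∧ Cm w (s * e) := by
  obtain ⟨r2, u2, tr, wr, wu, tu, wn, tn, nt⟩ := c.II_base h uS h'
  exact c.dec (c.gd_dp h.gd) (h.ct s hs) (h.cw s hs) tr (h.cw r h.rS) wr wn (h.ct _ (S.mul_mem h.rS uS)) tn

theorem II_gen {v : G} (hv : ∀ i ∈ S, i * i = 1 → i * v = v * i) {s : G} (hs : s ∈ S) : s * v = v * s := by
  obtain ⟨r2, u2, -⟩ := c.II_base h uS h'
  obtain ⟨e, he, a, b⟩ := c.II_dec h uS h' hs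
  have m := S.mul_mem hs (in4_mem he h.rS (S.mul_mem h.rS uS))
  have h3 := hv r h.rS r2
  have h1 := hv _ (S.mul_mem m h.rS) (by
    rw [show s * e * r * (s * e * r) = s * e * (r * (s * e) * r⁻¹) * (r * r) by group, (c.II_inv h uS h' m a b).1, r2]
    simp)
  have h2 := in4_comm he h3 (mul_comm' h3 (hv u uS u2))
  simpa only [mul_inv_cancel_right] using
    (Commute.mul_left (Commute.mul_left h1 (Commute.inv_left h3)) (Commute.inv_left h2)).eq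

theorem II_main : ∃ N : Subgroup G, t ∉ N ∧ (∀ s ∈ S, ∀ s' ∈ S, s * s' * s⁻¹ * s'⁻¹ ∈ N) ∧ Cov Cm S N t w := by
  have d := c.gd_dp h.gd
  obtain ⟨r2, u2, tr, wr, wu, tu, wn, tn, nt⟩ := c.II_base h uS h'
  have p4 := (c.II_phi h uS h' (c.one t) (c.one w)).2.2.2.1
  have k1 : ∀ k ∈ c.YS w d.w2, r * k * r⁻¹ ∈ c.YS w d.w2 := fun k hk => c.Y_conj' hk (h.cw r h.rS)
  have k2 : r * r ∈ c.YS w d.w2 := r2 ▸ Subgroup.one_mem _
  have k3 : ∀ k ∈ ext _ r k1 k2, u * k * u⁻¹ ∈ ext _ r k1 k2 := by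
    rintro k (hk | hk)
    · exact .inl (c.Y_conj' hk (h.cw u uS))
    · refine .inr (show Y w _ from ?_)
      have := c.Y_mul d.w2 (c.Y_conj' hk (h.cw u uS)) (c.Y_inv d.w2 p4)
      rw [show u * k * u⁻¹ * r = u * (k * r) * u⁻¹ * (r * u * (r * u))⁻¹ * (r * (u * (r * (u * u) * r⁻¹) * u⁻¹) * r)
        by group, u2]
      simpa [r2] using this
  have k4 : u * u ∈ ext _ r k1 k2 := u2 ▸ Subgroup.one_mem _
  have mY : ∀ {y}, Y w y → y ∈ ext _ u k3 k4 := fun hy => .inl (.inl hy)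
  have mr : r ∈ ext _ u k3 k4 := .inl (.inr k2)
  have mu : u ∈ ext _ u k3 k4 := .inr k4
  refine ⟨ext _ u k3 k4, ?_, fun s hs s' hs' => ?_, fun s p q hs hp hq g => ?_⟩
  · rintro ((e | e) | e | e)
    · rcases c.Y_two d.w2 d.w1 e d.t2 with e | e
      exacts [d.t1 e, d.ne e]
    · exact wr ((c.mul_iff (c.symm d.cm)).1 (c.Y_cm e (c.refl w)))
    · exact wu ((c.mul_iff (c.symm d.cm)).1 (c.Y_cm e (c.refl w)))
    · exact tu ((c.mul_iff (c.refl t)).1 ((c.mul_iff' tr).1 (c.Y_cm e d.cm)))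
  · have k : ∀ s ∈ S, ∃ f m, m ∈ ext _ u k3 k4 ∧ s = f * m ∧ (f = 1 ∨ f = t) := fun s hs => by
      obtain ⟨e, he, a, b⟩ := c.II_dec h uS h' hs
      have eS := in4_mem he h.rS (S.mul_mem h.rS uS)
      have m := Subgroup.inv_mem _ (in4_mem he mr (Subgroup.mul_mem _ mr mu))
      rcases (c.II_inv h uS h' (S.mul_mem hs eS) a b).2.2 with y | y
      · exact ⟨1, _, Subgroup.mul_mem _ (mY y) m, by simp, .inl rfl⟩
      · exact ⟨t, _, Subgroup.mul_mem _ (mY y) m, by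
          rw [h.ct _ (S.mul_mem hs eS), mul_assoc, mul_cancel2 d.t2, mul_inv_cancel_right], .inr rfl⟩
    have n : ∀ f, f = 1 ∨ f = t → ∀ x ∈ ext _ u k3 k4, f * x * f⁻¹ ∈ ext _ u k3 k4 := by
      rintro f (rfl | rfl) x hx
      · simpa using hx
      · have j : ∀ y, Y w y → f * y = y * f := fun y hy => c.comm (c.Y_cm hy d.cm)
        have : f * x = x * f := by
          have a := (show Commute r f from h.ct r h.rS).inv_left
          have b := (show Commute u f from h.ct u uS).inv_left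
          rcases hx with (e | e) | e | e
          · exact j _ e
          · simpa using (Commute.mul_left (j _ e).symm a).eq.symm
          · simpa using (Commute.mul_left (j _ e).symm b).eq.symm
          · simpa using (Commute.mul_left (Commute.mul_left (j _ e).symm a) b).eq.symm
        rwa [conj_of_comm this]
    obtain ⟨f, m, hm, rfl, hf⟩ := k s hs
    obtain ⟨f', m', hm', rfl, hf'⟩ := k s' hs'
    exact comm_mem (by rcases hf with rfl | rfl <;> rcases hf' with rfl | rfl <;> simp) hm hm' (n f hf) (n f' hf')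
  · obtain ⟨g1, g2⟩ := c.II_swap h uS h'
    obtain ⟨n, e1⟩ := pw2 h.pg (S.mul_mem h.rS hq)
    obtain ⟨n, e2⟩ := pw2 h.pg (S.mul_mem uS hq)
    have tww : t * w * w = t := by rw [mul_assoc, d.w2, mul_one]
    rcases c.cov_cases hs hp g with ⟨rfl, rfl⟩ | ⟨rfl, rfl⟩ | ⟨rfl, rfl⟩ | ⟨rfl, rfl⟩ | ⟨rfl, rfl⟩ | ⟨rfl, rfl⟩
    · exact ⟨mY (c.Y_self _), .inl (.inr (c.II_good h uS h' hq g))⟩
    · exact (c.sameK h.gd g e1).elim
    · exact (c.pIIb h' (by rwa [tww]) e2).elim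
    · exact (c.pIIb h.gd g e1).elim
    · exact (c.sameK h' (by rwa [tww]) e2).elim
    · exact ⟨mY (c.Y_self _), .inr (.inl (c.II_good g1 h.rS g2 hq g))⟩

end Cx

end CL.D4.B
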