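import Cfsg.Agent.CLAS.D4.BG1a

/-!
# Block B: the elementary geometric facts
-/

set_option autoImplicit false
set_option linter.unusedVariables false
set_option linter.unusedSectionVars false

namespace CL.D4.B

open Matrix Cfsg Cfsg.Geo CL.Asch

variable {k : Type*} [Field k] [IsAlgClosed k] {P : Subgroup (G4 k)}

namespace G1

theorem y_mul {t y y' : Bar P} (ht : t * t = 1) (a : YP P t y) (b : YP P t y') : YP P t (y * y') := by
  obtain ⟨T, hT⟩ := exists_lf 1 t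
  obtain ⟨Y, hY⟩ := exists_lf 1 y
  obtain ⟨Z, hZ⟩ := exists_lf 1 y'
  obtain ⟨d, -, e⟩ := hT.sq ht
  obtain ⟨α, β, rfl⟩ := (hT.yp hY).1 a
  obtain ⟨γ, δ, rfl⟩ := (hT.yp hZ).1 b
  exact (hT.yp (hY.mul hZ)).2 ⟨α * γ + β * δ * d, α * δ + β * γ, by
    simp only [mul_add, add_mul, smul_mul_assoc, mul_smul_comm, e, one_mul, mul_one]; module⟩

theorem y_one (t : Bar P) : YP P t 1 := ((exists_lf 1 t).choose_spec.yp Lf.one).2 ⟨1, 0, by simp⟩

theorem y_inv (C : Core P) {t y : Bar P} (ht : t * t = 1) (a : YP P t y) : YP P t y⁻¹ := by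
  have := C.finite_bar
  rw [inv_eq_of_mul_eq_one_right (mul_pow_sub_one (orderOf_pos y).ne' y ▸ pow_orderOf_eq_one y)]
  induction orderOf y - 1 with
  | zero => exact pow_zero y ▸ y_one t
  | succ n ih => exact pow_succ y n ▸ y_mul ht ih a

theorem y_d1 {X : G4 k} {t y : Bar P} {M : M4 k} (a : Lf X t (D1 k)) (b : Lf X y M) (h : YP P t y) :
    ∃ u v, u ≠ 0 ∧ v ≠ 0 ∧ M = diagonal ![u, u, v, v] := by
  obtain ⟨α, β, e⟩ := (a.yp b).1 h
  have e' : M = diagonal ![α + β, α + β, α - β, α - β] := by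
    rw [e]; ext i j; fin_cases i <;> fin_cases j <;> simp [sub_eq_add_neg]
  obtain ⟨N, -, h, -⟩ := b.inv
  have h0 := congrFun (congrFun h 0) 0
  have h2 := congrFun (congrFun h 2) 2
  rw [e', diagonal_mul, one_apply_eq] at h0 h2
  exact ⟨_, _, left_ne_zero_of_mul_eq_one h0, left_ne_zero_of_mul_eq_one h2, e'⟩

variable (h2 : (2 : k) ≠ 0) (C : Core P) (hJ : ¬ HasJ P)
include h2 C hJ

theorem y_cyc {t : Bar P} (ht : t * t = 1) (n : t ≠ 1) :
    ∃ y₀, YP P t y₀ ∧ ∀ y, YP P t y → y ∈ Subgroup.zpowers y₀ := by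
  have := C.finite_bar
  obtain ⟨X, a⟩ := exists_d1 h2 C hJ ht n
  let S : Subgroup (Bar P) := ⟨⟨⟨{y | YP P t y}, y_mul ht⟩, y_one t⟩, y_inv C ht⟩
  choose u v u0 v0 e using fun y : S => y_d1 a (exists_lf X y.1).choose_spec y.2
  have L : ∀ y : S, Lf X y.1 (diagonal ![u y, u y, v y, v y]) := fun y => e y ▸ (exists_lf X y.1).choose_spec
  have key : ∀ (y : S) (p q : k) {M}, Lf X y.1 M → M 0 0 = p → M 2 2 = q → u y / v y = p / q := by
    rintro y _ _ M h rfl rfl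
    obtain ⟨c, c0, e⟩ := (L y).rel h
    rw [← mul_div_mul_left (M 0 0) _ c0]
    exact congrArg₂ _ (congrFun (congrFun e 0) 0) (congrFun (congrFun e 2) 2)
  let f : S →* k := ⟨⟨fun y => u y / v y, (key 1 1 1 Lf.one rfl rfl).trans (div_one 1)⟩, fun y y' =>
    (key (y * y') _ _ ((L y).mul (L y')) (by simp) (by simp)).trans (mul_div_mul_comm ..)⟩
  obtain ⟨y, hy⟩ := (isCyclic_of_injective_ringHom f ((injective_iff_map_eq_one f).2 fun y e =>
    Subtype.ext ((L y).eq_one.2 ⟨v y, by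
      rw [(div_eq_one_iff_eq (v0 y)).1 e]; ext i j; fin_cases i <;> fin_cases j <;> simp⟩))).exists_generator
  exact ⟨y, y.2, fun x hx => (hy ⟨x, hx⟩).imp fun _ e => congrArg Subtype.val e⟩

theorem iso {t w f : Bar P} (d : Dp (CmP P) t w) (ff : f * f = 1) (a : CmP P t f) (b : CmP P w f) :
    f = 1 ∨ f = t ∨ f = w ∨ f = t * w := by
  obtain ⟨X, hT, hW⟩ := exists_dp h2 C hJ d
  obtain ⟨F, hF, e⟩ := (exists_lf X f).choose_spec.root ff
  obtain ⟨x, y, z, u, rfl⟩ := diag_of h2 ((hT.cm hF).1 a) ((hW.cm hF).1 b)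
  refine or_iff_not_imp_left.2 fun n => ?_
  have t0 := hF.tr0 h2 C hJ ff n
  rw [hF.eq_iff hT, hF.eq_iff hW, hF.eq_iff (hT.mul hW)]
  simp only [diagonal_mul_diagonal, ← diagonal_one, diagonal_eq_diagonal_iff, Fin.forall_fin_succ, trace_diagonal,
    Fin.sum_univ_four, ← diagonal_smul] at e t0 ⊢
  simp [mul_self_eq_one_iff] at e t0 ⊢
  have := mul_ne_zero h2 h2
  obtain ⟨rfl | rfl, rfl | rfl, rfl | rfl, rfl | rfl⟩ := e <;> simp <;> grind

theorem noJ {t w y₁ y₂ y₃ : Bar P} (d : Dp (CmP P) t w) (a : YP P t y₁) (a' : y₁ * y₁ = t) (b : YP P w y₂)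
    (b' : y₂ * y₂ = w) (c : YP P (t * w) y₃) (c' : y₃ * y₃ = t * w) : False := by
  obtain ⟨X, hT, hW⟩ := exists_dp h2 C hJ d
  obtain ⟨_, h1⟩ := exists_lf X y₁
  obtain ⟨_, h3⟩ := exists_lf X y₂
  obtain ⟨_, h4⟩ := exists_lf X y₃
  obtain ⟨α, β, rfl⟩ := (hT.yp h1).1 a
  obtain ⟨γ, δ, rfl⟩ := (hW.yp h3).1 b
  obtain ⟨μ, ν, rfl⟩ := ((hT.mul hW).yp h4).1 c
  obtain ⟨x, x0, e1⟩ := (h1.mul h1).rel (a' ▸ hT)
  obtain ⟨y, y0, e2⟩ := (h3.mul h3).rel (b' ▸ hW)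
  obtain ⟨z, z0, e3⟩ := (h4.mul h4).rel (c' ▸ hT.mul hW)
  have f := (h1.mul h3).mul h4
  simp only [diagonal_mul_diagonal, ← diagonal_one, diagonal_eq_diagonal_iff, Fin.forall_fin_succ,
    ← diagonal_smul, diagonal_add] at e1 e2 e3 f
  by_cases n : y₁ * y₂ * y₃ = 1
  · obtain ⟨c, e⟩ := f.eq_one.1 n
    simp only [← diagonal_one, diagonal_eq_diagonal_iff, Fin.forall_fin_succ, ← diagonal_smul] at e
    simp at e e1 e2 e3
    grind
  · have := f.tr0 h2 C hJ ((f.mul f).eq_one.2 ⟨x * y * z, by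
      simp only [diagonal_mul_diagonal, ← diagonal_one, diagonal_eq_diagonal_iff, Fin.forall_fin_succ, ← diagonal_smul]
      simp at e1 e2 e3 ⊢
      grind⟩) n
    simp [Fin.sum_univ_four] at this e1 e2 e3
    grind

theorem swap {t w j r : Bar P} (d : Dp (CmP P) t w) (jj : j * j = 1) (jt : j * t * j⁻¹ = w) (rr : r * r = 1)
    (a : CmP P t r) (b : r * w = w * r) (c : ¬ CmP P w r) :
    r * (j * r * j⁻¹) = j * r * j⁻¹ * r ∧ ¬ CmP P r (j * r * j⁻¹) := by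
  obtain ⟨X, hT, hW⟩ := exists_dp h2 C hJ d
  obtain ⟨R, hR, e1⟩ := (exists_lf X r).choose_spec.root rr
  obtain ⟨J, hj, e2⟩ := (exists_lf X j).choose_spec.root jj
  rw [inv_eq_of_mul_eq_one_right jj] at jt ⊢
  have f := (hj.mul hR).mul hj
  suffices R * (J * R * J) = -(J * R * J * R) from ⟨((hR.mul f).eq_iff (f.mul hR)).2 ⟨-1, by rw [this, neg_one_smul]⟩,
    fun e => (hR.mul f).ne_zero (by
      rw [← (hR.cm f).1 e] at this; ext i l; exact neg_cancel h2 (congrFun (congrFun this i) l))⟩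
  obtain ⟨s, -, e3⟩ := ((hj.mul hT).mul hj).rel (jt ▸ hW)
  have e4 : J * D1 k = s • (D2 k * J) := by rw [← smul_mul_assoc, ← e3, mul_assoc, e2, mul_one]
  have e5 : D1 k * J = s • (J * D2 k) := by rw [← mul_smul_comm, ← e3, ← mul_assoc, ← mul_assoc, e2, one_mul]
  have e6 : s * s = 1 := by
    have : s • D2 k * s • D2 k = 1 := by
      rw [← e3, mul_assoc, ← mul_assoc J, ← mul_assoc J, e2, one_mul, mul_assoc, ← mul_assoc (D1 k),
        show D1 k * D1 k = 1 by ext i l; fin_cases i <;> fin_cases l <;> simp, one_mul, e2]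
    simpa using congrFun (congrFun this 0) 0
  have t0 := hj.tr0 h2 C hJ jj fun e => d.ne (by simpa [e] using jt)
  obtain ⟨x, y, z, u, rfl⟩ := anti_of h2 ((hT.cm hR).1 a) (hW.anti hR d.w2 b c)
  have r0 := congrFun (congrFun e1 0) 0
  have r2 := congrFun (congrFun e1 2) 2
  obtain ⟨p, q, m, n, rfl | rfl⟩ := swap_of h2 (mul_self_eq_one_iff.1 e6) e4 (by rw [e5, smul_smul, e6, one_smul]) <;>
  · simp [trace, Fin.sum_univ_four, mul_apply] at t0 r0 r2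
    ext i l
    fin_cases i <;> fin_cases l <;> simp [mul_apply, Fin.sum_univ_four] <;> grind

end G1

/-- Any two lifts differ by a scalar; for `Dp t w` there is a basis with `t = diag(1,1,-1,-1)`, `w = diag(1,-1,1,-1)`. -/
theorem ctx1 (h2 : (2 : k) ≠ 0) (C : Core P) (hJ : ¬ HasJ P) : Ctx1 (CmP P) (YP P) where
  comm := by rintro _ _ ⟨A, B, rfl, rfl, e⟩; rw [← map_mul, ← map_mul, e]
  symm := fun ⟨A, B, a, b, e⟩ => ⟨B, A, b, a, e.symm⟩
  refl g := let ⟨A, a⟩ := pr_surj g; ⟨A, A, a, a, rfl⟩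
  mul {g h h'} a b := by
    obtain ⟨M, hM⟩ := exists_lf 1 g
    obtain ⟨N, hN⟩ := exists_lf 1 h
    obtain ⟨N', hN'⟩ := exists_lf 1 h'
    exact (hM.cm (hN.mul hN')).2 (Commute.mul_right ((hM.cm hN).1 a) ((hM.cm hN').1 b))
  inv := by rintro _ _ ⟨A, B, rfl, rfl, e⟩; exact ⟨A, B⁻¹, rfl, rfl, Commute.inv_right e⟩
  conj c := by
    rintro _ _ ⟨A, B, rfl, rfl, e⟩
    obtain ⟨X, rfl⟩ := pr_surj c
    exact ⟨X * A * X⁻¹, X * B * X⁻¹, rfl, rfl, by rw [conj_mul, conj_mul, e]⟩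
  two {t h h'} ht e e' a b := by
    obtain ⟨M, hM⟩ := exists_lf 1 t
    obtain ⟨N, hN⟩ := exists_lf 1 h
    obtain ⟨N', hN'⟩ := exists_lf 1 h'
    exact (hM.cm (hN.mul hN')).2 (by
      rw [mul_assoc, hM.anti hN' ht e' b, mul_neg, ← mul_assoc N, hM.anti hN ht e a, neg_mul, neg_neg, mul_assoc])
  iso := G1.iso h2 C hJ
  Y_self t := let ⟨_, a⟩ := exists_lf 1 t; (a.yp a).2 ⟨0, 1, by simp⟩
  Y_mul := G1.y_mul
  Y_inv := G1.y_inv C
  Y_conj c {t y} a := by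
    obtain ⟨M, hM⟩ := exists_lf 1 t
    obtain ⟨N, hN⟩ := exists_lf 1 y
    obtain ⟨X, hX⟩ := exists_lf 1 c
    obtain ⟨X', hX', e, -⟩ := hX.inv
    obtain ⟨α, β, rfl⟩ := (hM.yp hN).1 a
    exact (((hX.mul hM).mul hX').yp ((hX.mul hN).mul hX')).2 ⟨α, β, by simp [mul_add, add_mul, e]⟩
  Y_cm {t y g} a b := by
    obtain ⟨M, hM⟩ := exists_lf 1 t
    obtain ⟨N, hN⟩ := exists_lf 1 y
    obtain ⟨X, hX⟩ := exists_lf 1 g
    obtain ⟨α, β, rfl⟩ := (hM.yp hN).1 a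
    exact (hX.cm hN).2 (by simp [mul_add, add_mul, (hX.cm hM).1 b])
  Y_anti {t y g} ht a e n := by
    obtain ⟨M, hM⟩ := exists_lf 1 t
    obtain ⟨N, hN⟩ := exists_lf 1 y
    obtain ⟨X, hX⟩ := exists_lf 1 g
    obtain ⟨α, β, rfl⟩ := (hM.yp hN).1 a
    obtain ⟨d, -, e'⟩ := hM.sq ht
    rw [mul_inv_eq_iff_eq_mul, eq_inv_mul_iff_mul_eq, (hN.mul (hX.mul hN)).eq_iff hX]
    refine ⟨α * α - β * β * d, ?_⟩
    simp only [mul_add, add_mul, smul_mul_assoc, mul_smul_comm, hM.anti hX ht e n, one_mul, mul_one, mul_neg,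
      ← mul_assoc, e']
    module
  Y_two {t y} ht n a e := by
    obtain ⟨X, hT⟩ := exists_d1 h2 C hJ ht n
    obtain ⟨M, hM, e'⟩ := (exists_lf X y).choose_spec.root e
    obtain ⟨u, v, -, -, rfl⟩ := G1.y_d1 hT hM a
    rw [hM.eq_iff hT, hM.eq_one]
    simp only [diagonal_mul_diagonal, ← diagonal_one, diagonal_eq_diagonal_iff, Fin.forall_fin_succ,
      ← diagonal_smul] at e' ⊢
    simp [mul_self_eq_one_iff] at e' ⊢
    obtain ⟨rfl | rfl, rfl | rfl⟩ := e' <;> simp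
  Y_cyc := G1.y_cyc h2 C hJ
  tor {t w a a'} d e1 e2 e3 e4 := by
    obtain ⟨X, hT, hW⟩ := exists_dp h2 C hJ d
    obtain ⟨M, hM⟩ := exists_lf X a
    obtain ⟨N, hN⟩ := exists_lf X a'
    obtain ⟨_, _, _, _, rfl⟩ := diag_of h2 ((hT.cm hM).1 e1) ((hW.cm hM).1 e2)
    obtain ⟨_, _, _, _, rfl⟩ := diag_of h2 ((hT.cm hN).1 e3) ((hW.cm hN).1 e4)
    exact (hM.cm hN).2 (commute_diagonal _ _)
  sq {t w n} d a b c := by
    obtain ⟨X, hT, hW⟩ := exists_dp h2 C hJ d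
    obtain ⟨N, hN⟩ := exists_lf X n
    obtain ⟨x, y, z, u, rfl⟩ := anti_of h2 ((hT.cm hN).1 a) (hW.anti hN d.w2 b c)
    obtain ⟨α, β, e⟩ := span_D1 h2 (x * y) (z * u)
    refine (hT.yp (hN.mul hN)).2 ⟨α, β, e ▸ ?_⟩
    ext i j; fin_cases i <;> fin_cases j <;> simp [mul_apply, Fin.sum_univ_four, mul_comm]
  ga {t w n a} d e1 e2 e3 e4 e5 e := by
    obtain ⟨X, hT, hW⟩ := exists_dp h2 C hJ d
    obtain ⟨N, hN⟩ := exists_lf X n
    obtain ⟨M, hM⟩ := exists_lf X a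
    obtain ⟨x, y, z, u, rfl⟩ := anti_of h2 ((hT.cm hN).1 e1) (hW.anti hN d.w2 e2 e3)
    obtain ⟨p, q, r, s, rfl⟩ := diag_of h2 ((hT.cm hM).1 e4) ((hW.cm hM).1 e5)
    obtain ⟨c, -, f⟩ := (hM.mul hN).rel (e ▸ hN.mul hM)
    obtain ⟨N, -, g, -⟩ := (hM.mul hN).inv
    have g := fun i => congrFun (congrFun g i) i
    have f := fun i j => congrFun (congrFun f i) j
    have := And.intro (And.intro (f 0 1) (f 1 0)) (And.intro (f 2 3) (f 3 2))
    simp [mul_apply, Fin.sum_univ_four, Fin.forall_fin_succ, vecMul_diagonal] at g this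
    obtain ⟨rfl, rfl⟩ | ⟨rfl, rfl⟩ : q = p ∧ s = r ∨ q = -p ∧ s = -r := by grind
    · exact .inl ((hT.yp hM).2 (span_D1 h2 _ _))
    · obtain ⟨α, β, e⟩ := span_D1 h2 p r
      refine .inr ((hT.yp (hM.mul hW)).2 ⟨α, β, e ▸ ?_⟩)
      ext i j; fin_cases i <;> fin_cases j <;> simp
  noJ := G1.noJ h2 C hJ
  swap := G1.swap h2 C hJ

/-- `g` anticommutes with the lifts of `t` and of `w` -/
theorem ctx_two (h2 : (2 : k) ≠ 0) (C : Core P) {t w g : Bar P} (ht : t * t = 1) (hw : w * w = 1)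
    (e : g * t = t * g) (e' : g * w = w * g) (a : ¬ CmP P t g) (b : ¬ CmP P w g) : CmP P (t * w) g := by
  obtain ⟨M, hM⟩ := exists_lf 1 t
  obtain ⟨N, hN⟩ := exists_lf 1 w
  obtain ⟨X, hX⟩ := exists_lf 1 g
  exact ((hM.mul hN).cm hX).2 (by
    rw [← mul_assoc, hM.anti hX ht e a, neg_mul, mul_assoc M X, hN.anti hX hw e' b, mul_neg, neg_neg, mul_assoc])

end CL.D4.B
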