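import Cfsg.Agent.CLAS.D4.Tlb

/-!
# Tools in odd characteristic
-/

set_option autoImplicit false

namespace CL.D4

open Matrix Cfsg Cfsg.Geo CL.Asch
open CL.Five (IsL2 IsL3 IsU3 IsA7 IsU42 ListE ListO)
open scoped MatrixGroups commutatorElement

variable {k : Type*} [Field k] [IsAlgClosed k] {P : Subgroup (G4 k)}

omit [IsAlgClosed k] in
theorem ncard_four {α : Type*} (a b c d : α) : ({a, b, c, d} : Set α).ncard ≤ 4 :=
  (Set.ncard_insert_le _ _).trans (Nat.succ_le_succ ((Set.ncard_insert_le _ _).trans (Nat.succ_le_succ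
    ((Set.ncard_insert_le _ _).trans (by simp)))))

theorem exists_notMem {G : Type*} [Group G] {E : Subgroup G} {S : Set G} (h : S.ncard < Nat.card E)
    (hS : S.Finite := by toFinite_tac) : ∃ a ∈ E, a ∉ S :=
  Set.exists_mem_notMem_of_ncard_lt_ncard (t := E) h hS

theorem card_inf {G : Type*} [Group G] (A E : Subgroup G) : Nat.card ↥(A ⊓ E) = Nat.card (A.subgroupOf E) := by
  rw [← Subgroup.inf_subgroupOf_right]
  exact (Nat.card_congr (Subgroup.subgroupOfEquivOfLe inf_le_right).toEquiv).symm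

theorem comm_of {G : Type*} [Group G] {p : ℕ} {E : Subgroup G} (hE : IsElementaryAbelian p E) {a b : G} (ha : a ∈ E)
    (hb : b ∈ E) : a * b = b * a := congrArg Subtype.val (hE.1.is_comm.comm (⟨a, ha⟩ : E) ⟨b, hb⟩)

omit [IsAlgClosed k] in
theorem card_le_cz {E : Subgroup (Bar P)} (hE : IsElementaryAbelian 2 E) {a b : Bar P} (ha : a ∈ E) (hb : b ∈ E) :
    Nat.card E ≤ Nat.card ↥(E ⊓ (cz a ⊓ cz b)) * 4 := by
  rw [inf_comm, card_inf, ← ((cz a ⊓ cz b).subgroupOf E).card_mul_index]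
  exact Nat.mul_le_mul_left _ ((Subgroup.index_inf_le (H := (cz a).subgroupOf E) (K := (cz b).subgroupOf E)).trans (Nat.mul_le_mul
    (Nat.le_of_dvd two_pos (index_cz (hE.2 _ ha) fun w hw => comm_of hE hw ha))
    (Nat.le_of_dvd two_pos (index_cz (hE.2 _ hb) fun w hw => comm_of hE hw hb))))

/-- normal form of an involution -/
theorem Core.inv_form (C : Core P) (h2 : (2 : k) ≠ 0) (hJ : ¬ HasJ P) {t : P} (h : orderOf (pr P t) = 2) :
    ∃ (X : G4 k) (a : k), ((X⁻¹ * t * X : G4 k) : M4 k) = a • diagonal ![1, 1, -1, -1] := by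
  have ht : pr P t ^ 2 = 1 := h ▸ pow_orderOf_eq_one _
  obtain ⟨Y, d, hd⟩ := exists_diag (fun _ : Unit => t.1) (fun _ _ => rfl) (n := 8)
    (by simpa [show (8 : k) = 2 ^ 3 by norm_num] using h2) fun _ => C.pow_eight ht
  obtain ⟨s, ⟨a, ha⟩, hs⟩ := sgn hJ ht (hd ())
  have key : ∀ s : Fin 4 → ℤˣ, s 0 = 1 ∧ ∏ i, s i = 1 → s = 1 ∨
    ∃ π : Equiv.Perm (Fin 4), ∀ i, s (π i) = ![1, 1, -1, -1] i := by decide +kernel
  obtain ⟨π, hπ⟩ := (key s hs).resolve_left fun e => by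
    rw [Sg.one ⟨a, e ▸ ha⟩, orderOf_one] at h; exact absurd h (by decide)
  obtain ⟨X, hX⟩ := exists_gl ((linearIndependent_cols_iff_isUnit.2 Y.isUnit).comp π π.injective)
  refine ⟨X, a, (cj_apply X t).symm.trans (cj_eq_iff.2 ?_)⟩
  ext i j
  have := congrFun (congrFun (cj_eq_iff.1 ha) i) (π j)
  rw [mul_smul_comm, Matrix.smul_apply, mul_diagonal, mul_apply] at this ⊢
  simp only [hX, Function.comp, col, transpose_apply]
  rw [hπ] at this
  refine this.trans ?_
  fin_cases j <;> simp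

/-- Lifts of elements of an elementary abelian `E` commute up to a sign `c(x, y)`, an alternating form;
three independent exactly commuting involutions are diagonal and contain a reflection, so `c`-isotropic
subgroups have order at most four. For `#E = 8` the radical of `c` is `⟨u⟩`. -/
theorem Core.e8 (C : Core P) (h2 : (2 : k) ≠ 0) (hJ : ¬ HasJ P) {E : Subgroup (Bar P)}
    (hE : IsElementaryAbelian 2 E) (h8 : Nat.card E = 8) :
    ∃ u ∈ E, u ≠ 1 ∧ ∀ g ∈ Subgroup.normalizer (E : Set (Bar P)), g * u = u * g := by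
  have h4 : ∀ a ∈ E, ∀ b ∈ E, a ≠ 1 → b ≠ 1 → b ≠ a → a ∈ cz b → ∃ c ∈ E, ¬ (a ∈ cz c ∧ b ∈ cz c) :=
    fun a ha b hb a1 b1 ba ab => by
      by_contra! e
      have := (Set.ncard_le_ncard (fun c hc => C.tri h2 hJ (hE.2 _ ha) (hE.2 _ hb) (hE.2 _ hc) ab (e c hc).1
        (e c hc).2 a1 b1 ba : (E : Set (Bar P)) ⊆ _)).trans (ncard_four _ _ _ _)
      rw [← Nat.card_coe_set_eq, SetLike.coe_sort_coe, h8] at this
      omega
  obtain ⟨x, hx, y, hy, xy⟩ : ∃ x ∈ E, ∃ y ∈ E, x ∉ cz y := by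
    by_contra! e
    obtain ⟨a, ha, a1⟩ := exists_notMem (E := E) (S := {1}) (by simp [h8])
    obtain ⟨b, hb, b1⟩ := exists_notMem (E := E) (S := {1, a}) ((Set.ncard_insert_le _ _).trans_lt (by simp [h8]))
    obtain ⟨c, hc, h⟩ := h4 a ha b hb a1 (fun e => b1 (.inl e)) (fun e => b1 (.inr e)) (e _ ha _ hb)
    exact h ⟨e _ ha _ hc, e _ hb _ hc⟩
  obtain ⟨u, ⟨hu, ux, uy⟩, u1⟩ := exists_notMem (E := E ⊓ (cz x ⊓ cz y)) (S := {1}) (by
    have := card_le_cz hE hx hy
    rw [Set.ncard_singleton]; omega)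
  have hr : ∀ w ∈ E, w ∈ cz u := by
    have : Finite E := Nat.finite_of_card_ne_zero (by omega)
    have h1 := ((cz u).subgroupOf E).card_mul_index
    rcases (Nat.dvd_prime Nat.prime_two).1 (index_cz (hE.2 _ hu) fun w hw => comm_of hE hw hu) with e | e
    · exact Subgroup.subgroupOf_eq_top.1 (Subgroup.index_eq_one.1 e)
    · classical
      have y1 : ∀ {z}, z ∉ cz x → z ≠ 1 ∧ z ≠ x ∧ z ≠ u := fun {z} hz => by
        refine ⟨?_, ?_, ?_⟩ <;> rintro rfl
        exacts [hz (one_mem _), hz (cz_self _), hz ux]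
      have yx := mt cz_symm xy
      have a1 := y1 yx
      have a2 := y1 (z := x * y) fun h => yx ((mul_mem_cancel_left (cz_self x)).1 h)
      have a3 : x ≠ 1 := fun h => xy (h ▸ one_mem _)
      have a4 : x ≠ u := fun h => xy (h ▸ uy)
      have a5 : x * y ≠ y := fun h => a3 (mul_eq_right.1 h)
      have h5 : ({x * y, y, x, u, 1} : Set (Bar P)).ncard = 5 := by
        rw [Set.ncard_insert_of_notMem (by simp [a2, a5]), Set.ncard_insert_of_notMem (by simp [a1]),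
          Set.ncard_insert_of_notMem (by simp [a3, a4]), Set.ncard_pair u1]
      have h6 : ({x * y, y, x, u, 1} : Set (Bar P)) ⊆ (cz u ⊓ E : Subgroup (Bar P)) := by
        rintro _ (rfl | rfl | rfl | rfl | rfl)
        exacts [⟨mul_mem (cz_symm ux) (cz_symm uy), mul_mem hx hy⟩, ⟨cz_symm uy, hy⟩, ⟨cz_symm ux, hx⟩,
          ⟨cz_self _, hu⟩, one_mem _]
      have h7 := Set.ncard_le_ncard h6 (have := C.finite_bar; Set.toFinite _)
      rw [h5, ← Nat.card_coe_set_eq, SetLike.coe_sort_coe, card_inf] at h7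
      rw [e, h8] at h1
      omega
  refine ⟨u, hu, u1, fun g hg => mul_inv_eq_iff_eq_mul.1 (by_contra fun e => ?_)⟩
  have hg' := (Subgroup.mem_normalizer_iff.1 hg u).1 hu
  obtain ⟨c, hc, h⟩ := h4 u hu _ hg' u1 (fun h => u1 (conj_eq_one_iff.1 h)) e (cz_symm (hr _ hg'))
  refine h ⟨cz_symm (hr _ hc), ?_⟩
  have := cz_conj (cz_symm (hr _ ((Subgroup.mem_normalizer_iff''.1 hg c).1 hc))) g
  rwa [show g * (g⁻¹ * c * g) * g⁻¹ = c by group] at this

theorem Core.rank4 (C : Core P) (h2 : (2 : k) ≠ 0) (hJ : ¬ HasJ P) {E : Subgroup (Bar P)}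
    (hE : IsElementaryAbelian 2 E) : Nat.card E ≤ 16 := by
  by_contra! h
  obtain ⟨a, ha, a1⟩ := exists_notMem (E := E) (S := {1}) (by rw [Set.ncard_singleton]; omega)
  obtain ⟨b, ⟨hb, ba, -⟩, b1⟩ := exists_notMem (E := E ⊓ (cz a ⊓ cz a)) (S := {1, a})
    ((Set.ncard_insert_le _ _).trans_lt (by
      have := card_le_cz hE ha ha
      rw [Set.ncard_singleton]; omega))
  obtain ⟨c, ⟨hc, ca, cb⟩, c1⟩ := exists_notMem (E := E ⊓ (cz a ⊓ cz b)) ((ncard_four 1 a b (a * b)).trans_lt (by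
    have := card_le_cz hE ha hb
    omega))
  exact c1 (C.tri h2 hJ (hE.2 _ ha) (hE.2 _ hb) (hE.2 _ hc) (cz_symm ba) (cz_symm ca) (cz_symm cb) a1
    (fun e => b1 (.inl e)) fun e => b1 (.inr e))

theorem exists_desc {A B C : Type*} [Group A] [Group B] [Group C] (π : A →* B) (hπ : Function.Surjective π)
    (g : A →* C) (h : ∀ x, π x = 1 → g x = 1) : ∃ f : B →* C, ∀ x, f (π x) = g x :=
  ⟨_, π.liftOfRightInverse_comp_apply _ (Function.rightInverse_surjInv hπ) ⟨g, h⟩⟩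

/-- the centraliser of an involution: the part fixing both eigenplanes -/
theorem Core.cen (C : Core P) (h2 : (2 : k) ≠ 0) (hJ : ¬ HasJ P) {z : Bar P} (hz : orderOf z = 2) :
    ∃ D : Subgroup (Subgroup.centralizer {z}), D.index ≤ 2 ∧ ∃ f : D →* PGL(2, k) × PGL(2, k),
      IsCyclic f.ker ∧ f.ker ≤ Subgroup.center D := by
  have := C.finite_bar
  obtain ⟨t, rfl⟩ := pr_surj z
  obtain ⟨X, a, hX⟩ := C.inv_form h2 hJ hz
  rw [← cj_apply] at hX
  have a0 : a ≠ 0 := fun h => t.1.det_ne_zero (by rw [← det_cj X, hX, h, zero_smul, det_zero])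
  let D' := Subgroup.centralizer ({t} : Set P)
  let M : D' →* M4 k := (cj X).comp (P.subtype.comp D'.subtype)
  have h0 : ∀ x (i j : Fin 2), M x (Fin.castAdd 2 i) (Fin.natAdd 2 j) = 0 ∧
      M x (Fin.natAdd 2 j) (Fin.castAdd 2 i) = 0 := fun x i j => by
      have e : cj X t * M x = M x * cj X t :=
        (map_mul _ _ _).symm.trans ((congrArg (fun y : P => cj X y) (x.2 t rfl)).trans (map_mul _ _ _))
      have e1 := congrFun (congrFun e (Fin.castAdd 2 i)) (Fin.natAdd 2 j)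
      have e2 := congrFun (congrFun e (Fin.natAdd 2 j)) (Fin.castAdd 2 i)
      rw [hX, ← diagonal_smul, diagonal_mul, mul_diagonal] at e1 e2
      have b1 : (a • ![1, 1, -1, -1] : V4 k) (Fin.castAdd 2 i) = a := by fin_cases i <;> simp
      have b2 : (a • ![1, 1, -1, -1] : V4 k) (Fin.natAdd 2 j) = -a := by fin_cases j <;> simp
      rw [b1, b2] at e1 e2
      exact ⟨mul_left_cancel₀ (mul_ne_zero h2 a0) (by linear_combination e1),
        mul_left_cancel₀ (mul_ne_zero h2 a0) (by linear_combination -e2)⟩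
  let b1 : D' →* Matrix (Fin 2) (Fin 2) k :=
    { toFun x := (M x).submatrix (Fin.castAdd 2) (Fin.castAdd 2)
      map_one' := by rw [map_one]; exact submatrix_one _ (Fin.castAdd_injective 2 2)
      map_mul' x y := by
        ext i j
        simp only [map_mul, submatrix_apply, mul_apply, Fin.sum_univ_add (a := 2) (b := 2), h0, zero_mul,
          Finset.sum_const_zero, add_zero] }
  let b2 : D' →* Matrix (Fin 2) (Fin 2) k :=
    { toFun x := (M x).submatrix (Fin.natAdd 2) (Fin.natAdd 2)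
      map_one' := by rw [map_one]; exact submatrix_one _ (Fin.natAdd_injective 2 2)
      map_mul' x y := by
        ext i j
        simp only [map_mul, submatrix_apply, mul_apply, Fin.sum_univ_add (a := 2) (b := 2), h0, zero_mul,
          Finset.sum_const_zero, zero_add] }
  let g : D' →* PGL(2, k) × PGL(2, k) :=
    (ProjGenLinGroup.mk.comp b1.toHomUnits).prod (ProjGenLinGroup.mk.comp b2.toHomUnits)
  have hg : ∀ x, g x = 1 ↔ ∃ α β, M x = diagonal ![α, α, β, β] := fun x => by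
    rw [MonoidHom.prod_apply, Prod.mk_eq_one, MonoidHom.comp_apply, MonoidHom.comp_apply, ProjGenLinGroup.mk_eq_one,
      ProjGenLinGroup.mk_eq_one, GeneralLinearGroup.mem_center_iff_val_mem_range_scalar,
      GeneralLinearGroup.mem_center_iff_val_mem_range_scalar]
    constructor
    · rintro ⟨⟨α, e1⟩, β, e2⟩
      have f1 : ∀ i j : Fin 2, M x (Fin.castAdd 2 i) (Fin.castAdd 2 j) = _ := fun i j => (congrFun (congrFun e1 i) j).symm
      have f2 : ∀ i j : Fin 2, M x (Fin.natAdd 2 i) (Fin.natAdd 2 j) = _ := fun i j => (congrFun (congrFun e2 i) j).symm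
      refine ⟨α, β, Matrix.ext fun i j => ?_⟩
      refine Fin.addCases (m := 2) (n := 2) (fun i => ?_) (fun i => ?_) i <;>
        refine Fin.addCases (m := 2) (n := 2) (fun j => ?_) (fun j => ?_) j <;> simp only [f1, f2, h0] <;>
        fin_cases i <;> fin_cases j <;> rfl
    · rintro ⟨α, β, e⟩
      refine ⟨⟨α, Matrix.ext fun i j => ?_⟩, β, Matrix.ext fun i j => ?_⟩
      · refine Eq.trans ?_ (congrFun (congrFun e _) _).symm
        fin_cases i <;> fin_cases j <;> rfl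
      · refine Eq.trans ?_ (congrFun (congrFun e _) _).symm
        fin_cases i <;> fin_cases j <;> rfl
  have hs : ∀ x : D', pr P x = 1 ↔ ∃ α, M x = diagonal ![α, α, α, α] := fun x => by
    rw [pr_eq_one, cj_scalar (Y := X)]
    refine exists_congr fun c => Eq.congr_right ?_
    ext i j; fin_cases i <;> fin_cases j <;> simp
  let D := (cz (pr P t)).subgroupOf (Subgroup.centralizer {pr P t})
  let π : D' →* D := (((pr P).comp D'.subtype).codRestrict _ fun x => by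
    rintro _ rfl
    exact (map_mul _ _ _).symm.trans ((congrArg (pr P) (x.2 t rfl)).trans (map_mul _ _ _))).codRestrict _
      fun x => mem_cz.2 (x.2 t rfl).symm
  have hπ : Function.Surjective π := by
    rintro ⟨⟨x, h1⟩, h3⟩
    obtain ⟨x, rfl⟩ := pr_surj x
    exact ⟨⟨x, by rintro _ rfl; exact (mem_cz.1 h3).symm⟩, rfl⟩
  have hπ1 : ∀ x, π x = 1 ↔ pr P x = 1 := fun x => by rw [Subtype.ext_iff, Subtype.ext_iff]; rfl
  obtain ⟨f, hf⟩ := exists_desc π hπ g fun x hx => ((hs x).1 ((hπ1 x).1 hx)).elim fun α e => (hg x).2 ⟨_, _, e⟩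
  refine ⟨D, Nat.le_of_dvd two_pos (index_cz (hz ▸ pow_orderOf_eq_one _) fun x hx => (hx _ rfl).symm), f, ?_, ?_⟩
  · let π' : g.ker →* f.ker := (π.comp g.ker.subtype).codRestrict _ fun x => (hf x).trans x.2
    let χ : g.ker →* k :=
      { toFun x := M x 0 0 / M x 2 2
        map_one' := by simp
        map_mul' x y := by
          obtain ⟨α, β, e⟩ := (hg x).1 x.2
          obtain ⟨γ, δ, e'⟩ := (hg y).1 y.2
          simp [e, e', mul_div_mul_comm] }
    have hχ : ∀ x, χ x = 1 ↔ π' x = 1 := fun x => by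
      obtain ⟨α, β, e⟩ := (hg x).1 x.2
      have b0 : β ≠ 0 := fun h => x.1.1.1.det_ne_zero (by
        rw [← det_cj X]; exact (congrArg Matrix.det e).trans (by simp [Fin.prod_univ_four, h]))
      rw [Subtype.ext_iff]
      refine Iff.trans ?_ ((hπ1 x).trans (hs x)).symm
      simp [χ, e, div_eq_one_iff_eq b0, Fin.forall_fin_succ, eq_comm]
    have h' : Function.Surjective π' := by
      rintro ⟨x, hx⟩
      obtain ⟨x, rfl⟩ := hπ x
      exact ⟨⟨x, (hf x).symm.trans hx⟩, rfl⟩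
    obtain ⟨ψ, hψ⟩ := exists_desc π' h' χ.toHomUnits fun x hx => Units.ext ((hχ x).2 hx)
    refine isCyclic_of_injective_ringHom ((Units.coeHom k).comp ψ) ((injective_iff_map_eq_one _).2 fun x hx => ?_)
    obtain ⟨x, rfl⟩ := h' x
    exact (hχ x).1 ((congrArg Units.val (hψ x)).symm.trans hx)
  · intro x hx
    obtain ⟨x, rfl⟩ := hπ x
    refine Subgroup.mem_center_iff.2 fun y => ?_
    obtain ⟨y, rfl⟩ := hπ y
    obtain ⟨α, β, e⟩ := (hg x).1 ((hf x).symm.trans hx)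
    rw [← map_mul, ← map_mul]
    refine congrArg π (Subtype.ext (Subtype.ext (cj_inj X (show M (y * x) = M (x * y) from ?_))))
    rw [map_mul, map_mul, e]
    ext i j
    rw [mul_diagonal, diagonal_mul, mul_comm]
    refine Fin.addCases (m := 2) (n := 2) (fun i => ?_) (fun i => ?_) i <;>
      refine Fin.addCases (m := 2) (n := 2) (fun j => ?_) (fun j => ?_) j <;>
      first | simp only [h0, mul_zero] | fin_cases i <;> fin_cases j <;> rfl

/-- the eigenvalues of the lift of `x` are permuted by `ζ ↦ ζ ^ a` -/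
theorem Core.no_orbit (C : Core P) {r a : ℕ} (hr : r.Prime) (ho : Odd r) (h0 : (r : k) ≠ 0) {x : Bar P}
    (hx : orderOf x = r) (h : IsConj x (x ^ a)) : orderOf (a : ZMod r) ≤ 4 := by
  obtain ⟨σ, h1, h2⟩ := C.odd_lift (Subgroup.zpowers x) (by rwa [Nat.card_zpowers, hx])
  obtain ⟨g, hg⟩ := isConj_iff.1 h
  obtain ⟨g, rfl⟩ := pr_surj g
  let x' : Subgroup.zpowers x := ⟨x, Subgroup.mem_zpowers x⟩
  have h3 := h2 g x' (x' ^ a) hg
  have h4 : (σ x').1 ^ r = 1 := by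
    rw [← Subgroup.coe_pow, ← map_pow, show x' ^ r = 1 from Subtype.ext (hx ▸ pow_orderOf_eq_one x), map_one]; rfl
  obtain ⟨Y, d, hd⟩ := exists_diag (fun _ : Unit => (σ x').1) (fun _ _ => rfl) h0 fun _ => h4
  obtain ⟨π, hπ⟩ := perm_of_conj Y g
  have h5 := hπ (hd ()) (diag_pow (hd ()) a) (by
    rw [map_pow, mul_inv_eq_iff_eq_mul] at h3; exact congrArg Subtype.val h3)
  obtain ⟨i, hi⟩ := exists_ne_one (hd ()) fun e => hr.ne_one (by
    rw [← hx, orderOf_eq_one_iff, ← show pr P (σ x') = x from h1 x', show σ x' = 1 from Subtype.ext e, map_one])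
  have h6 : ∀ n, d () ((π ^ n) i) ^ a ^ n = d () i := fun n => by
    induction n with
    | zero => simp
    | succ n ih => rw [pow_succ', Equiv.Perm.mul_apply, pow_succ', pow_mul, ← ih, ← h5 ((π ^ n) i)]; rfl
  obtain ⟨n, n1, n2, hn⟩ := (by decide +kernel : ∀ (π : Equiv.Perm (Fin 4)) i, ∃ n ≤ 4, 0 < n ∧ (π ^ n) i = i) π i
  have := Fact.mk hr
  have h7 := h6 n
  rw [hn] at h7
  have h8 := diag_pow_eq (hd ()) h4 i
  have h9 := (isOfFinOrder_iff_pow_eq_one.2 ⟨r, hr.pos, h8⟩).pow_eq_pow_iff_modEq.1 (h7.trans (pow_one _).symm)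
  rw [orderOf_eq_prime h8 hi, ← ZMod.natCast_eq_natCast_iff, Nat.cast_pow, Nat.cast_one] at h9
  exact (orderOf_le_of_pow_eq_one n2 h9).trans n1

theorem Core.diag_ea (C : Core P) {r : ℕ} (hr : r.Prime) (ho : Odd r) (h0 : (r : k) ≠ 0)
    {E : Subgroup (Bar P)} (hE : IsElementaryAbelian r E) : ∃ (σ : E →* P) (ζ : k) (Y : G4 k) (e : E → Fin 4 → ZMod r),
      (∀ x y, e (x * y) = e x + e y) ∧ (∀ x, pr P (σ x) = x) ∧
      (∀ (g : P) (x y : E), pr P g * x * (pr P g)⁻¹ = y → g * σ x * g⁻¹ = σ y) ∧ IsPrimitiveRoot ζ r ∧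
      ∀ x, cj Y (σ x) = diagonal fun i => ζ ^ (e x i).val := by
  have := Fact.mk hr
  have := C.finite_bar
  have : NeZero (r : k) := ⟨h0⟩
  have h1 : ∀ x : E, x ^ r = 1 := fun x => Subtype.ext (hE.2 _ x.2)
  obtain ⟨m, hm⟩ := IsPGroup.iff_card.1 (show IsPGroup r E from fun x => ⟨1, by rw [pow_one, h1]⟩)
  obtain ⟨σ, s1, s2⟩ := C.odd_lift E (hm ▸ ho.pow)
  obtain ⟨ζ, hζ⟩ := HasEnoughRootsOfUnity.exists_primitiveRoot k r
  have h2 : ∀ x, (σ x).1 ^ r = 1 := fun x => by rw [← Subgroup.coe_pow, ← map_pow, h1, map_one]; rfl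
  obtain ⟨Y, d, hd⟩ := exists_diag (fun x => (σ x).1) (fun x y => by
    rw [← Subgroup.coe_mul, ← map_mul, hE.1.is_comm.comm, map_mul, Subgroup.coe_mul]) h0 h2
  choose e he he' using fun x i => hζ.eq_pow_of_pow_eq_one (diag_pow_eq (hd x) (h2 x) i)
  have h3 : ∀ x, cj Y (σ x) = diagonal fun i => ζ ^ ((e x i : ZMod r)).val := fun x => by
    simp only [ZMod.val_cast_of_lt (he x _), he', hd]
  refine ⟨σ, ζ, Y, fun x i => e x i, fun x y => funext fun i => ?_, s1, s2, hζ, h3⟩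
  have := hd (x * y)
  rw [map_mul, Subgroup.coe_mul, map_mul, hd, hd, diagonal_mul_diagonal] at this
  have h4 := congrFun (diagonal_injective this) i
  rw [← he', ← he', ← he', ← pow_add, (hζ.isOfFinOrder hr.ne_zero).pow_eq_pow_iff_modEq, ← hζ.eq_orderOf,
    ← ZMod.natCast_eq_natCast_iff, Nat.cast_add] at h4
  exact h4.symm

/-- abelian groups of odd order prime to the characteristic are diagonal -/
theorem Core.odd_rank (C : Core P) {r : ℕ} (hr : r.Prime) (ho : Odd r) (h0 : (r : k) ≠ 0)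
    {E : Subgroup (Bar P)} (hE : IsElementaryAbelian r E) : Nat.card E ≤ r ^ 3 := by
  obtain ⟨σ, ζ, Y, e, -, h1, -, hζ, he⟩ := C.diag_ea hr ho h0 hE
  have := Fact.mk hr
  refine (Nat.card_le_card_of_injective (fun x (i : Fin 3) => e x i.castSucc) fun x y h => ?_).trans (by simp)
  have h2 : ∀ i : Fin 3, e x i.castSucc = e y i.castSucc := congrFun h
  have h3 := (det_cj Y _).trans ((C.det (σ x).2).trans ((det_cj Y _).trans (C.det (σ y).2)).symm)
  rw [he, he, det_diagonal, det_diagonal, Fin.prod_univ_castSucc, Fin.prod_univ_castSucc (n := 3) fun i => ζ ^ (e y i).val]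
    at h3
  simp only [h2] at h3
  have h4 := mul_left_cancel₀ (Finset.prod_ne_zero_iff.2 fun i _ => pow_ne_zero _ (hζ.ne_zero hr.ne_zero)) h3
  refine Subtype.ext (by rw [← h1, ← h1, show σ x = σ y from Subtype.ext (cj_inj Y (by
    rw [he, he]; exact congrArg _ (funext fun i => Fin.lastCases h4 (fun i => by rw [h2]) i)))])

/-- the normaliser of `3²` permutes the (at most four) weights -/
theorem Core.no_nine (C : Core P) (h0 : (3 : k) ≠ 0) {E : Subgroup (Bar P)} (hE : IsElementaryAbelian 3 E)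
    (h9 : Nat.card E = 9) : ¬ ∀ x ∈ E, ∀ y ∈ E, x ≠ 1 → y ≠ 1 →
      ∃ g ∈ Subgroup.normalizer (E : Set (Bar P)), g * x * g⁻¹ = y := by
  intro h
  obtain ⟨σ, ζ, Y, e, hm, h1, h2, hζ, he⟩ := C.diag_ea Nat.prime_three (by decide) (by exact_mod_cast h0) hE
  have hp : ∀ x y : E, x ≠ 1 → y ≠ 1 → ∀ j, ∑ i, (if e x i = j then 1 else 0 : ℕ) = ∑ i, if e y i = j then 1 else 0 :=
    fun x y hx hy j => by
      obtain ⟨g, -, hg⟩ := h _ x.2 _ y.2 (fun h => hx (Subtype.ext h)) fun h => hy (Subtype.ext h)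
      obtain ⟨g, rfl⟩ := pr_surj g
      obtain ⟨π, hπ⟩ := perm_of_conj Y g
      have := hπ (he x) (he y) (congrArg Subtype.val (mul_inv_eq_iff_eq_mul.1 (h2 g x y hg)))
      rw [← Equiv.sum_comp π fun i => if e y i = j then 1 else 0]
      exact Finset.sum_congr rfl fun i _ => by
        rw [ZMod.val_injective 3 (hζ.pow_inj (ZMod.val_lt _) (ZMod.val_lt _) (this i))]
  obtain ⟨a, -, a1⟩ := exists_notMem (E := (⊤ : Subgroup E)) (S := {1}) (by simp [h9])
  obtain ⟨c, -, c1⟩ := exists_notMem (E := (⊤ : Subgroup E)) ((ncard_four 1 a a (a * a)).trans_lt (by simp [h9]))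
  simp only [Set.mem_insert_iff, Set.mem_singleton_iff, not_or] at a1 c1
  have h3 : ∀ x : E, x * x * x = 1 := fun x => Subtype.ext ((pow_three' _).symm.trans (hE.2 _ x.2))
  have b1 := hp a (a * a) a1 (fun h => a1 (by rw [← h3 a, h, one_mul])) 1
  have b2 := hp a c a1 c1.1 0
  have b3 := hp a (a * c) a1 (fun h => c1.2.2.2 (by rw [← one_mul c, ← h3 a, mul_assoc, h, mul_one])) 0
  have b4 := hp a (a * c * c) a1 (fun h => c1.2.1 (by rw [← one_mul c, ← h, mul_assoc, mul_assoc, ← mul_assoc c, h3,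
    mul_one])) 0
  simp only [hm, Pi.add_apply] at b1 b3 b4
  have key : ∀ a : Fin 4 → ZMod 3, ∑ i, (if a i = 1 then 1 else 0 : ℕ) = ∑ i, (if a i + a i = 1 then 1 else 0) →
      ∀ c : Fin 4 → ZMod 3, ∑ i, (if a i = 0 then 1 else 0 : ℕ) = ∑ i, (if c i = 0 then 1 else 0) →
      ∑ i, (if a i = 0 then 1 else 0 : ℕ) = ∑ i, (if a i + c i = 0 then 1 else 0) →
      ∑ i, (if a i = 0 then 1 else 0 : ℕ) = ∑ i, (if a i + c i + c i = 0 then 1 else 0) → a = 0 := by
    decide +kernel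
  refine a1 (Subtype.ext (by rw [← h1, show σ a = 1 from Subtype.ext (cj_inj Y (by
    rw [he, key _ b1 _ b2 b3 b4]; simp)), map_one]; rfl))

/-- Heisenberg. For `r ≠ p` the non-trivial eigenspaces of the lift of `z = ⁅x, y⁆` have dimension divisible
by `r`. For `r = p` make the lifts unitriangular, `s₁, s₂, s₃` the entries `(i, i+1)`: `z₁₃ s₃ = s₁ z₂₄` and
`z₁₃ = s₁(x) s₂(y) - s₁(y) s₂(x)`, `z₂₄ = s₂(x) s₃(y) - s₂(y) s₃(x)` give `z₁₃ z₂₄ = 0`: a transvection. -/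
theorem Core.heis (C : Core P) (hT : ¬ HasTv P) {r : ℕ} (hr : r.Prime) (ho : Odd r) {H : Subgroup (Bar P)}
    (hH : IsPGroup r H) {x y : Bar P} (hx : x ∈ H) (hy : y ∈ H) (hz : orderOf ⁅x, y⁆ = r)
    (h1 : Commute x ⁅x, y⁆) (h2 : Commute y ⁅x, y⁆) :
    r = 3 ∧ (3 : k) ≠ 0 ∧ ¬ IsConj ⁅x, y⁆ ⁅x, y⁆⁻¹ := by
  have := Fact.mk hr
  have := C.finite_bar
  obtain ⟨m, hm⟩ := IsPGroup.iff_card.1 hH
  obtain ⟨σ, s1, s2⟩ := C.odd_lift H (hm ▸ ho.pow)
  let τ : H →* G4 k := P.subtype.comp σ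
  let x' : H := ⟨x, hx⟩
  let y' : H := ⟨y, hy⟩
  have t1 : ∀ w, τ w ^ r ^ m = 1 := fun w => by rw [← map_pow, ← hm, pow_card_eq_one', map_one]
  have e1 : τ ⁅x', y'⁆ * τ x' = τ x' * τ ⁅x', y'⁆ := by
    rw [← map_mul, ← map_mul]; exact congrArg τ (Subtype.ext h1.symm.eq)
  have e2 : τ ⁅x', y'⁆ * τ y' = τ y' * τ ⁅x', y'⁆ := by
    rw [← map_mul, ← map_mul]; exact congrArg τ (Subtype.ext h2.symm.eq)
  have e3 : τ x' * τ y' = τ ⁅x', y'⁆ * (τ y' * τ x') := by
    rw [map_commutatorElement, commutatorElement_def]; group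
  have e4 : τ ⁅x', y'⁆ ≠ 1 := fun e => hr.ne_one (by
    rw [← hz, orderOf_eq_one_iff, ← show pr P (σ ⁅x', y'⁆) = ⁅x, y⁆ from s1 _, show σ ⁅x', y'⁆ = 1 from Subtype.ext e,
      map_one])
  have e5 : τ ⁅x', y'⁆ ^ r = 1 := by
    rw [← map_pow, show ⁅x', y'⁆ ^ r = 1 from Subtype.ext (hz ▸ pow_orderOf_eq_one ⁅x, y⁆), map_one]
  have h0 : (r : k) ≠ 0 := fun h0 => by
    have : CharP k r := (CharP.charP_iff_prime_eq_zero hr).2 h0
    refine hT (heis_char r (fun h => ?_) (t1 _) (t1 _) (t1 _) e1 e2 e3 e4 (σ _).2)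
    rw [(Nat.prime_dvd_prime_iff_eq hr Nat.prime_two).1 ((CharP.cast_eq_zero_iff k r 2).1 h)] at ho
    exact absurd ho (by decide)
  obtain ⟨Y, d, hd⟩ := exists_diag ![τ x', τ ⁅x', y'⁆] (fun i j => by
    fin_cases i <;> fin_cases j <;> first | rfl | exact e1 | exact e1.symm) (n := r ^ m)
    (by simpa using fun h => (h0 h).elim) fun j => by fin_cases j <;> exact t1 _
  have ha : cj Y (τ x') = diagonal (d 0) := hd 0
  have hl : cj Y (τ ⁅x', y'⁆) = diagonal (d 1) := hd 1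
  obtain ⟨π, hπ⟩ := perm_of_conj Y (τ y')
  have p1 := hπ hl hl e2.symm
  have p2 := hπ ((map_mul _ _ _).trans ((congrArg₂ _ hl ha).trans (diagonal_mul_diagonal _ _))) ha (by
    rw [e3, ← mul_assoc, ← e2, mul_assoc])
  have p3 : ∀ n i, d 1 ((π ^ n) i) = d 1 i := fun n i => by
    induction n with
    | zero => rfl
    | succ n ih => rw [pow_succ', Equiv.Perm.mul_apply, p1, ih]
  have p4 : ∀ n i, d 1 i ≠ 1 → (π ^ n) i = i → r ∣ n := fun n i hi e => by
    have : ∀ n, d 0 ((π ^ n) i) = d 1 i ^ n * d 0 i := fun n => by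
      induction n with
      | zero => simp
      | succ n ih => rw [pow_succ', Equiv.Perm.mul_apply, p2, ih, p3, pow_succ', mul_assoc]
    have h3 := this n
    rw [e, eq_comm, mul_eq_right₀ fun h => by simpa [h, hr.ne_zero] using diag_pow_eq ha (t1 _) i] at h3
    rw [← orderOf_eq_prime (diag_pow_eq hl e5 i) hi]
    exact orderOf_dvd_of_pow_eq_one h3
  obtain ⟨i, hi⟩ := exists_ne_one hl e4
  obtain ⟨n, n1, n2, hn⟩ := (by decide +kernel : ∀ (π : Equiv.Perm (Fin 4)) i, ∃ n ≤ 4, 0 < n ∧ (π ^ n) i = i) π i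
  obtain rfl : r = 3 := by
    have := (Nat.le_of_dvd n2 (p4 n i hi hn)).trans n1
    have := hr.two_le
    obtain ⟨l, hl⟩ := ho
    omega
  refine ⟨rfl, by exact_mod_cast h0, fun h => ?_⟩
  obtain ⟨g, hg⟩ := isConj_iff.1 h
  obtain ⟨g, rfl⟩ := pr_surj g
  obtain ⟨ρ, hρ⟩ := perm_of_conj Y g
  have q1 := hρ hl (diag_pow hl 2) (by
    have := congrArg Subtype.val (mul_inv_eq_iff_eq_mul.1 (s2 g ⁅x', y'⁆ ⁅x', y'⁆⁻¹ hg))
    rw [eq_inv_of_mul_eq_one_left ((pow_succ _ 2).symm.trans e5), ← map_inv]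
    exact this) i
  have q2 : d 1 (ρ i) ≠ 1 := fun h => hi (by rw [← q1, Pi.pow_apply, h, one_pow])
  obtain ⟨l, -, hl'⟩ := (by decide +kernel : ∀ (π : Equiv.Perm (Fin 4)) i j, (π ^ 1) i ≠ i → (π ^ 2) i ≠ i →
    (π ^ 1) j ≠ j → ∃ n ≤ 4, (π ^ n) i = j) π i (ρ i) (fun h => absurd (p4 _ _ hi h) (by decide))
    (fun h => absurd (p4 _ _ hi h) (by decide)) fun h => absurd (p4 _ _ q2 h) (by decide)
  rw [Pi.pow_apply, ← hl', p3, sq, mul_eq_right₀ fun h => by simpa [h] using diag_pow_eq hl e5 i] at q1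
  exact hi q1

end CL.D4
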