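import Cfsg.Agent.CLAS.D4.B0
import Cfsg.Agent.CLAS.D4.Tl

/-!
# Block B: lifts up to scalars in a basis `X`, simultaneous diagonalisation
-/

set_option autoImplicit false

namespace CL.D4.B

open Matrix Cfsg Cfsg.Geo CL.Asch

variable {k : Type*} [Field k] {P : Subgroup (G4 k)}

/-- in the basis `X` the matrix `M` is a non-zero multiple of a lift of `g` -/
def Lf (X : G4 k) (g : Bar P) (M : M4 k) : Prop :=
  ∃ A : P, pr P A = g ∧ ∃ c : k, c ≠ 0 ∧ M = c • ((X⁻¹ * A * X : G4 k) : M4 k)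

theorem exists_lf (X : G4 k) (g : Bar P) : ∃ M, Lf X g M :=
  let ⟨A, e⟩ := pr_surj g; ⟨_, A, e, 1, one_ne_zero, rfl⟩

theorem lf_pr (A : P) : Lf 1 (pr P A) ((A : G4 k) : M4 k) := ⟨A, rfl, 1, one_ne_zero, by simp⟩

namespace Lf

variable {X : G4 k} {g h : Bar P} {M N : M4 k}

theorem one : Lf X (1 : Bar P) 1 := ⟨1, rfl, 1, one_ne_zero, by simp⟩

theorem smul (a : Lf X g M) {c : k} (hc : c ≠ 0) : Lf X g (c • M) := by
  obtain ⟨A, e, d, hd, rfl⟩ := a
  exact ⟨A, e, c * d, mul_ne_zero hc hd, smul_smul ..⟩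

theorem mul (a : Lf X g M) (b : Lf X h N) : Lf X (g * h) (M * N) := by
  obtain ⟨A, rfl, c, hc, rfl⟩ := a
  obtain ⟨B, rfl, d, hd, rfl⟩ := b
  refine ⟨A * B, rfl, c * d, mul_ne_zero hc hd, ?_⟩
  rw [smul_mul_smul_comm, ← Units.val_mul, Subgroup.coe_mul]
  congr 2; group

theorem inv (a : Lf X g M) : ∃ N, Lf X g⁻¹ N ∧ M * N = 1 ∧ N * M = 1 := by
  obtain ⟨A, rfl, c, hc, rfl⟩ := a
  refine ⟨_, ⟨A⁻¹, rfl, c⁻¹, inv_ne_zero hc, rfl⟩, ?_, ?_⟩ <;>
    rw [smul_mul_smul_comm, ← Units.val_mul] <;> simp [mul_assoc, hc]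

theorem change (a : Lf X g M) (Y : G4 k) : Lf (X * Y) g ((Y⁻¹ : G4 k) * M * Y) := by
  obtain ⟨A, e, c, hc, rfl⟩ := a
  exact ⟨A, e, c, hc, by simp [mul_assoc]⟩

theorem back (a : Lf X g M) : Lf 1 g (X * M * (X⁻¹ : G4 k)) := by simpa using a.change X⁻¹

theorem cancel (a : Lf X g M) {U V : M4 k} (e : M * U = M * V) : U = V := by
  obtain ⟨N, -, -, h⟩ := a.inv
  rw [← one_mul U, ← h, mul_assoc, e, ← mul_assoc, h, one_mul]

theorem ne_zero (a : Lf X g M) : M ≠ 0 := fun e =>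
  one_ne_zero (a.cancel (U := 1) (V := 0) (by simp [e]))

theorem eq_one (a : Lf X g M) : g = 1 ↔ ∃ c : k, M = c • 1 := by
  obtain ⟨A, rfl, c, hc, rfl⟩ := a
  rw [pr_eq_one, mem_scalars']
  refine ⟨fun ⟨d, e⟩ => ⟨c * d, by simp [e, smul_smul]⟩, fun ⟨d, e⟩ => ⟨c⁻¹ * d, ?_⟩⟩
  have := congrArg (fun M : M4 k => c⁻¹ • (X * M * (X⁻¹ : G4 k))) e
  simpa [mul_assoc, smul_smul, hc] using this

theorem eq_iff (a : Lf X g M) (b : Lf X h N) : g = h ↔ ∃ c : k, M = c • N := by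
  obtain ⟨N', b', e, e'⟩ := b.inv
  rw [← mul_inv_eq_one, (a.mul b').eq_one]
  exact exists_congr fun c => ⟨fun h => by rw [← mul_one M, ← e', ← mul_assoc, h]; simp, fun h => by simp [h, e]⟩

theorem rel (a : Lf X g M) (b : Lf X g N) : ∃ c : k, c ≠ 0 ∧ M = c • N :=
  ((a.eq_iff b).1 rfl).imp fun _ e => ⟨fun h => a.ne_zero (by simp [e, h]), e⟩

theorem of_pr (X : G4 k) (A : P) : Lf X (pr P A) ((X⁻¹ * A * X : G4 k) : M4 k) := ⟨A, rfl, 1, one_ne_zero, by simp⟩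

theorem cm (a : Lf X g M) (b : Lf X h N) : CmP P g h ↔ M * N = N * M := by
  constructor
  · rintro ⟨A, B, rfl, rfl, e⟩
    obtain ⟨c, -, rfl⟩ := a.rel (of_pr X A)
    obtain ⟨d, -, rfl⟩ := b.rel (of_pr X B)
    have e' : (A : G4 k) * B = B * A := congrArg Subtype.val e
    rw [smul_mul_smul_comm, smul_mul_smul_comm, mul_comm c, ← Units.val_mul, ← Units.val_mul]
    congr 2
    calc _ = X⁻¹ * (A * B) * X := by group
      _ = _ := by rw [e']; group
  · obtain ⟨A, rfl, c, hc, rfl⟩ := a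
    obtain ⟨B, rfl, d, hd, rfl⟩ := b
    intro e
    rw [smul_mul_smul_comm, smul_mul_smul_comm, mul_comm d, smul_right_inj (mul_ne_zero hc hd), ← Units.val_mul,
      ← Units.val_mul, Units.val_inj] at e
    exact ⟨A, B, rfl, rfl, Subtype.ext (show (A : G4 k) * B = B * A from
      calc _ = X * (X⁻¹ * A * X * (X⁻¹ * B * X)) * X⁻¹ := by group
        _ = _ := by rw [e]; group)⟩

theorem yp (a : Lf X g M) (b : Lf X h N) : YP P g h ↔ ∃ α β : k, N = α • 1 + β • M := by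
  constructor
  · rintro ⟨A, B, rfl, rfl, α, β, e⟩
    obtain ⟨c, -, e'⟩ := (of_pr X A).rel a
    obtain ⟨d, -, rfl⟩ := b.rel (of_pr X B)
    refine ⟨d * α, d * β * c, ?_⟩
    rw [mul_smul _ c, ← e']
    simp [e, mul_add, add_mul, smul_smul]
  · obtain ⟨A, rfl, c, hc, rfl⟩ := a
    obtain ⟨B, rfl, d, hd, rfl⟩ := b
    rintro ⟨α, β, e⟩
    refine ⟨A, B, rfl, rfl, d⁻¹ * α, d⁻¹ * (β * c), ?_⟩
    have := congrArg (fun M : M4 k => d⁻¹ • (X * M * (X⁻¹ : G4 k))) e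
    simpa [mul_assoc, mul_add, add_mul, smul_smul, hd] using this

theorem sq (a : Lf X g M) (e : g * g = 1) : ∃ c : k, c ≠ 0 ∧ M * M = c • 1 := (a.mul a).rel (e ▸ one)

/-- lifts of elements commuting with an involution commute or anticommute -/
theorem anti (a : Lf X g M) (b : Lf X h N) (e : g * g = 1) (c : h * g = g * h) (n : ¬ CmP P g h) :
    N * M = -(M * N) := by
  obtain ⟨d, hd, e1⟩ := a.sq e
  obtain ⟨x, -, e2⟩ := (b.mul a).rel (c ▸ a.mul b)
  have e3 : d • N = (x * x * d) • N := by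
    calc _ = N * M * M := by rw [mul_assoc, e1]; simp
      _ = _ := by
        rw [e2, smul_mul_assoc, mul_assoc, e2, mul_smul_comm, ← mul_assoc, e1, smul_mul_assoc, smul_smul, smul_smul,
          one_mul]
  rcases mul_self_eq_one_iff.1 (mul_right_cancel₀ hd ((smul_left_injective k b.ne_zero e3).symm.trans
    (one_mul d).symm)) with rfl | rfl
  · exact absurd ((a.cm b).2 (by rw [e2, one_smul])) n
  · rw [e2, neg_one_smul]

variable [IsAlgClosed k]

theorem root (a : Lf X g M) (e : g * g = 1) : ∃ τ, Lf X g τ ∧ τ * τ = 1 := by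
  obtain ⟨d, hd, e1⟩ := a.sq e
  obtain ⟨s, hs⟩ := IsAlgClosed.exists_eq_mul_self d⁻¹
  exact ⟨_, a.smul (c := s) fun h => hd (by simpa [h] using hs), by
    rw [smul_mul_smul_comm, e1, ← hs, smul_smul, inv_mul_cancel₀ hd, one_smul]⟩

theorem tr0 (h2 : (2 : k) ≠ 0) (C : Core P) (hJ : ¬ HasJ P) (a : Lf X g M) (e : g * g = 1) (n : g ≠ 1) :
    M.trace = 0 := by
  obtain ⟨A, rfl, c, -, rfl⟩ := a
  obtain ⟨Y, x, h⟩ := C.inv_form h2 hJ (orderOf_eq_prime (by rwa [pow_two]) n)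
  have : ∀ X : G4 k, ((X⁻¹ * A * X : G4 k) : M4 k).trace = tr (A : G4 k) := fun X =>
    (tr_conj (isConj_iff.2 ⟨X⁻¹, by rw [inv_inv]⟩)).symm
  rw [trace_smul, this, ← this Y, h]
  simp [trace, Fin.sum_univ_four]

end Lf

abbrev D1 (k : Type*) [Field k] : M4 k := diagonal ![1, 1, -1, -1]

abbrev D2 (k : Type*) [Field k] : M4 k := diagonal ![1, -1, 1, -1]

theorem diag_pair (h2 : (2 : k) ≠ 0) {S T : M4 k} (s : S * S = 1) (t : T * T = 1) (c : S * T = T * S)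
    (e1 : S.trace = 0) (e2 : T.trace = 0) (e3 : (S * T).trace = 0) :
    ∃ Y : G4 k, (Y⁻¹ : G4 k) * S * Y = D1 k ∧ (Y⁻¹ : G4 k) * T * Y = D2 k := by
  have key : ∀ ε δ : k, ε * ε = 1 → δ * δ = 1 → ∃ v : V4 k, v ≠ 0 ∧ S *ᵥ v = ε • v ∧ T *ᵥ v = δ • v := by
    intro ε δ a b
    obtain ⟨u, hu⟩ : ∃ u, ((1 + ε • S) * (1 + δ • T)) *ᵥ u ≠ 0 := by
      by_contra! n
      have := congrArg trace (eq_of_mulVec (y := 0) fun u => (n u).trans (zero_mulVec u).symm)
      simp only [mul_add, add_mul, smul_mul_assoc, mul_smul_comm, trace_add, trace_smul, one_mul, mul_one, e1, e2, e3,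
        smul_zero, add_zero, trace_one, trace_zero] at this
      exact mul_ne_zero h2 h2 (by simpa using (show (2 : k) * 2 = (4 : ℕ) by norm_num).trans this)
    have p : ∀ {S : M4 k} {ε : k}, S * S = 1 → ε * ε = 1 → S * (1 + ε • S) = ε • (1 + ε • S) := fun s a => by
      rw [mul_add, mul_smul_comm, s, smul_add, smul_smul, a, one_smul, mul_one, add_comm]
    refine ⟨_, hu, ?_, ?_⟩ <;> rw [mulVec_mulVec, ← smul_mulVec, ← mul_assoc]
    · rw [p s a, smul_mul_assoc]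
    · rw [((Commute.one_right T).add_right (Commute.smul_right c.symm ε)).eq, mul_assoc, p t b, mul_smul_comm]
  choose v v0 vS vT using fun i : Fin 4 => key (![1, 1, -1, -1] i) (![1, -1, 1, -1] i)
    (by fin_cases i <;> simp) (by fin_cases i <;> simp)
  have a : S * (of v)ᵀ = (of v)ᵀ * D1 k := by
    ext i j; rw [mul_diagonal, mul_comm]; exact congrFun (vS j) i
  have b : T * (of v)ᵀ = (of v)ᵀ * D2 k := by
    ext i j; rw [mul_diagonal, mul_comm]; exact congrFun (vT j) i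
  obtain ⟨Y, hY⟩ : IsUnit (of v)ᵀ := by
    rw [← mulVec_injective_iff_isUnit, ← coe_mulVecLin, injective_iff_map_eq_zero]
    intro u hu
    have f : ∀ {S D : M4 k} {u : V4 k}, S * (of v)ᵀ = (of v)ᵀ * D → (of v)ᵀ *ᵥ u = 0 → ∀ ε : k,
        (of v)ᵀ *ᵥ (u + ε • D *ᵥ u) = 0 := fun e h ε => by
      rw [mulVec_add, mulVec_smul, mulVec_mulVec, ← e, ← mulVec_mulVec, h]; simp
    funext i
    have := f b (f a hu (![1, 1, -1, -1] i)) (![1, -1, 1, -1] i)
    obtain ⟨j, hj⟩ := Function.ne_iff.1 (v0 i)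
    have e := congrFun this j
    have q : ∀ x : k, x + x + (x + x) = 0 → x = 0 := fun x e =>
      (mul_eq_zero.1 (show 2 * 2 * x = 0 by linear_combination e)).resolve_left (mul_ne_zero h2 h2)
    fin_cases i <;> simp [mulVec, dotProduct, Fin.sum_univ_four, diagonal] at e <;> exact q _ (e.resolve_left hj)
  exact ⟨Y, by rw [mul_assoc, hY, a, ← hY, Units.inv_mul_cancel_left],
    by rw [mul_assoc, hY, b, ← hY, Units.inv_mul_cancel_left]⟩

theorem neg_cancel (h2 : (2 : k) ≠ 0) {x : k} (e : x = -x) : x = 0 :=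
  (mul_eq_zero.1 (show 2 * x = 0 by linear_combination e)).resolve_left h2

theorem diag_of (h2 : (2 : k) ≠ 0) {M : M4 k} (a : D1 k * M = M * D1 k) (b : D2 k * M = M * D2 k) :
    ∃ x y z w : k, M = diagonal ![x, y, z, w] := by
  refine ⟨M 0 0, M 1 1, M 2 2, M 3 3, ?_⟩
  ext i j
  have a := congrFun (congrFun a i) j
  have b := congrFun (congrFun b i) j
  rw [diagonal_mul, mul_diagonal] at a b
  fin_cases i <;> fin_cases j <;> simp at a b ⊢ <;> apply neg_cancel h2 <;>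
    first | exact a | exact b | exact a.symm | exact b.symm

theorem anti_of (h2 : (2 : k) ≠ 0) {M : M4 k} (a : D1 k * M = M * D1 k) (b : M * D2 k = -(D2 k * M)) :
    ∃ x y z w : k, M = !![0, x, 0, 0; y, 0, 0, 0; 0, 0, 0, z; 0, 0, w, 0] := by
  refine ⟨M 0 1, M 1 0, M 2 3, M 3 2, ?_⟩
  ext i j
  have a := congrFun (congrFun a i) j
  have b := congrFun (congrFun b i) j
  rw [Matrix.neg_apply] at b
  rw [diagonal_mul, mul_diagonal] at a b
  fin_cases i <;> fin_cases j <;> simp at a b ⊢ <;> apply neg_cancel h2 <;>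
    first | exact a | exact b | exact a.symm | exact b.symm

theorem swap_of (h2 : (2 : k) ≠ 0) {M : M4 k} {c : k} (hc : c = 1 ∨ c = -1) (a : M * D1 k = c • (D2 k * M))
    (b : M * D2 k = c • (D1 k * M)) : ∃ x y z w : k, M = !![x, 0, 0, 0; 0, 0, y, 0; 0, z, 0, 0; 0, 0, 0, w] ∨
      M = !![0, 0, 0, y; 0, x, 0, 0; 0, 0, w, 0; z, 0, 0, 0] := by
  rcases hc with rfl | rfl
  on_goal 1 => refine ⟨M 0 0, M 1 2, M 2 1, M 3 3, .inl ?_⟩
  on_goal 2 => refine ⟨M 1 1, M 0 3, M 3 0, M 2 2, .inr ?_⟩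
  all_goals
    ext i j
    have a := congrFun (congrFun a i) j
    have b := congrFun (congrFun b i) j
    rw [Matrix.smul_apply, diagonal_mul, mul_diagonal] at a b
    fin_cases i <;> fin_cases j <;> simp at a b ⊢ <;> apply neg_cancel h2 <;>
      first | exact a | exact b | exact a.symm | exact b.symm

theorem span_D1 (h2 : (2 : k) ≠ 0) (u v : k) : ∃ α β : k, diagonal ![u, u, v, v] = α • (1 : M4 k) + β • D1 k :=
  ⟨(u + v) / 2, (u - v) / 2, by ext i j; fin_cases i <;> fin_cases j <;> simp <;> field_simp <;> ring⟩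

variable [IsAlgClosed k] (h2 : (2 : k) ≠ 0) (C : Core P) (hJ : ¬ HasJ P)
include h2 C hJ

theorem exists_d1 {t : Bar P} (e : t * t = 1) (n : t ≠ 1) : ∃ X, Lf X t (D1 k) := by
  obtain ⟨A, rfl⟩ := pr_surj t
  obtain ⟨X, a, h⟩ := C.inv_form h2 hJ (orderOf_eq_prime (by rwa [pow_two]) n)
  have := Lf.of_pr X A
  rw [h] at this
  have a0 : a ≠ 0 := fun e => this.ne_zero (by simp [e])
  exact ⟨X, by simpa [smul_smul, a0] using this.smul (inv_ne_zero a0)⟩

theorem exists_dp {t w : Bar P} (d : Dp (CmP P) t w) : ∃ X, Lf X t (D1 k) ∧ Lf X w (D2 k) := by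
  obtain ⟨S, a, s⟩ := (exists_lf 1 t).choose_spec.root d.t2
  obtain ⟨T, b, e⟩ := (exists_lf 1 w).choose_spec.root d.w2
  have c := (a.cm b).1 d.cm
  obtain ⟨Y, h1, h3⟩ := diag_pair h2 s e c (a.tr0 h2 C hJ d.t2 d.t1) (b.tr0 h2 C hJ d.w2 d.w1)
    ((a.mul b).tr0 h2 C hJ (((a.mul b).mul (a.mul b)).eq_one.2 ⟨1, by
      rw [mul_assoc, ← mul_assoc T, ← c, mul_assoc, e, mul_one, s, one_smul]⟩)
      fun h => d.ne (mul_left_cancel (d.t2.trans h.symm)))
  exact ⟨_, h1 ▸ a.change Y, h3 ▸ b.change Y⟩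

end CL.D4.B
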