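import Mathlib
import Cfsg.Agent.PLOC.Critical

/-!
# Two by two matrices which commute up to a sign
-/

set_option autoImplicit false

namespace CL.D4.B2

open Matrix
open scoped commutatorElement

abbrev M2 (k : Type*) := Matrix (Fin 2) (Fin 2) k

variable {k : Type*} [Field k] {A B G X : M2 k}

/-- scalar matrices -/
def Sc (A : M2 k) : Prop := ∃ c : k, A = c • 1

/-- commuting up to a sign -/
def Pm (A B : M2 k) : Prop := A * B = B * A ∨ A * B = -(B * A)

theorem ch (A : M2 k) : A * A = A.trace • A - A.det • 1 := by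
  ext i j; fin_cases i <;> fin_cases j <;>
    simp [mul_apply, Fin.sum_univ_two, trace_fin_two, det_fin_two] <;> ring

theorem sc_iff : Sc A ↔ A 0 1 = 0 ∧ A 1 0 = 0 ∧ A 0 0 = A 1 1 :=
  ⟨by rintro ⟨c, rfl⟩; simp, fun ⟨h1, h2, h3⟩ => ⟨A 0 0, by
    ext i j; fin_cases i <;> fin_cases j <;> simp [h1, h2, h3]⟩⟩

theorem commutant (h : ¬ Sc A) (e : B * A = A * B) : ∃ u v : k, B = u • 1 + v • A := by
  have e1 := congrFun (congrFun e 0) 0
  have e2 := congrFun (congrFun e 0) 1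
  have e3 := congrFun (congrFun e 1) 0
  simp only [mul_apply, Fin.sum_univ_two] at e1 e2 e3
  rw [sc_iff] at h
  obtain ⟨v, v1, v2, v3⟩ : ∃ v, B 0 1 = v * A 0 1 ∧ B 1 0 = v * A 1 0 ∧
      B 0 0 - B 1 1 = v * (A 0 0 - A 1 1) := by
    by_cases h1 : A 0 1 = 0
    · by_cases h2 : A 1 0 = 0
      · have h3 : A 0 0 - A 1 1 ≠ 0 := fun h3 => h ⟨h1, h2, sub_eq_zero.1 h3⟩
        refine ⟨(B 0 0 - B 1 1) / (A 0 0 - A 1 1), ?_, ?_, by field_simp⟩ <;> field_simp
        exacts [by linear_combination -e2, by linear_combination e3]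
      · refine ⟨B 1 0 / A 1 0, ?_, by field_simp, ?_⟩ <;> field_simp
        exacts [by linear_combination e1, by linear_combination -e3]
    · refine ⟨B 0 1 / A 0 1, by field_simp, ?_, ?_⟩ <;> field_simp
      exacts [by linear_combination -e1, by linear_combination e2]
  refine ⟨B 0 0 - v * A 0 0, v, ?_⟩
  ext i j; fin_cases i <;> fin_cases j <;> simp [v1, v2]
  linear_combination -v3

theorem trace_zero (h : ¬ Sc A) (e : Sc (A * A)) : A.trace = 0 := by
  by_contra h0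
  obtain ⟨c, hc⟩ := e
  refine h ⟨A.trace⁻¹ * (c + A.det), ?_⟩
  rw [mul_smul, add_smul, ← hc, ch, sub_add_cancel, inv_smul_smul₀ h0]

theorem Pm.mul_right (h : Pm G A) (h' : Pm G B) : Pm G (A * B) := by
  rcases h with h | h <;> rcases h' with h' | h' <;>
    simp only [Pm, ← mul_assoc G, h, neg_mul, mul_assoc A, h', mul_neg, neg_neg, true_or, or_true]

theorem Pm.symm (h : Pm A B) : Pm B A := h.imp Eq.symm fun h => by rw [h, neg_neg]

theorem Pm.smul (h : Pm A B) (c : k) : Pm A (c • B) :=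
  h.imp (fun h => by simp [h]) fun h => by simp [h]

theorem Pm.one (A : M2 k) : Pm A 1 := .inl (by simp)

variable (h2 : (2 : k) ≠ 0)
include h2

theorem zero_of_neg (h : A = -A) : A = 0 := by
  have : (2 : k) • A = 0 := by rw [two_smul]; exact add_eq_zero_iff_eq_neg.2 h
  exact (smul_eq_zero.1 this).resolve_left h2

theorem not_sc (h : A * B = -(B * A)) (h0 : (A * B).det ≠ 0) : ¬ Sc A := by
  rintro ⟨c, rfl⟩
  rw [smul_mul_assoc, mul_smul_comm, one_mul, mul_one] at h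
  rw [smul_mul_assoc, one_mul, zero_of_neg h2 h] at h0
  exact h0 det_zero

theorem schur (h : A * B = -(B * A)) (h0 : (A * B).det ≠ 0) (e1 : G * A = A * G)
    (e2 : G * B = B * G) : Sc G := by
  obtain ⟨u, v, rfl⟩ := commutant (not_sc h2 h h0) e1
  rw [add_mul, mul_add, smul_mul_assoc, smul_mul_assoc, mul_smul_comm, mul_smul_comm, one_mul, mul_one,
    add_right_inj, show B * A = -(A * B) by rw [h, neg_neg], smul_neg] at e2
  rcases smul_eq_zero.1 (zero_of_neg h2 e2) with e | e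
  · exact ⟨u, by simp [e]⟩
  · exact absurd (e ▸ det_zero) h0

/-- the four possibilities -/
theorem four {α β : k} (h : A * B = -(B * A)) (hA : A * A = α • 1) (hB : B * B = β • 1) (a0 : α ≠ 0)
    (b0 : β ≠ 0) (e1 : Pm G A) (e2 : Pm G B) :
    ∃ c : k, G = c • 1 ∨ G = c • A ∨ G = c • B ∨ G = c • (A * B) := by
  have h' : B * A = -(A * B) := by rw [h, neg_neg]
  have hAB : A * B * (A * B) = (-(α * β)) • 1 := by
    rw [mul_assoc, ← mul_assoc B, h', neg_mul, mul_assoc A B, hB, mul_neg, mul_smul_comm, mul_one,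
      mul_smul_comm, hA, smul_smul, neg_smul, mul_comm]
  have h0 : (A * B).det ≠ 0 := fun e => by
    have := congrArg det hAB
    rw [det_mul, e, det_smul] at this
    simp [a0, b0, eq_comm (a := (0 : k))] at this
  have key : ∀ {E : M2 k} {ε : k}, ε ≠ 0 → E * E = ε • 1 → G * E * A = A * (G * E) →
      G * E * B = B * (G * E) → ∃ c : k, G = c • E := fun {E ε} e0 hE a b => by
    obtain ⟨c, hc⟩ := schur h2 h h0 a b
    refine ⟨ε⁻¹ * c, ?_⟩
    have := congrArg (· * E) hc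
    simp only [mul_assoc, hE, mul_smul_comm, mul_one, smul_mul_assoc, one_mul] at this
    rw [mul_smul, ← this, inv_smul_smul₀ e0]
  rcases e1 with e1 | e1 <;> rcases e2 with e2 | e2
  · exact (schur h2 h h0 e1 e2).imp fun c hc => .inl hc
  · exact (key a0 hA (by rw [e1, mul_assoc, e1]) (by
      rw [mul_assoc, h, mul_neg, ← mul_assoc, e2, neg_mul, neg_neg, mul_assoc])).imp
        fun c hc => .inr (.inl hc)
  · exact (key b0 hB (by rw [mul_assoc, h', mul_neg, ← mul_assoc, e1, neg_mul, neg_neg, mul_assoc])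
      (by rw [e2, mul_assoc, e2])).imp fun c hc => .inr (.inr (.inl hc))
  · refine (key (neg_ne_zero.2 (mul_ne_zero a0 b0)) hAB ?_ ?_).imp fun c hc => .inr (.inr (.inr hc))
    · rw [mul_assoc, mul_assoc A, h', mul_neg, mul_neg, ← mul_assoc G, e1, neg_mul, neg_neg, mul_assoc]
    · rw [mul_assoc, h, neg_mul, mul_neg, mul_assoc B, ← mul_assoc G, e2, neg_mul, neg_neg, mul_assoc, h]

omit h2 in
theorem pm_of_det {c : k} (h : G = c • A) (h1 : G.det = 1) (h2 : A.det = 1) : G = A ∨ G = -A := by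
  rw [h, det_smul, h2, mul_one, Fintype.card_fin] at h1
  exact (sq_eq_one_iff.1 h1).imp (fun e => by rw [h, e, one_smul]) fun e => by rw [h, e, neg_one_smul]

/-- `A` is one of the units of the quaternion group generated by `J, J'` -/
def Q8 (J J' A : M2 k) : Prop :=
  (A = 1 ∨ A = -1) ∨ (A = J ∨ A = -J) ∨ (A = J' ∨ A = -J') ∨ (A = J * J' ∨ A = -(J * J'))

variable {Γ : Type*} [Group Γ] [Finite Γ] (ρ : Γ →* M2 k) {Q : Subgroup Γ} (hQ : IsPGroup 2 Q) {x : Γ}
  {m : ℕ} (hm : Odd m) (hx : x ^ m = 1) (hn : ∀ q ∈ Q, x * q * x⁻¹ ∈ Q)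
  (gen : ∀ N : Subgroup Γ, (∀ q ∈ Q, x * q * x⁻¹ * q⁻¹ ∈ N) → Q ≤ N)

omit h2 [Finite Γ] in
/-- the elements which are scalars -/
def scal : Subgroup Γ where
  carrier := {g | Sc (ρ g)}
  one_mem' := ⟨1, by simp⟩
  mul_mem' := by
    rintro a b ⟨c, hc⟩ ⟨d, hd⟩
    exact ⟨c * d, by rw [map_mul, hc, hd, smul_mul_smul_comm, one_mul]⟩
  inv_mem' := by
    rintro a ⟨c, hc⟩
    have e : ρ a⁻¹ * ρ a = 1 := by rw [← map_mul, inv_mul_cancel, map_one]
    rw [hc, mul_smul_comm, mul_one] at e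
    have : c ≠ 0 := by rintro rfl; simp at e
    exact ⟨c⁻¹, by rw [← e, inv_smul_smul₀ this]⟩

omit h2 [Finite Γ] in
theorem scal_normal : (scal ρ).Normal := ⟨by
  rintro a ⟨c, hc⟩ g
  exact ⟨c, by rw [map_mul, map_mul, hc, mul_smul_comm, mul_one, smul_mul_assoc, ← map_mul,
    mul_inv_cancel, map_one]⟩⟩

omit h2 [Finite Γ] in
include gen in
theorem det_eq_one {q : Γ} (hq : q ∈ Q) : (ρ q).det = 1 :=
  gen ((detMonoidHom (n := Fin 2) (R := k)).comp ρ).toHomUnits.ker (fun q _ => by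
    rw [MonoidHom.mem_ker, map_mul, map_mul, map_mul, map_inv, map_inv, mul_inv_cancel_comm,
      mul_inv_cancel]) hq |> congrArg Units.val

omit h2 [Finite Γ] in
include hm hx in
theorem mem_of_pow {N : Subgroup Γ} {n : ℕ} (h : x ^ 2 ^ n ∈ N) : x ∈ N := by
  obtain ⟨a, ha⟩ := Nat.exists_mul_mod_eq_one_of_coprime
    (show (2 ^ n).Coprime (m + 2 ^ n * m) from by
      simpa using Nat.Coprime.pow_left n (Nat.coprime_two_left.2 hm)) (by
      have := hm.pos; have := Nat.one_le_two_pow (n := n); nlinarith)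
  have e : x ^ (m + 2 ^ n * m) = 1 := by rw [pow_add, mul_comm, pow_mul, hx, one_pow, one_mul]
  have := pow_mem h a
  rwa [← pow_mul, ← Nat.mod_add_div (2 ^ n * a) (m + 2 ^ n * m), ha.2, pow_add, pow_mul, e, one_pow,
    mul_one, pow_one] at this

include hQ hm hx hn gen in
theorem key {j : Γ} (hj : j ∈ Q) (h0 : ¬ Sc (ρ j)) (h1 : Sc (ρ j * ρ j))
    (h3 : ∀ g ∈ Q, Pm (ρ g) (ρ j)) : ρ j * ρ j = -1 ∧
      ρ j * ρ (x * j * x⁻¹) = -(ρ (x * j * x⁻¹) * ρ j) ∧
      (ρ (x * (x * j * x⁻¹) * x⁻¹) = ρ j * ρ (x * j * x⁻¹) ∨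
        ρ (x * (x * j * x⁻¹) * x⁻¹) = -(ρ j * ρ (x * j * x⁻¹))) ∧
      ∀ g ∈ Q, Q8 (ρ j) (ρ (x * j * x⁻¹)) (ρ g) := by
  have := scal_normal ρ
  have d1 := fun {q} (hq : q ∈ Q) => det_eq_one ρ gen hq
  have t0 := trace_zero h0 h1
  have s1 : ρ j * ρ j = -1 := by rw [ch, t0, d1 hj]; simp
  have cj : ∀ a b : Γ, ρ (x * a * x⁻¹) * ρ (x * b * x⁻¹) = ρ x * (ρ a * ρ b) * ρ x⁻¹ := fun a b => by
    simp only [← map_mul]; congr 1; group
  have xx : ρ x * ρ x⁻¹ = 1 := by rw [← map_mul, mul_inv_cancel, map_one]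
  have s2 : ρ (x * j * x⁻¹) * ρ (x * j * x⁻¹) = -1 := by rw [cj, s1, mul_neg, neg_mul, mul_one, xx]
  let C : Subgroup Γ :=
    { carrier := {g | ρ g * ρ j = ρ j * ρ g}
      one_mem' := by simp
      mul_mem' := fun {a b} ha hb => by
        simp only [Set.mem_ofPred_eq] at ha hb ⊢
        rw [map_mul, mul_assoc, hb, ← mul_assoc, ha, mul_assoc]
      inv_mem' := fun {a} ha => by
        simp only [Set.mem_ofPred_eq, ← map_mul] at ha ⊢
        rw [show a⁻¹ * j = a⁻¹ * (j * a) * a⁻¹ by group, map_mul, map_mul, ← ha, ← map_mul, ← map_mul]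
        congr 1; group }
  have fix : ∀ {y : Γ}, (ρ (y * j * y⁻¹) = ρ j ∨ ρ (y * j * y⁻¹) = -ρ j) → y ^ 2 ∈ C := fun {y} h => by
    have e : ρ y * ρ j = ρ (y * j * y⁻¹) * ρ y := by simp only [← map_mul]; congr 1; group
    change ρ (y ^ 2) * ρ j = ρ j * ρ (y ^ 2)
    rw [pow_two, map_mul, mul_assoc]
    rcases h with h | h <;> rw [h] at e
    · rw [e, ← mul_assoc, e, mul_assoc]
    · rw [e, neg_mul, mul_neg, ← mul_assoc, e, neg_mul, neg_mul, neg_neg, mul_assoc]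
  have nC : x ∉ C := fun hC => by
    obtain ⟨u, v, hX⟩ := commutant h0 hC
    refine h0 (gen (scal ρ) (fun q hq => ?_) hj)
    have qq : ρ q * ρ q⁻¹ = 1 := by rw [← map_mul, mul_inv_cancel, map_one]
    rcases h3 q hq with e | e
    · refine ⟨1, ?_⟩
      have : ρ x * ρ q = ρ q * ρ x := by rw [hX]; simp [add_mul, mul_add, e]
      rw [map_mul, map_mul, map_mul, this, mul_assoc (ρ q), xx, mul_one, qq, one_smul]
    have e1 : x * (q * x * q⁻¹) ∈ scal ρ := ⟨u * u + v * v, by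
      rw [map_mul, map_mul, map_mul, hX]
      simp only [add_mul, mul_add, smul_mul_assoc, mul_smul_comm, mul_neg, neg_mul, e, mul_assoc, qq, s1,
        one_mul, mul_one]
      module⟩
    obtain ⟨n, hn'⟩ := hQ ⟨_, mul_mem (hn q hq) (inv_mem hq)⟩
    have hn'' : (x * q * x⁻¹ * q⁻¹) ^ 2 ^ n = 1 := congrArg Subtype.val hn'
    let π := QuotientGroup.mk' (scal ρ)
    have e2 : π (x * q * x⁻¹ * q⁻¹) = π (x ^ 2) := by
      have e' : π x * (π q * π x * (π q)⁻¹) = 1 := by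
        simpa only [map_mul, map_inv] using show π _ = 1 from (QuotientGroup.eq_one_iff _).2 e1
      simp only [map_mul, map_inv, pow_two]
      conv_rhs => enter [2]; rw [eq_inv_of_mul_eq_one_left e']
      group
    have e3 : x ∈ scal ρ := mem_of_pow hm hx (n := n + 1) ((QuotientGroup.eq_one_iff _).1 (by
      change π _ = 1
      rw [pow_succ', pow_mul, map_pow, ← e2, ← map_pow, hn'', map_one]))
    simpa only [mul_assoc] using mul_mem e3 (this.conj_mem _ (inv_mem e3) q)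
  have a1 : ρ j * ρ (x * j * x⁻¹) = -(ρ (x * j * x⁻¹) * ρ j) := by
    refine (h3 _ (hn j hj)).symm.resolve_left fun e => nC (mem_of_pow hm hx (n := 1) (fix ?_))
    obtain ⟨u, v, h⟩ := commutant h0 e.symm
    have := congrArg trace h
    rw [map_mul, map_mul, trace_mul_cycle, ← map_mul, inv_mul_cancel, map_one, one_mul, t0] at this
    simp [t0, h2] at this
    exact pm_of_det (by simpa [this] using h) (d1 (hn j hj)) (d1 hj)
  have xi : ∀ q ∈ Q, x⁻¹ * q * x ∈ Q := fun q hq => by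
    have : x⁻¹ ∈ Subgroup.normalizer (Q : Set Γ) :=
      inv_mem (Subgroup.mem_normalizer_fintype hn)
    simpa using (this q).1 hq
  have all : ∀ g ∈ Q, Q8 (ρ j) (ρ (x * j * x⁻¹)) (ρ g) := fun g hg => by
    obtain ⟨c, h⟩ := four h2 a1 (α := -1) (β := -1) (by simpa using s1) (by simpa using s2) (by simp)
      (by simp) (h3 g hg) (by
        rw [show g = x * (x⁻¹ * g * x) * x⁻¹ by group, Pm, cj, cj]
        exact (h3 _ (xi g hg)).imp (fun e => by rw [e]) fun e => by rw [e, mul_neg, neg_mul])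
    exact h.imp (pm_of_det · (d1 hg) det_one) (Or.imp (pm_of_det · (d1 hg) (d1 hj)) (Or.imp
      (pm_of_det · (d1 hg) (d1 (hn j hj))) (pm_of_det · (d1 hg) (by rw [det_mul, d1 hj, d1 (hn j hj), one_mul]))))
  refine ⟨s1, a1, ?_, all⟩
  have a2 : ρ (x * j * x⁻¹) * ρ (x * (x * j * x⁻¹) * x⁻¹) =
      -(ρ (x * (x * j * x⁻¹) * x⁻¹) * ρ (x * j * x⁻¹)) := by rw [cj, cj, a1, mul_neg, neg_mul]
  have ns := not_sc h2 (neg_eq_iff_eq_neg.1 a2.symm) (by
    rw [det_mul, d1 (hn j hj), d1 (hn _ (hn j hj))]; simp)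
  rcases all _ (hn _ (hn j hj)) with h | h | h | h
  · exact absurd (h.elim (fun e => ⟨1, by rw [e, one_smul]⟩) fun e => ⟨-1, by rw [e, neg_one_smul]⟩) ns
  · exact absurd (mem_of_pow hm hx (n := 2) (by
      have := fix (y := x ^ 2) (by
        rwa [show x ^ 2 * j * (x ^ 2)⁻¹ = x * (x * j * x⁻¹) * x⁻¹ by rw [pow_two]; group])
      rwa [← pow_mul] at this)) nC
  · rcases h with h | h <;> rw [h] at a2 <;> simp only [mul_neg, neg_mul, s2, neg_neg] at a2
    exacts [absurd (zero_of_neg h2 a2.symm) one_ne_zero, absurd (zero_of_neg h2 a2) one_ne_zero]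
  · exact h

include hQ hm hx hn gen in
/-- a `2`-group with `Q = ⁅Q, x⁆` acts on a plane as the quaternion group, or by signs -/
theorem quat {j : Γ} (hj : j ∈ Q) : (ρ j = 1 ∨ ρ j = -1) ∨ ρ j * ρ j = -1 ∧
      ρ j * ρ (x * j * x⁻¹) = -(ρ (x * j * x⁻¹) * ρ j) ∧
      (ρ (x * (x * j * x⁻¹) * x⁻¹) = ρ j * ρ (x * j * x⁻¹) ∨
        ρ (x * (x * j * x⁻¹) * x⁻¹) = -(ρ j * ρ (x * j * x⁻¹))) ∧
      ∀ g ∈ Q, Q8 (ρ j) (ρ (x * j * x⁻¹)) (ρ g) := by
  have := scal_normal ρ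
  have d1 := fun {q} (hq : q ∈ Q) => det_eq_one ρ gen hq
  by_cases h0 : Sc (ρ j)
  · exact .inl (pm_of_det h0.choose_spec (d1 hj) det_one)
  obtain ⟨y, -, h1, h3, h4, -⟩ := CL.PG.exists_mem_omegaCenterOver hQ ((scal ρ).subgroupOf Q) ⊤
    fun h => h0 (h (Subgroup.mem_top ⟨j, hj⟩))
  have pm : ∀ g ∈ Q, Pm (ρ g) (ρ y) := fun g hg => by
    have e : ρ y * ρ g = ρ (⁅y, ⟨g, hg⟩⁆ : Q) * (ρ g * ρ y) := by
      simp only [← map_mul]; congr 1; simp [commutatorElement_def]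
    refine Pm.symm ?_
    rcases pm_of_det (h3 ⟨g, hg⟩).1.choose_spec (d1 (⁅y, ⟨g, hg⟩⁆ : Q).2) det_one with h | h <;>
      rw [show ρ (⁅y, ⟨g, hg⟩⁆ : Q) = _ from h] at e
    exacts [.inl (by simpa using e), .inr (by simpa using e)]
  obtain ⟨s1, a1, -, all⟩ := key h2 ρ hQ hm hx hn gen y.2 h1 (by
    rw [← map_mul, ← pow_two]; exact h4) pm
  have s2 : ρ (x * y * x⁻¹) * ρ (x * y * x⁻¹) = -1 := by
    rw [← map_mul, conj_mul, map_mul, map_mul, map_mul, s1, mul_neg, mul_one, neg_mul, ← map_mul,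
      mul_inv_cancel, map_one]
  generalize ρ y = J at *
  generalize ρ (x * y * x⁻¹) = J' at *
  have p1 : ∀ {A : M2 k}, Q8 J J' A → ∀ B : M2 k, Pm B J → Pm B J' → Pm B A := by
    rintro A ((rfl | rfl) | (rfl | rfl) | (rfl | rfl) | rfl | rfl) B h h'
    exacts [Pm.one B, by simpa using (Pm.one B).smul (-1), h, by simpa using h.smul (-1), h',
      by simpa using h'.smul (-1), h.mul_right h', by simpa using (h.mul_right h').smul (-1)]
  refine .inr (key h2 ρ hQ hm hx hn gen hj h0 ?_ fun g hg => p1 (all j hj) _ (pm g hg)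
    (p1 (all g hg) _ (Pm.symm (.inr a1)) (.inl rfl)).symm)
  have s3 : J * J' * (J * J') = -1 := by
    rw [mul_assoc, ← mul_assoc J', show J' * J = -(J * J') by rw [a1, neg_neg], neg_mul, mul_assoc J,
      s2]
    simp [s1]
  rcases all j hj with (h | h) | (h | h) | (h | h) | h | h <;> rw [h] <;>
    simp only [mul_neg, neg_mul, neg_neg, s1, s2, s3, mul_one]
  all_goals first | exact ⟨1, (one_smul _ _).symm⟩ | exact ⟨-1, (neg_one_smul _ _).symm⟩

end CL.D4.B2
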