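import Cfsg.Agent.CLAS.D4.B0
import Cfsg.Agent.CLAS.D4.Tl
import Cfsg.Agent.CLAS.D4.BG2a

/-!
# The two blocks of the elements commuting with the lift of an involution
-/

set_option autoImplicit false

namespace CL.D4.B2

open Matrix Cfsg Cfsg.Geo CL.Asch CL.D4.B

variable {k : Type*} [Field k] {P : Subgroup (G4 k)}

theorem pr_eq_iff {A B : P} : pr P A = pr P B ↔ ∃ c : k, (A.1 : M4 k) = c • (B.1 : M4 k) := by
  rw [← mul_inv_eq_one, ← map_inv, ← map_mul, pr_eq_one, mem_scalars']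
  refine exists_congr fun c => ?_
  rw [Subgroup.coe_mul, Subgroup.coe_inv, Units.val_mul, Units.mul_inv_eq_iff_eq_mul, smul_mul_assoc,
    one_mul]

theorem ne_zero_of {A : G4 k} {c : k} {M : M4 k} (h : (A : M4 k) = c • M) : c ≠ 0 := by
  rintro rfl
  exact A.ne_zero (h.trans (zero_smul _ _))

theorem cm_iff {A B : P} : CmP P (pr P A) (pr P B) ↔ A * B = B * A := by
  refine ⟨?_, fun h => ⟨A, B, rfl, rfl, h⟩⟩
  rintro ⟨A', B', h1, h2, h⟩
  obtain ⟨c, hc⟩ := pr_eq_iff.1 h1.symm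
  obtain ⟨d, hd⟩ := pr_eq_iff.1 h2.symm
  have : (A'.1 : M4 k) * B'.1 = (B'.1 : M4 k) * A'.1 := congrArg (fun x : P => (x.1 : M4 k)) h
  refine Subtype.ext (Units.ext ?_)
  simp only [Subgroup.coe_mul, Units.val_mul, hc, hd, smul_mul_smul_comm, this, mul_comm c]

/-- block diagonal matrices -/
def bd : (M2 k × M2 k) →ₐ[k] M4 k where
  toFun p := !![p.1 0 0, p.1 0 1, 0, 0; p.1 1 0, p.1 1 1, 0, 0; 0, 0, p.2 0 0, p.2 0 1;
    0, 0, p.2 1 0, p.2 1 1]
  map_one' := by ext i j; fin_cases i <;> fin_cases j <;> simp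
  map_mul' p q := by
    ext i j; fin_cases i <;> fin_cases j <;> simp [mul_apply, Fin.sum_univ_succ]
  map_zero' := by ext i j; fin_cases i <;> fin_cases j <;> simp
  map_add' p q := by ext i j; fin_cases i <;> fin_cases j <;> simp
  commutes' c := by
    ext i j; fin_cases i <;> fin_cases j <;> simp [Algebra.algebraMap_eq_smul_one]

/-- coordinates adapted to `T` -/
structure Blk (T : M4 k) (φ : (M2 k × M2 k) →ₐ[k] M4 k) : Prop where
  inj : Function.Injective φ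
  t : ∃ a : k, T = a • φ (1, -1)
  sur : ∀ M, M * T = T * M → ∃ p, φ p = M

theorem exists_blk [IsAlgClosed k] (h2 : (2 : k) ≠ 0) (C : Core P) (hJ : ¬ HasJ P) {T : P}
    (h : pr P T * pr P T = 1) (h1 : pr P T ≠ 1) : ∃ φ, Blk (T.1 : M4 k) φ := by
  obtain ⟨X, a, e⟩ := C.inv_form h2 hJ (t := T) (orderOf_eq_prime (by rwa [pow_two]) h1)
  have a0 := ne_zero_of e
  let ψ : M4 k →ₐ[k] M4 k :=
    { toFun := fun M => (X : M4 k) * M * (X⁻¹ : G4 k)
      map_one' := by simp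
      map_mul' := fun M N => by simp [mul_assoc]
      map_zero' := by simp
      map_add' := fun M N => by simp [mul_add, add_mul]
      commutes' := fun c => by simp [Algebra.algebraMap_eq_smul_one] }
  have hψ : ∀ M, ψ M = (X : M4 k) * M * (X⁻¹ : G4 k) := fun _ => rfl
  have hT : (T.1 : M4 k) = ψ (a • diagonal ![1, 1, -1, -1]) := by rw [← e, hψ]; simp [mul_assoc]
  have inj : Function.Injective ψ := fun M N h =>
    (Units.mul_right_inj X).1 ((Units.mul_left_inj X⁻¹).1 h)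
  refine ⟨ψ.comp bd, inj.comp fun p q h => ?_, ⟨a, ?_⟩, fun M hM => ?_⟩
  · have := fun i j => congrFun (congrFun h i) j
    ext i j <;> fin_cases i <;> fin_cases j
    exacts [this 0 0, this 0 1, this 1 0, this 1 1, this 2 2, this 2 3, this 3 2, this 3 3]
  · rw [hT, map_smul, AlgHom.comp_apply]
    congr 2
    ext i j; fin_cases i <;> fin_cases j <;> simp [bd]
  obtain ⟨N, rfl⟩ : ∃ N, M = ψ N := ⟨(X⁻¹ : G4 k) * M * X, by simp [hψ, mul_assoc]⟩
  rw [hT, ← map_mul, ← map_mul] at hM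
  have := fun i j => congrFun (congrFun (inj hM) i) j
  simp only [mul_smul_comm, smul_mul_assoc, Matrix.smul_apply, mul_diagonal, diagonal_mul, smul_eq_mul,
    mul_eq_mul_left_iff, a0, or_false] at this
  have z : ∀ {x : k}, x = -x → x = 0 := fun h =>
    (mul_eq_zero.1 (by linear_combination h)).resolve_left h2
  refine ⟨(!![N 0 0, N 0 1; N 1 0, N 1 1], !![N 2 2, N 2 3; N 3 2, N 3 3]), congrArg ψ ?_⟩
  ext i j
  have := this i j
  fin_cases i <;> fin_cases j <;> simp [bd] at this ⊢ <;>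
    first | exact (z this).symm | exact (z this.symm).symm

/-- the centraliser of the lift -/
abbrev Dd (T : P) : Subgroup P := Subgroup.centralizer {T}

/-- the two blocks -/
structure Rp (T : P) (ρ σ : Dd T →* M2 k) : Prop where
  inj : ∀ g h, ρ g = ρ h → σ g = σ h → g = h
  sc : ∀ g h : Dd T, pr P g = pr P h ↔ ∃ c : k, ρ g = c • ρ h ∧ σ g = c • σ h
  y : ∀ g : Dd T, YP P (pr P T) (pr P g) ↔ Sc (ρ g) ∧ Sc (σ g)
  rq : ∀ (x y : Dd T) (a b : k), σ x = a • 1 → σ y = b • 1 → ρ x * ρ x = (-a ^ 2) • 1 →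
    ρ y * ρ y = (-b ^ 2) • 1 → ρ x * ρ y = -(ρ y * ρ x) → RootQ P
  rq' : ∀ (x y : Dd T) (a b : k), ρ x = a • 1 → ρ y = b • 1 → σ x * σ x = (-a ^ 2) • 1 →
    σ y * σ y = (-b ^ 2) • 1 → σ x * σ y = -(σ y * σ x) → RootQ P

theorem Rp.symm {T : P} {ρ σ : Dd T →* M2 k} (R : Rp T ρ σ) : Rp T σ ρ :=
  ⟨fun g h a b => R.inj g h b a, fun g h => (R.sc g h).trans (exists_congr fun _ => and_comm),
    fun g => (R.y g).trans and_comm, R.rq', R.rq⟩

theorem rootQ (h2 : (2 : k) ≠ 0) {φ : (M2 k × M2 k) →ₐ[k] M4 k} (inj : Function.Injective φ) {x y : P}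
    {A B : M2 k} {a b : k} (hx : (x.1 : M4 k) = φ (A, a • 1)) (hy : (y.1 : M4 k) = φ (B, b • 1))
    (hA : A * A = (-a ^ 2) • 1) (hB : B * B = (-b ^ 2) • 1) (h : A * B = -(B * A)) : RootQ P := by
  have key : ∀ {x : P} {A : M2 k} {a : k}, (x.1 : M4 k) = φ (A, a • 1) → A * A = (-a ^ 2) • 1 →
      ∃ A' : M2 k, a ≠ 0 ∧ A = a • A' ∧ (x.1 : M4 k) = a • φ (A', 1) ∧ A' * A' = -1 := by
    intro x A a hx hA
    have a0 : a ≠ 0 := by
      rintro rfl
      refine (x.1 * x.1).ne_zero ?_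
      rw [Units.val_mul, hx, ← map_mul, Prod.mk_mul_mk, hA]
      simp [← Prod.zero_eq_mk]
    refine ⟨a⁻¹ • A, a0, (smul_inv_smul₀ a0 _).symm, ?_, ?_⟩
    · rw [← map_smul, Prod.smul_mk, smul_inv_smul₀ a0, hx]
    · rw [smul_mul_smul_comm, hA, smul_smul, ← neg_one_smul k (1 : M2 k)]
      congr 1; field_simp
  obtain ⟨A, a0, rfl, hx, hA⟩ := key hx hA
  obtain ⟨B, b0, rfl, hy, hB⟩ := key hy hB
  have h' : A * B = -(B * A) := smul_right_injective _ (mul_ne_zero a0 b0) (by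
    simpa only [smul_mul_smul_comm, mul_comm b, smul_neg] using h)
  have n : (-1 : M2 k) ≠ 1 := fun e => one_ne_zero (zero_of_neg h2 e.symm)
  have e1 : φ (A, 1) * φ (A, 1) = φ (-1, 1) := by rw [← map_mul, Prod.mk_mul_mk, hA, one_mul]
  have e2 : 1 + φ (-1, 1) = φ (0, 1 + 1) := by rw [← map_one φ, ← map_add]; simp [Prod.one_eq_mk]
  refine ⟨x, x.2, y, y.2, a, b, _, _, hx, hy, ?_, ?_, ?_, ?_, ?_, ?_⟩
  · rw [e1, ← map_mul, Prod.mk_mul_mk, hB, one_mul]
  · rw [← map_mul, ← map_mul, Prod.mk_mul_mk, Prod.mk_mul_mk, h', neg_mul, mul_assoc, hA]; simp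
  · rw [e1, ← map_one φ]; exact fun e => n (congrArg Prod.fst (inj e))
  · rw [e1, ← map_one φ, ← map_neg]; exact fun e => n (congrArg Prod.snd (inj e)).symm
  · rw [e1, e2, ← map_mul]; simp
  · rw [e1, e2, ← map_mul]; simp

theorem exists_rp [IsAlgClosed k] (h2 : (2 : k) ≠ 0) (C : Core P) (hJ : ¬ HasJ P) {T : P}
    (h : pr P T * pr P T = 1) (h1 : pr P T ≠ 1) : ∃ ρ σ, Rp T ρ σ := by
  obtain ⟨φ, inj, ⟨a, ha⟩, sur⟩ := exists_blk h2 C hJ h h1
  have a0 := ne_zero_of ha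
  choose f hf using fun g : Dd T => sur (g.1.1 : M4 k)
    (congrArg (fun x : P => (x.1 : M4 k)) (Subgroup.mem_centralizer_singleton_iff.1 g.2))
  let F : Dd T →* M2 k × M2 k :=
    { toFun := f
      map_one' := inj (by rw [hf, map_one]; rfl)
      map_mul' := fun g h => inj (by rw [map_mul, hf, hf, hf]; rfl) }
  have e : ∀ g : Dd T, (g.1.1 : M4 k) = φ ((f g).1, (f g).2) := fun g => (hf g).symm
  refine ⟨(MonoidHom.fst _ _).comp F, (MonoidHom.snd _ _).comp F, fun g h a b => ?_, fun g h => ?_,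
    fun g => ⟨?_, ?_⟩, fun x y a b hx hy => rootQ h2 inj (x := x) (y := y) (hx ▸ e x) (hy ▸ e y),
    fun x y a b hx hy => rootQ h2 (φ := φ.comp ((AlgHom.snd k _ _).prod (AlgHom.fst k _ _)))
      (inj.comp Prod.swap_injective) (x := x) (y := y) (hx ▸ e x) (hy ▸ e y)⟩
  · exact Subtype.ext (Subtype.ext (Units.ext (by rw [← hf, ← hf, show f g = f h from Prod.ext a b])))
  · rw [pr_eq_iff, ← hf, ← hf]
    exact exists_congr fun c => by rw [← map_smul, inj.eq_iff, Prod.ext_iff]; rfl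
  · rintro ⟨A, B, hA, hB, α, β, h⟩
    obtain ⟨c, hc⟩ := pr_eq_iff.1 hA
    obtain ⟨d, hd⟩ := pr_eq_iff.1 hB.symm
    rw [h, hc, ha, ← hf, ← map_one φ, ← map_smul, ← map_smul, ← map_smul, ← map_smul, ← map_add,
      ← map_smul] at hd
    have h1 := congrArg Prod.fst (inj hd)
    have h2 := congrArg Prod.snd (inj hd)
    exact ⟨⟨d * (α + β * c * a), h1.trans (by simp; module)⟩,
      ⟨d * (α - β * c * a), h2.trans (by simp; module)⟩⟩
  · rintro ⟨⟨c, hc⟩, d, hd⟩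
    refine ⟨T, g, rfl, rfl, (c + d) / 2, (c - d) / 2 / a, ?_⟩
    rw [e, ha, ← map_one φ, ← map_smul, ← map_smul, ← map_smul, ← map_add]
    refine congrArg φ (Prod.ext (hc.trans ?_) (hd.trans ?_)) <;> simp <;> match_scalars <;> field_simp <;>
      ring

end CL.D4.B2
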