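import Cfsg.Agent.CLAS.D4.BG1
import Cfsg.Agent.CLAS.D4.BG2b
import Cfsg.Agent.SOLV.Coprime

/-!
# Block B: the two facts that use the absence of a root quaternion group
-/

set_option autoImplicit false

namespace CL.D4.B2

open Matrix Cfsg Cfsg.Geo CL.Asch CL.D4.B

variable {k : Type*} [Field k] {P : Subgroup (G4 k)} {T : P} {ρ σ : Dd T →* M2 k}

theorem cj_mul {Γ : Type*} [Group Γ] (ρ : Γ →* M2 k) (x a b : Γ) :
    ρ (x * a * x⁻¹) * ρ (x * b * x⁻¹) = ρ x * (ρ a * ρ b) * ρ x⁻¹ := by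
  simp only [← map_mul]; congr 1; group

theorem cj_sc {Γ : Type*} [Group Γ] (ρ : Γ →* M2 k) (x : Γ) (c : k) :
    ρ x * (c • (1 : M2 k)) * ρ x⁻¹ = c • 1 := by
  rw [mul_smul_comm, mul_one, smul_mul_assoc, ← map_mul, mul_inv_cancel, map_one]

theorem map_ne {Γ : Type*} [Group Γ] (ρ : Γ →* M2 k) (x : Γ) : ρ x ≠ 0 := fun h => by
  simpa [h] using map_mul ρ x x⁻¹

theorem Rp.rq3 (R : Rp T ρ σ) {a b c : Dd T} {μ ν : k} (a1 : σ a = μ • 1) (b1 : σ b = μ • 1)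
    (c1 : σ c = μ • 1) (a2 : ρ a * ρ a = ν • 1) (b2 : ρ b * ρ b = ν • 1) (c2 : ρ c * ρ c = ν • 1)
    (ab : ρ a * ρ b = -(ρ b * ρ a)) (bc : ρ b * ρ c = -(ρ c * ρ b)) (ac : ρ a * ρ c = -(ρ c * ρ a)) :
    RootQ P := by
  have ν0 : ν ≠ 0 := by rintro rfl; exact map_ne ρ (a * a) (by rw [map_mul, a2, zero_smul])
  have iv : ∀ {a : Dd T}, ρ a * ρ a = ν • 1 → ρ a⁻¹ = ν⁻¹ • ρ a := fun {a} h => by
    have : ρ a⁻¹ * (ρ a * ρ a) = ρ a := by rw [← map_mul, ← map_mul, inv_mul_cancel_left]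
    rw [← this, h, mul_smul_comm, mul_one, inv_smul_smul₀ ν0]
  have s : ∀ {a b : Dd T}, σ a = μ • 1 → σ b = μ • 1 → σ (a * b⁻¹) = (1 : k) • 1 := fun h h' => by
    rw [map_mul, h, ← h', ← map_mul, mul_inv_cancel, map_one, one_smul]
  have q : ∀ {a b : Dd T}, ρ a * ρ a = ν • 1 → ρ b * ρ b = ν • 1 → ρ a * ρ b = -(ρ b * ρ a) →
      ρ (a * b⁻¹) * ρ (a * b⁻¹) = (-1 ^ 2 : k) • 1 := fun {a b} h h' e => by
    rw [map_mul, iv h', mul_smul_comm, smul_mul_smul_comm, mul_assoc, ← mul_assoc (ρ b),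
      (neg_eq_iff_eq_neg.2 e).symm, neg_mul, mul_assoc (ρ a), h', mul_neg, mul_smul_comm, mul_one,
      mul_smul_comm, h]
    match_scalars; field_simp
  refine R.rq (a * b⁻¹) (b * c⁻¹) 1 1 (s a1 b1) (s b1 c1) (q a2 b2 ab) (q b2 c2 bc) ?_
  rw [← map_mul, show a * b⁻¹ * (b * c⁻¹) = a * c⁻¹ by group, map_mul, map_mul, map_mul, iv b2, iv c2,
    mul_smul_comm, mul_smul_comm, mul_smul_comm, smul_mul_smul_comm, bc, neg_mul, mul_assoc (ρ c),
    ← mul_assoc (ρ b), (neg_eq_iff_eq_neg.2 ab).symm, neg_mul, mul_assoc (ρ a), b2, ac]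
  simp only [mul_neg, mul_smul_comm, mul_one]
  match_scalars; field_simp

/-- the image of `A₄` on one plane -/
structure A4 (ρ : Dd T →* M2 k) (A B X : Dd T) : Prop where
  a : ∃ α : k, ρ A * ρ A = α • 1
  b : ∃ β : k, ρ B * ρ B = β • 1
  ab : ρ A * ρ B = -(ρ B * ρ A)
  xa : ∃ c : k, ρ (X * A * X⁻¹) = c • ρ B
  xb : ∃ c : k, ρ (X * B * X⁻¹) = c • (ρ A * ρ B)

theorem A4.four {A B X : Dd T} (h2 : (2 : k) ≠ 0) (h : A4 ρ A B X) {G : M2 k} (e1 : Pm G (ρ A))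
    (e2 : Pm G (ρ B)) : ∃ c : k, G = c • 1 ∨ G = c • ρ A ∨ G = c • ρ B ∨ G = c • (ρ A * ρ B) := by
  obtain ⟨α, ha⟩ := h.a
  obtain ⟨β, hb⟩ := h.b
  exact B2.four h2 h.ab ha hb (by rintro rfl; exact map_ne ρ (A * A) (by rw [map_mul, ha, zero_smul]))
    (by rintro rfl; exact map_ne ρ (B * B) (by rw [map_mul, hb, zero_smul])) e1 e2

theorem A4.pm {A g : Dd T} {α c : k} (h : ρ A * ρ A = α • 1) (e : ρ (g * A * g⁻¹ * A⁻¹) = c • 1) :
    Pm (ρ g) (ρ A) := by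
  have e1 : ρ g * ρ A = c • (ρ A * ρ g) := by
    rw [← map_mul, show g * A = g * A * g⁻¹ * A⁻¹ * (A * g) by group, map_mul, e, map_mul,
      smul_mul_assoc, one_mul]
  have e2 : ρ g * (ρ A * ρ A) = (c * c) • (ρ A * ρ A * ρ g) := by
    rw [← mul_assoc, e1, smul_mul_assoc, mul_assoc, e1, mul_smul_comm, smul_smul, mul_assoc]
  have e3 : ρ A * ρ A * ρ g = ρ g * (ρ A * ρ A) := by simp [h]
  rw [e3, ← map_mul, ← map_mul] at e2
  rcases mul_self_eq_one_iff.1 (smul_left_injective k (map_ne ρ _) (e2.symm.trans (one_smul k _).symm))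
    with rfl | rfl
  exacts [.inl (by simpa using e1), .inr (by simpa using e1)]

theorem Rp.fm (R : Rp T ρ σ) {A B X h : Dd T} (q : A4 ρ A B X) (hs : Sc (σ h))
    (e : ∃ c : k, ρ h = c • ρ A ∨ ρ h = c • ρ B ∨ ρ h = c • (ρ A * ρ B)) : RootQ P := by
  obtain ⟨⟨α, ha⟩, ⟨β, hb⟩, ab, ⟨c₁, xa⟩, ⟨c₂, xb⟩⟩ := q
  have ba : ρ B * ρ A = -(ρ A * ρ B) := by rw [ab, neg_neg]
  have cj : ∀ {h E : Dd T} {c : k}, ρ h = c • ρ E → ρ (X * h * X⁻¹) = c • ρ (X * E * X⁻¹) :=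
    fun e => by simp only [map_mul, e, mul_smul_comm, smul_mul_assoc]
  have s0 : ∀ {h : Dd T}, (∃ c : k, ρ h = c • ρ A) → ∃ c : k, ρ (X * h * X⁻¹) = c • ρ B :=
    fun ⟨c, e⟩ => ⟨_, by rw [cj e, xa, smul_smul]⟩
  have s1 : ∀ {h : Dd T}, (∃ c : k, ρ h = c • ρ B) → ∃ c : k, ρ (X * h * X⁻¹) = c • (ρ A * ρ B) :=
    fun ⟨c, e⟩ => ⟨_, by rw [cj e, xb, smul_smul]⟩
  have s2 : ∀ {h : Dd T}, (∃ c : k, ρ h = c • (ρ A * ρ B)) → ∃ c : k, ρ (X * h * X⁻¹) = c • ρ A :=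
    fun ⟨c, e⟩ => ⟨-(c * (c₁ * c₂) * β), by
      rw [cj (e.trans (by rw [← map_mul])), ← conj_mul, map_mul, xa, xb, smul_mul_smul_comm,
        ← mul_assoc, ba, neg_mul, mul_assoc, hb]
      simp only [mul_smul_comm, mul_one]; module⟩
  have base : ∀ {h : Dd T}, Sc (σ h) → (∃ c : k, ρ h = c • ρ A) → RootQ P := fun {h} ⟨μ, hμ⟩ e => by
    obtain ⟨d₁, e1⟩ := s0 e
    obtain ⟨d₂, e2⟩ := s1 ⟨d₁, e1⟩
    obtain ⟨c, e⟩ := e
    have t1 : σ (X * h * X⁻¹) = μ • 1 := by rw [map_mul, map_mul, hμ, cj_sc]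
    have u0 : ρ h * ρ h = (c * c * α) • 1 := by rw [e, smul_mul_smul_comm, ha, smul_smul]
    have u1 : ρ (X * h * X⁻¹) * ρ (X * h * X⁻¹) = (c * c * α) • 1 := by rw [cj_mul, u0, cj_sc]
    refine R.rq3 (c := X * (X * h * X⁻¹) * X⁻¹) hμ t1 (by rw [map_mul, map_mul, t1, cj_sc]) u0 u1
      (by rw [cj_mul, u1, cj_sc]) ?_ ?_ ?_
    · rw [e, e1, smul_mul_smul_comm, smul_mul_smul_comm, ab, mul_comm c, smul_neg]
    · rw [e1, e2, smul_mul_smul_comm, smul_mul_smul_comm, ← mul_assoc, ba, mul_comm d₁, neg_mul, smul_neg]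
    · rw [e, e2, smul_mul_smul_comm, smul_mul_smul_comm, mul_assoc, ba, mul_comm c, mul_neg, smul_neg,
        neg_neg]
  have sc : ∀ {h : Dd T}, Sc (σ h) → Sc (σ (X * h * X⁻¹)) := fun hh => (scal_normal σ).conj_mem _ hh X
  obtain ⟨c, e | e | e⟩ := e
  exacts [base hs ⟨c, e⟩, base (sc (sc hs)) (s2 (s1 ⟨c, e⟩)), base (sc hs) (s2 ⟨c, e⟩)]

theorem odd_comm (C : Core P) {X : P} (hX : Odd (orderOf (pr P X)))
    (h : pr P X * pr P T = pr P T * pr P X) : X ∈ Dd T := by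
  have hz : pr P (X * T * X⁻¹ * T⁻¹) = 1 := by
    rw [map_mul, map_mul, map_mul, h, map_inv, map_inv, mul_inv_cancel_right, mul_inv_cancel]
  have zc := Subgroup.mem_center_iff.1 (ker_pr_le hz)
  have e : X * T * X⁻¹ = X * T * X⁻¹ * T⁻¹ * T := by group
  have z4 := C.ker_pow hz
  generalize hz' : X * T * X⁻¹ * T⁻¹ = z at zc e z4
  have key : ∀ n : ℕ, X ^ n * T * (X ^ n)⁻¹ = z ^ n * T := fun n => by
    induction n with
    | zero => simp
    | succ n ih =>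
      rw [show X ^ (n + 1) * T * (X ^ (n + 1))⁻¹ = X * (X ^ n * T * (X ^ n)⁻¹) * X⁻¹ by
        rw [pow_succ']; group, ih, ← mul_assoc, ((show Commute X z from zc X).pow_right n).eq,
        mul_assoc, mul_assoc, ← mul_assoc X, e, pow_succ, mul_assoc]
  have h1 := key (orderOf (pr P X))
  rw [← Subgroup.mem_center_iff.1 (ker_pr_le (show pr P (X ^ orderOf (pr P X)) = 1 by
    rw [map_pow, pow_orderOf_eq_one])) T, mul_inv_cancel_right, eq_comm, mul_eq_right] at h1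
  have := pow_gcd_eq_one.2 ⟨z4, h1⟩
  rw [(Nat.Coprime.pow_left 2 (Nat.coprime_two_left.2 hX)).gcd_eq_one, pow_one] at this
  rw [this, one_mul, mul_inv_eq_iff_eq_mul] at e
  exact Subgroup.mem_centralizer_singleton_iff.2 e

theorem mem_dd {A : P} (h : CmP P (pr P T) (pr P A)) : A ∈ Dd T :=
  Subgroup.mem_centralizer_singleton_iff.2 (cm_iff.1 h).symm

theorem Rp.a4 (R : Rp T ρ σ) {A B X : Dd T} (g : Good (CmP P) (pr P T) (pr P A) (pr P B) (pr P X)) :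
    A4 ρ A B X := by
  obtain ⟨α, ha, ha'⟩ := (R.sc (A * A) 1).1 (by simpa using g.a2)
  obtain ⟨β, hb, -⟩ := (R.sc (B * B) 1).1 (by simpa using g.b2)
  obtain ⟨c, hc, hc'⟩ := (R.sc (A * B) (B * A)).1 (by simpa using g.ab)
  simp only [map_mul, map_one] at ha hb hc hc' ha'
  refine ⟨⟨α, ha⟩, ⟨β, hb⟩, ?_, ((R.sc (X * A * X⁻¹) B).1 (by simpa using g.xa)).imp fun c h => h.1,
    ((R.sc (X * B * X⁻¹) (A * B)).1 (by simpa using g.xb)).imp fun c h => by simpa only [map_mul] using h.1⟩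
  have e2 : ρ A * ρ A * ρ B = (c * c) • (ρ B * (ρ A * ρ A)) := by
    rw [mul_assoc, hc, mul_smul_comm, ← mul_assoc, hc, smul_mul_assoc, smul_smul, mul_assoc]
  have e3 : ρ B * (ρ A * ρ A) = ρ A * ρ A * ρ B := by simp [ha]
  rw [e3, ← map_mul, ← map_mul] at e2
  rcases mul_self_eq_one_iff.1 (smul_left_injective k (map_ne ρ _) (e2.symm.trans (one_smul k _).symm))
    with rfl | rfl
  · exact absurd (cm_iff.2 (congrArg Subtype.val (R.inj (A * B) (B * A) (by simpa using hc)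
      (by simpa using hc')))) g.q
  · simpa using hc

theorem gen_of {Γ : Type*} [Group Γ] [Finite Γ] {Q N : Subgroup Γ} {x : Γ}
    (h : ⁅Q, Subgroup.zpowers x⁆ = Q) (hn : ∀ q ∈ Q, x * q * x⁻¹ ∈ Q)
    (hN : ∀ q ∈ Q, x * q * x⁻¹ * q⁻¹ ∈ N) : Q ≤ N := by
  rw [← h, Subgroup.commutator_comm, Subgroup.commutator_le]
  intro y hy q hq
  obtain ⟨n, rfl⟩ := mem_powers_iff_mem_zpowers.2 hy
  rw [commutatorElement_def]
  suffices x ^ n * q * (x ^ n)⁻¹ ∈ Q ∧ x ^ n * q * (x ^ n)⁻¹ * q⁻¹ ∈ N from this.2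
  clear hy
  induction n with
  | zero => simpa using hq
  | succ n ih =>
    rw [show x ^ (n + 1) * q * (x ^ (n + 1))⁻¹ = x * (x ^ n * q * (x ^ n)⁻¹) * x⁻¹ by
      rw [pow_succ']; group]
    generalize x ^ n * q * (x ^ n)⁻¹ = r at ih
    exact ⟨hn _ ih.1, by simpa only [mul_assoc, inv_mul_cancel_left] using mul_mem (hN _ ih.1) ih.2⟩

/-- the four-group generated by two commuting involutions -/
def vier {Γ : Type*} [Group Γ] {a b : Γ} (e1 : a * a = 1) (e2 : b * b = 1) (e : a * b = b * a) :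
    Subgroup Γ where
  carrier := {g | g = 1 ∨ g = a ∨ g = b ∨ g = a * b}
  one_mem' := .inl rfl
  mul_mem' := by
    have l1 : ∀ g, a * (a * g) = g := fun g => by rw [← mul_assoc, e1, one_mul]
    have l3 : ∀ g, b * (a * g) = a * (b * g) := fun g => by rw [← mul_assoc, ← e, mul_assoc]
    rintro g h (x | x | x | x) (y | y | y | y) <;> simp [x, y, mul_assoc, e1, e2, l1, l3, ← e]
  inv_mem' := by
    rintro g (x | x | x | x) <;>
      simp [x, inv_eq_of_mul_eq_one_right e1, inv_eq_of_mul_eq_one_right e2, ← e]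

end CL.D4.B2

namespace CL.D4.B

open Matrix Cfsg Cfsg.Geo CL.Asch CL.D4.B2

variable {k : Type*} [Field k] [IsAlgClosed k] {P : Subgroup (G4 k)}

/-- Conjugate `t` to `diag(1,1,-1,-1)`; lifts of `a, b, x, g` are block diagonal `(a₊, a₋)`, ..; `a±`, `b±` anticommute
and have scalar squares, `g± a± = ± a± g±`, `g± b± = ± b± g±`, so `g±` is a multiple of one of `1, a±, b±, a± b±`. If the two
do not match, some `h = g e` is `(λ e'₊, μ)` or `(μ, λ e'₋)` with `e' ∈ {a, b, a b}`; then `X = h (x h x⁻¹)⁻¹` and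
`x X x⁻¹` give `RootQ`. -/
theorem dag (h2 : (2 : k) ≠ 0) (C : Core P) (hJ : ¬ HasJ P) (hQ : ¬ RootQ P) : Dag (CmP P) (YP P) := by
  intro t a b x g gd tg ya yb
  obtain ⟨T, rfl⟩ := pr_surj t
  obtain ⟨A, rfl⟩ := pr_surj a
  obtain ⟨B, rfl⟩ := pr_surj b
  obtain ⟨X, rfl⟩ := pr_surj x
  obtain ⟨G, rfl⟩ := pr_surj g
  obtain ⟨ρ, σ, R⟩ := exists_rp h2 C hJ gd.t2 gd.t1
  lift A to Dd T using mem_dd gd.ta
  lift B to Dd T using mem_dd gd.tb
  lift G to Dd T using mem_dd tg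
  lift X to Dd T using odd_comm C gd.odd gd.xt
  have q := R.a4 gd
  have q' := R.symm.a4 gd
  obtain ⟨⟨_, a1⟩, _, a2⟩ := (R.y (G * A * G⁻¹ * A⁻¹)).1 (by simpa using ya)
  obtain ⟨⟨_, b1⟩, _, b2⟩ := (R.y (G * B * G⁻¹ * B⁻¹)).1 (by simpa using yb)
  have p1 := A4.pm q.a.choose_spec a1
  have p2 := A4.pm q.b.choose_spec b1
  have key : ∀ E : Dd T, Pm (ρ A) (ρ E) → Pm (ρ B) (ρ E) → Sc (σ (G * E)) →
      YP P (pr P T) (pr P (G * E : Dd T)) := fun E e1 e2 hs => by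
    obtain ⟨c, h | h⟩ := q.four h2 (G := ρ (G * E)) (map_mul ρ G E ▸ (p1.symm.mul_right e1).symm)
      (map_mul ρ G E ▸ (p2.symm.mul_right e2).symm)
    exacts [(R.y _).2 ⟨⟨c, h⟩, hs⟩, absurd (R.fm q hs ⟨c, h⟩) hQ]
  have aa : Pm (ρ A) (ρ A) := .inl rfl
  have bb : Pm (ρ B) (ρ B) := .inl rfl
  have ab : Pm (ρ A) (ρ B) := .inr q.ab
  obtain ⟨α, ha⟩ := q'.a
  obtain ⟨β, hb⟩ := q'.b
  obtain ⟨c, h | h | h | h⟩ := q'.four h2 (A4.pm ha a2) (A4.pm hb b2)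
  · exact .inl (by simpa using key 1 (by simpa using Pm.one _) (by simpa using Pm.one _) ⟨c, by simpa using h⟩)
  · exact .inr (.inl (by
      simpa using key A aa ab.symm ⟨c * α, by rw [map_mul, h, smul_mul_assoc, ha, smul_smul]⟩))
  · exact .inr (.inr (.inl (by
      simpa using key B ab bb ⟨c * β, by rw [map_mul, h, smul_mul_assoc, hb, smul_smul]⟩)))
  · suffices Sc (σ (G * (A * B))) from .inr (.inr (.inr (by
      simpa using key (A * B) (map_mul ρ A B ▸ aa.mul_right ab) (map_mul ρ A B ▸ ab.symm.mul_right bb) this)))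
    refine ⟨-(c * β * α), ?_⟩
    rw [map_mul, h, map_mul, smul_mul_assoc, mul_assoc, ← mul_assoc (σ B),
      (neg_eq_iff_eq_neg.2 q'.ab).symm, neg_mul, mul_assoc (σ A), hb]
    simp only [mul_neg, mul_smul_comm, mul_one, ha]
    module

/-- `Q = ⁅H, ⟨x⟩⁆ = ⁅Q, ⟨x⟩⁆` (`S0027`) lies in `{g | CmP t g}` and is generated by the `⁅x, q⁆`, whose canonical lifts have
blocks of determinant one. In `PGL₂`: if the image `Q₊` is not trivial take a central involution `j` of it; if `x₊` fixes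
`j` then `x₊` is in the torus of `j` and `⁅x₊, q⁆ ∈ {1, x₊²}` has odd order, so `Q₊ = ⁅Q₊, x₊⁆ = 1`; hence `j' = j ^ x₊ ≠ j`
anticommutes with `j` and `Q₊ = ⟨j, j'⟩`. An element of `Q` that is scalar on exactly one plane gives `RootQ` as in
`dag`. So `Q ≤ ⟨a, b, t⟩` with `a² = b² = 1` (blocks of determinant one and trace zero square to `-1`), and after
replacing `a, b` by `a t, b t` if necessary `x : a ↦ b ↦ a b`, `Q = ⁅Q, x⁆ = ⟨a, b⟩`. -/
theorem act (h2 : (2 : k) ≠ 0) (C : Core P) (hJ : ¬ HasJ P) (hQ : ¬ RootQ P) : Act (CmP P) := by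
  intro H t x hH t2 t1 ht hx xt hn
  have := C.fin
  obtain ⟨T, rfl⟩ := pr_surj t
  obtain ⟨ρ, σ, R⟩ := exists_rp h2 C hJ t2 t1
  obtain ⟨X, rfl, hX⟩ : ∃ X : P, pr P X = x ∧ X ^ orderOf x = 1 := by
    obtain ⟨X, rfl⟩ := pr_surj x
    obtain ⟨m, hm⟩ := hx
    have h1 := pow_orderOf_eq_one (pr P X)
    have h4 := C.ker_pow ((map_pow _ _ _).trans h1)
    rw [hm] at h1 h4 ⊢
    refine ⟨X ^ (2 * m + 2) ^ 2, ?_, ?_⟩
    · rw [map_pow, show (2 * m + 2) ^ 2 = (2 * m + 1) * (2 * m + 3) + 1 by ring, pow_succ, pow_mul, h1,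
        one_pow, one_mul]
    · rw [← pow_mul, show (2 * m + 2) ^ 2 * (2 * m + 1) = (2 * m + 1) * 4 * (m + 1) ^ 2 by ring,
        pow_mul, pow_mul, h4, one_pow]
  let K := H.comap (pr P)
  have hK : IsPGroup 2 K := hH.comap_of_ker_isPGroup _ fun z => ⟨2, Subtype.ext (C.ker_pow z.2)⟩
  have XK : Subgroup.zpowers X ≤ Subgroup.normalizer (K : Set P) :=
    Subgroup.zpowers_le.2 (Subgroup.mem_normalizer_fintype fun h hh => by
      simpa [K] using hn _ hh)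
  have QQ := CL.coprime_commutator_commutator _ K XK (by
    obtain ⟨n, hn⟩ := IsPGroup.iff_card.1 hK
    rw [hn, Nat.card_zpowers]
    exact Nat.Coprime.pow_right n (Nat.coprime_two_right.2 (hx.of_dvd_nat (orderOf_dvd_of_pow_eq_one hX))))
    (.inl inferInstance)
  have QK : ⁅K, Subgroup.zpowers X⁆ ≤ K := Subgroup.le_normalizer_iff_commutator_le_left.1 XK
  have XD := odd_comm C hx xt
  have QD : ⁅K, Subgroup.zpowers X⁆ ≤ Dd T := Subgroup.commutator_le.2 fun h hh y hy => by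
    have y1 : y ∈ Dd T := Subgroup.zpowers_le.2 XD hy
    have hz : pr P (h⁻¹ * T * h * T⁻¹) = 1 := by
      simp only [map_mul, map_inv]
      rw [mul_assoc _ (pr P T), ← ht _ hh]; group
    have zc := Subgroup.mem_center_iff.1 (ker_pr_le hz) y
    rw [commutatorElement_def]
    refine mul_mem (Subgroup.mem_centralizer_singleton_iff.2 ?_) (inv_mem y1)
    calc h * y * h⁻¹ * T = h * (y * (h⁻¹ * T * h * T⁻¹)) * T * h⁻¹ := by group
      _ = T * h * T⁻¹ * (y * T) * h⁻¹ := by rw [zc]; group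
      _ = _ := by rw [Subgroup.mem_centralizer_singleton_iff.1 y1]; group
  have Xn : ∀ q ∈ ⁅K, Subgroup.zpowers X⁆, X * q * X⁻¹ ∈ ⁅K, Subgroup.zpowers X⁆ := fun q hq =>
    (Subgroup.normalizer_commutator_ge_right _ _ (Subgroup.mem_zpowers X) q).1 hq
  have XQ : ∀ h ∈ K, X * h * X⁻¹ * h⁻¹ ∈ ⁅K, Subgroup.zpowers X⁆ := fun h hh =>
    (Subgroup.commutator_comm _ _).le (Subgroup.commutator_mem_commutator (Subgroup.mem_zpowers X) hh)
  generalize ⁅K, Subgroup.zpowers X⁆ = Q at QQ QK QD Xn XQ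
  lift X to Dd T using XD
  have hQ' : IsPGroup 2 (Q.subgroupOf (Dd T)) := (hK.to_le QK).comap_subtype
  have hX' : X ^ orderOf (pr P X) = 1 := Subtype.ext hX
  have Xn' : ∀ q ∈ Q.subgroupOf (Dd T), X * q * X⁻¹ ∈ Q.subgroupOf (Dd T) := fun q hq => Xn _ hq
  have gen : ∀ N : Subgroup (Dd T), (∀ q ∈ Q.subgroupOf (Dd T), X * q * X⁻¹ * q⁻¹ ∈ N) →
      Q.subgroupOf (Dd T) ≤ N := fun N hN q hq => by
    obtain ⟨q', h1, h3⟩ := gen_of (N := N.map (Dd T).subtype) QQ Xn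
      (fun q hq => ⟨_, hN ⟨q, QD hq⟩ hq, rfl⟩) hq
    exact Subtype.ext h3 ▸ h1
  have fin : ∀ {V : Subgroup (Dd T)}, Q.subgroupOf (Dd T) ≤ V → ∀ h ∈ H,
      ∃ v ∈ V, pr P X * h * (pr P X)⁻¹ * h⁻¹ = pr P v := fun hV h hh => by
    obtain ⟨h, rfl⟩ := pr_surj h
    exact ⟨⟨_, QD (XQ h hh)⟩, hV (XQ h hh), by simp⟩
  have QH : ∀ q ∈ Q.subgroupOf (Dd T), pr P q ∈ H := fun q hq => QK hq
  generalize Q.subgroupOf (Dd T) = Q at hQ' Xn' gen fin QH
  have one : ∀ {ρ σ : Dd T →* M2 k}, Rp T ρ σ → ∀ q ∈ Q, (σ q = 1 ∨ σ q = -1) →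
      (ρ q = 1 ∨ ρ q = -1) := fun {ρ σ} R q hq h =>
    (quat h2 ρ hQ' hx hX' Xn' gen hq).resolve_right fun ⟨h1, h3, _⟩ => hQ (by
      obtain ⟨ε, e1, e2⟩ : ∃ ε : k, σ q = ε • 1 ∧ ε ^ 2 = 1 :=
        h.elim (fun e => ⟨1, by simpa using e, by simp⟩) fun e => ⟨-1, by simpa using e, by simp⟩
      exact R.rq q (X * q * X⁻¹) ε ε e1 (by rw [map_mul, map_mul, e1, cj_sc]) (by simpa [e2] using h1)
        (by rw [cj_mul, h1, e2, ← neg_one_smul k (1 : M2 k), cj_sc]) h3)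
  have cen : ∀ z : Dd T, (ρ z = 1 ∨ ρ z = -1) → (σ z = 1 ∨ σ z = -1) →
      z * z = 1 ∧ ∀ g, g * z = z * g := fun z h h' =>
    ⟨R.inj _ _ (by rcases h with h | h <;> simp [h]) (by rcases h' with h | h <;> simp [h]),
      fun g => R.inj _ _ (by rcases h with h | h <;> simp [h]) (by rcases h' with h | h <;> simp [h])⟩
  by_cases h0 : ∀ q ∈ Q, ρ q = 1 ∨ ρ q = -1
  · refine .inl fun h hh => ?_
    obtain ⟨v, hv, e⟩ := fin (gen ⊥ fun q hq => by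
      rw [(cen q (h0 q hq) (one R.symm q hq (h0 q hq))).2 X, mul_inv_cancel_right, mul_inv_cancel]
      exact one_mem _) h hh
    rw [Subgroup.mem_bot.1 hv, OneMemClass.coe_one, map_one, mul_inv_eq_one, mul_inv_eq_iff_eq_mul] at e
    exact e
  obtain ⟨A, hA, h0, xb⟩ : ∃ A ∈ Q, ¬ (ρ A = 1 ∨ ρ A = -1) ∧
      X * (X * A * X⁻¹) * X⁻¹ = A * (X * A * X⁻¹) := by
    push Not at h0
    obtain ⟨A, hA, h0⟩ := h0
    obtain ⟨-, -, h3, -⟩ := (quat h2 ρ hQ' hx hX' Xn' gen hA).resolve_left (not_or.2 h0)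
    obtain ⟨-, -, h4, -⟩ := (quat h2 σ hQ' hx hX' Xn' gen hA).resolve_left
      fun h => not_or.2 h0 (one R A hA h)
    have key : ∀ {ρ : Dd T →* M2 k} {a b : Dd T}, (ρ a = ρ b ∨ ρ a = -ρ b) →
        (ρ (a * b⁻¹) = 1 ∨ ρ (a * b⁻¹) = -1) := fun h => h.imp
      (fun h => by rw [map_mul, h, ← map_mul, mul_inv_cancel, map_one])
      fun h => by rw [map_mul, h, neg_mul, ← map_mul, mul_inv_cancel, map_one]
    rw [← map_mul] at h3 h4
    have hz := key h3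
    obtain ⟨z2, zc⟩ := cen _ hz (key h4)
    have zQ := mul_mem (Xn' _ (Xn' _ hA)) (inv_mem (mul_mem hA (Xn' _ hA)))
    have e := (inv_mul_cancel_right (X * (X * A * X⁻¹) * X⁻¹) (A * (X * A * X⁻¹))).symm
    generalize X * (X * A * X⁻¹) * X⁻¹ * (A * (X * A * X⁻¹))⁻¹ = z at hz z2 zc zQ e
    have xz : ∀ a : Dd T, X * (a * z) * X⁻¹ = X * a * X⁻¹ * z := fun a => by
      rw [← mul_assoc, mul_assoc _ z, ← zc, ← mul_assoc]
    refine ⟨A * z, mul_mem hA zQ, ?_, ?_⟩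
    · rcases hz with h | h <;> simp [h, h0, neg_eq_iff_eq_neg]
    · rw [xz, xz, e, ← mul_assoc z, ← zc A, mul_assoc]
  obtain ⟨s1, a1, -, all⟩ := (quat h2 ρ hQ' hx hX' Xn' gen hA).resolve_left h0
  obtain ⟨s2, a2, -, -⟩ := (quat h2 σ hQ' hx hX' Xn' gen hA).resolve_left fun h => h0 (one R A hA h)
  have hB := Xn' _ hA
  generalize xa : X * A * X⁻¹ = B at xb a1 a2 all hB
  have e1 : pr P A * pr P A = 1 := by
    simpa using (R.sc (A * A) 1).2 ⟨-1, by simpa using s1, by simpa using s2⟩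
  have e2 : pr P X * pr P A * (pr P X)⁻¹ = pr P B := by simp [← xa]
  have e3 : pr P X * pr P B * (pr P X)⁻¹ = pr P A * pr P B := by
    simpa using congrArg (fun g : Dd T => pr P g) xb
  have e4 : pr P B * pr P B = 1 := by rw [← e2, conj_mul, e1, mul_one, mul_inv_cancel]
  have e5 : pr P A * pr P B = pr P B * pr P A := by
    simpa using (R.sc (A * B) (B * A)).2 ⟨-1, by simpa using a1, by simpa using a2⟩
  refine .inr ⟨_, QH A hA, _, QH B hB, ⟨t2, t1, e1, e4, e5, fun h => ?_,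
    cm_iff.2 (Subgroup.mem_centralizer_singleton_iff.1 A.2).symm,
    cm_iff.2 (Subgroup.mem_centralizer_singleton_iff.1 B.2).symm, hx, xt, e2, e3⟩, fun h hh => ?_⟩
  · have : A * B = B * A := Subtype.ext (cm_iff.1 h)
    rw [← map_mul, ← map_mul, ← this] at a1
    exact map_ne ρ _ (zero_of_neg h2 a1)
  let V : Subgroup (Dd T) := (vier e1 e4 e5).comap ((pr P).comp (Dd T).subtype)
  have AV : A ∈ V := .inr (.inl rfl)
  have BV : B ∈ V := .inr (.inr (.inl rfl))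
  suffices Q ≤ V by
    obtain ⟨v, hv, e⟩ := fin this h hh
    rwa [e]
  refine gen V fun q hq => ?_
  have key : ∀ E ∈ Q, E ∈ V → X * E * X⁻¹ ∈ V → (ρ q = ρ E ∨ ρ q = -ρ E) →
      X * q * X⁻¹ * q⁻¹ ∈ V := fun E h1 h3 h4 h => by
    have hz : ρ (q * E⁻¹) = 1 ∨ ρ (q * E⁻¹) = -1 := h.imp
      (fun h => by rw [map_mul, h, ← map_mul, mul_inv_cancel, map_one])
      fun h => by rw [map_mul, h, neg_mul, ← map_mul, mul_inv_cancel, map_one]
    have zc := (cen _ hz (one R.symm _ (mul_mem hq (inv_mem h1)) hz)).2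
    rw [show X * q * X⁻¹ * q⁻¹ = X * (q * E⁻¹) * (E * X⁻¹ * E⁻¹) * (q * E⁻¹)⁻¹ by group, zc X,
      mul_assoc (q * E⁻¹), ← zc, mul_inv_cancel_right]
    simpa only [mul_assoc] using mul_mem h4 (inv_mem h3)
  rcases all q hq with h | h | h | h
  · exact key 1 (one_mem _) (one_mem _) (by simp) (by simpa using h)
  · exact key A hA AV (xa ▸ BV) h
  · exact key B hB BV (xb ▸ mul_mem AV BV) h
  · exact key (A * B) (mul_mem hA hB) (mul_mem AV BV) (by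
      rw [← conj_mul, xa, xb]; exact mul_mem BV (mul_mem AV BV)) (by simpa using h)

end CL.D4.B
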