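import Cfsg.Agent.CLAS.D4.B4
import Cfsg.Agent.PLOC.PNormal

/-!
# Block B: the starting configuration
-/

set_option autoImplicit false

namespace CL.D4.B

variable {G : Type*} [Group G] {Cm Y : G → G → Prop}

/-- no `2`-subgroup of an involution centraliser containing a good triple is larger than `T` -/
def Mx (Cm : G → G → Prop) (T : Subgroup G) : Prop :=
  ∀ (Q : Subgroup G) (t a b : G), IsPGroup 2 Q → Gd Cm t a b → t ∈ Q → a ∈ Q → b ∈ Q → (∀ q ∈ Q, q * t = t * q) →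
    Nat.card Q ≤ Nat.card T

theorem cen_mod [Finite G] {T A B : Subgroup G} (hT : IsPGroup 2 T) (hA : ∀ s ∈ T, ∀ x ∈ A, s * x * s⁻¹ ∈ A)
    (hB : ∀ s ∈ T, ∀ x ∈ B, s * x * s⁻¹ ∈ B) {a : G} (aT : a ∈ T) (aA : a ∈ A) (aB : a ∉ B) :
    ∃ g ∈ T, g ∈ A ∧ g ∉ B ∧ ∀ s ∈ T, s * g * s⁻¹ * g⁻¹ ∈ B := by
  have : (A.subgroupOf T).Normal := ⟨fun x hx s => hA s s.2 x hx⟩
  have : (B.subgroupOf T).Normal := ⟨fun x hx s => hB s s.2 x hx⟩
  have hs := QuotientGroup.mk'_surjective (B.subgroupOf T)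
  have := Subgroup.Normal.map ‹(A.subgroupOf T).Normal› _ hs
  obtain ⟨_, ⟨g, hg, rfl⟩, h1, h2⟩ := CL.PN.exists_mem_center_orderOf_eq (hT.of_surjective _ hs)
    ((A.subgroupOf T).map (QuotientGroup.mk' (B.subgroupOf T))) fun e => aB (by
      have := (Subgroup.map_eq_bot_iff _).1 e (x := ⟨a, aT⟩) aA
      rwa [QuotientGroup.ker_mk'] at this)
  refine ⟨g, g.2, hg, fun h => ?_, fun s hs => ?_⟩
  · rw [show QuotientGroup.mk' (B.subgroupOf T) g = 1 from (QuotientGroup.eq_one_iff g).2 h] at h2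
    simp at h2
  · refine (QuotientGroup.eq_one_iff (N := B.subgroupOf T) (⟨s, hs⟩ * g * ⟨s, hs⟩⁻¹ * g⁻¹)).1 ?_
    have := Subgroup.mem_center_iff.1 h1 (QuotientGroup.mk' _ ⟨s, hs⟩)
    change QuotientGroup.mk' _ _ = 1
    rw [map_mul, map_mul, map_mul, this, map_inv, map_inv, mul_inv_cancel_right, mul_inv_cancel]

/-- Proof: take `(T, t, a, b)` as in `Mx` with `card T` maximal (the closure of `t, a, b` is elementary abelian).
`T₀ = T ⊓ c.cmS t` and `Y₀ = T ⊓ c.YS t _` are normal in `T` (`conj_r`, `Y_conj'`), `a ∈ T₀ ∖ Y₀` (`Y_cm'` with `b`), so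
some `g ∈ T₀ ∖ Y₀` is central in `T` modulo `Y₀` (`p`-group).  `c.dag` gives `e ∈ {a, b, a b}` with `Y t (g e)`, so
`y = s e s⁻¹ e⁻¹ ∈ Y t` for all `s ∈ T`; `y` commutes with `e` (`Y_comm`), so `y² = 1` and `y ∈ {1, t}` (`Y_two`).
Rotate (`gd_rot`) to `Gd t e r`; if `s e s⁻¹ = t e` then `gd_conj` gives `Gd t (t e) (s r s⁻¹)`, against `sameK`. -/
theorem Cx.start [Finite G] (c : Cx Cm Y) {t a b : G} (g : Gd Cm t a b) :
    ∃ (T : Subgroup G) (t w r : G), St Cm T t w r ∧ Mx Cm T := by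
  let P : Subgroup G × G × G × G → Prop := fun x => IsPGroup 2 x.1 ∧ Gd Cm x.2.1 x.2.2.1 x.2.2.2 ∧ x.2.1 ∈ x.1 ∧
    x.2.2.1 ∈ x.1 ∧ x.2.2.2 ∈ x.1 ∧ ∀ q ∈ x.1, q * x.2.1 = x.2.1 * q
  have : Nonempty {x // P x} := by
    obtain ⟨x, h⟩ := id g
    have ta := c.comm h.ta
    have tb := c.comm h.tb
    have ab := h.ab
    let C := Subgroup.centralizer ({t, a, b} : Set G)
    have hC : ∀ y ∈ ({t, a, b} : Set G), y ∈ C := by
      rintro y (rfl | rfl | rfl) z (rfl | rfl | rfl) <;> simp only [*]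
    let E : Subgroup G :=
      { carrier := {y | y * y = 1 ∧ y ∈ C ∧ ∀ z ∈ C, y * z = z * y}
        one_mem' := ⟨one_mul 1, one_mem _, by simp⟩
        mul_mem' := fun {y z} hy hz => ⟨sq_mul hy.1 hz.1 (hy.2.2 z hz.2.1), mul_mem hy.2.1 hz.2.1,
          fun v hv => mul_comm' (hy.2.2 v hv) (hz.2.2 v hv)⟩
        inv_mem' := fun {y} hy => by rwa [inv_eq hy.1] }
    exact ⟨⟨(E, t, a, b), fun y => ⟨1, Subtype.ext ((sq y.1).trans y.2.1)⟩, g,
      ⟨h.t2, hC t (by simp), fun z hz => hz t (by simp)⟩, ⟨h.a2, hC a (by simp), fun z hz => hz a (by simp)⟩,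
      ⟨h.b2, hC b (by simp), fun z hz => hz b (by simp)⟩, fun y hy => hy.2.2 t (hC t (by simp))⟩⟩
  obtain ⟨⟨⟨T, t, a, b⟩, hT, g, tT, aT, bT, ct⟩, hm⟩ :=
    Finite.exists_max fun x : {x // P x} => Nat.card x.1.1
  dsimp only at hT g tT aT bT ct hm
  have mx : Mx Cm T := fun Q t a b h1 h2 h3 h4 h5 h6 => hm ⟨(Q, t, a, b), h1, h2, h3, h4, h5, h6⟩
  obtain ⟨x, h⟩ := id g
  obtain ⟨k, kT, tk, kY, hk⟩ := cen_mod (A := c.cmS t) (B := c.YS t h.t2) hT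
    (fun s hs y hy => (c.conj_r (ct s hs)).2 hy) (fun s hs y hy => c.Y_conj' hy (ct s hs)) aT h.ta
    fun e => h.q (c.symm (c.Y_cm' e h.tb))
  have hk' : ∀ s ∈ T, Y t (k * s * k⁻¹ * s⁻¹) := fun s hs => by
    simpa [mul_assoc] using c.Y_inv h.t2 (hk s hs)
  have fin : ∀ e r, Gd Cm t e r → e ∈ T → r ∈ T → Y t (k * e) → St Cm T t e r := fun e r g' eT rT ke => by
    refine ⟨hT, g', tT, eT, rT, ct, fun s hs => ?_⟩
    have d := c.gd_dp g'
    have y : Y t (s * e * s⁻¹ * e⁻¹) := by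
      have := c.Y_conj' (c.Y_mul h.t2 (c.Y_mul h.t2 (hk' s hs) (c.Y_conj' ke (ct s hs))) (c.Y_inv h.t2 ke))
        (ct _ (inv_mem kT))
      convert this using 1
      group
    have y2 : s * e * s⁻¹ * e⁻¹ * (s * e * s⁻¹ * e⁻¹) = 1 :=
      sq_mul (conj_sq d.w2 s) (by rw [inv_eq d.w2, d.w2]) (by
        have := c.Y_comm y d.cm
        rw [inv_mul_cancel_right, ← mul_assoc, mul_inv_eq_iff_eq_mul] at this
        rw [inv_eq d.w2, this])
    rcases c.Y_two h.t2 h.t1 y y2 with e1 | e1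
    · exact comm_of_conj (mul_inv_eq_one.1 e1)
    · have g2 := c.gd_conj g' s
      rw [conj_of_comm (ct s hs), mul_inv_eq_iff_eq_mul.1 e1] at g2
      obtain ⟨n, hn⟩ := pw2 hT (mul_mem rT (mul_mem (mul_mem hs rT) (inv_mem hs)))
      exact (c.sameK g' g2 hn).elim
  rcases c.dag t a b x k h tk (hk' a aT) (hk' b bT) with e | e | e | e
  · exact absurd e kY
  · exact ⟨T, t, a, b, fin _ _ g aT bT e, mx⟩
  · exact ⟨T, t, b, a, fin _ _ (c.gd_swap g) bT aT e, mx⟩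
  · exact ⟨T, t, a * b, b, fin _ _ (c.gd_swap (c.gd_rot g)) (mul_mem aT bT) bT e, mx⟩

end CL.D4.B
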