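import Cfsg.Agent.CLAS.D4.Tl
import Cfsg.Agent.CHEV.SzAction

/-!
# Block B: no Suzuki group in odd characteristic
-/

set_option autoImplicit false

namespace CL.D4.B

open Matrix Cfsg Cfsg.Geo CL.Asch

variable {k : Type*} [Field k] [IsAlgClosed k] {P : Subgroup (G4 k)}

/-- The centre of a Sylow `2`-subgroup is elementary abelian of order `q ≥ 8` with a torus transitive on its
involutions: `Core.rank4` gives `q = 8`, `Core.e8` a contradiction. -/
theorem sz_odd (h2 : (2 : k) ≠ 0) (C : Core P) (hJ : ¬ HasJ P) : ¬ Lie.IsoSuzuki (Bar P) := by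
  rintro ⟨F, _, _, m, hm, hF, ⟨e⟩⟩
  have := CL.Sz.charP_two hF
  let M := (CL.Sz.lieModel hF).ofEquiv e
  have hE : IsElementaryAbelian 2 M.Z :=
    ⟨⟨⟨fun a b => Subtype.ext (M.Z_comm_U a.2 (M.Z_le_U b.2))⟩⟩,
      fun _ ha => by rw [pow_two]; exact M.sq_eq_one_of_mem_Z ha⟩
  have h1 := C.rank4 h2 hJ hE
  rw [M.card_Z, CL.Sz.natCard_eq hF] at h1
  obtain rfl : m = 1 := by
    have := (Nat.pow_le_pow_iff_right (a := 2) (m := 4) (by norm_num)).1 h1
    omega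
  obtain ⟨_, ⟨y, rfl⟩, h3, h4⟩ := C.e8 h2 hJ hE (by rw [M.card_Z, CL.Sz.natCard_eq hF]; rfl)
  have y0 : y ≠ 0 := fun h => h3 (by rw [h, M.u_zero])
  obtain ⟨t, t0, t1⟩ := CL.Sz.exists_ne_zero_one hm hF
  obtain ⟨l, hl⟩ := M.exists_h_conj_u_zero y0 (mul_ne_zero t0 y0)
  rw [h4 _ (M.normalizer_Z.ge (M.h_mem_B l)), mul_inv_cancel_right] at hl
  exact t1 (mul_right_cancel₀ y0 ((M.u_inj hl).2.symm.trans (one_mul y).symm))

end CL.D4.B
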