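import Cfsg.Agent.CLAS.FiveU
import Cfsg.Prelude.Def_SporadicB

/-!
# Quasisimple irreducible subgroups of `SL₄`: the vocabulary and general tools
-/

set_option autoImplicit false

namespace CL.D4

open Matrix Cfsg Cfsg.Geo CL.Asch Module
open CL.Five (IsL2 IsL3 IsU3 IsA7 IsU42 ListE ListO scott_lin)
open scoped MatrixGroups commutatorElement

abbrev V4 (k : Type*) := Fin 4 → k

abbrev M4 (k : Type*) := Matrix (Fin 4) (Fin 4) k

abbrev G4 (k : Type*) [Field k] := GL (Fin 4) k

variable {k : Type*} [Field k]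

/-- `P` modulo scalars -/
abbrev Bar (P : Subgroup (G4 k)) := P ⧸ (scalars (Fin 4) k).subgroupOf P

/-- a finite quasisimple absolutely irreducible subgroup of `GL₄(k)` -/
structure Core (P : Subgroup (G4 k)) : Prop where
  fin : Finite P
  perfect : ⁅P, P⁆ = P
  simple : IsSimpleGroup (Bar P)
  nonabelian : ¬ IsMulCommutative (Bar P)
  alg : alg P = ⊤

/-- `P` is realisable over no proper subfield -/
def NoSub (P : Subgroup (G4 k)) : Prop :=
  ∀ F₀ : Subfield k, F₀ ≠ ⊤ → ¬ RealisableOver F₀ (matrixSet P)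

abbrev tr (A : G4 k) : k := (A : M4 k).trace

/-- `P` contains a transvection -/
def HasTv (P : Subgroup (G4 k)) : Prop :=
  ∃ g ∈ P, ∃ v φ : V4 k, v ≠ 0 ∧ φ ≠ 0 ∧ φ ⬝ᵥ v = 0 ∧ (g : M4 k) = 1 + vecMulVec v φ

/-- `P` contains a scalar multiple of a reflection -/
def HasJ (P : Subgroup (G4 k)) : Prop :=
  ∃ g ∈ P, ∃ (c : k) (v φ : V4 k), φ ⬝ᵥ v = 2 ∧ (g : M4 k) = c • (1 - vecMulVec v φ)

/-- `P` contains, up to scalars, a quaternion group `⟨X, Y⟩` of order eight with a fixed plane -/
def RootQ (P : Subgroup (G4 k)) : Prop :=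
  ∃ x ∈ P, ∃ y ∈ P, ∃ (a b : k) (X Y : M4 k), (x : M4 k) = a • X ∧ (y : M4 k) = b • Y ∧
    X * X = Y * Y ∧ X * Y * X = Y ∧ X * X ≠ 1 ∧ X * X ≠ -1 ∧
    X * (1 + X * X) = 1 + X * X ∧ Y * (1 + X * X) = 1 + X * X

/-- the character of `P` is real -/
def Ort (P : Subgroup (G4 k)) : Prop := ∀ A ∈ P, tr A⁻¹ = tr A

/-- the character has values `a + b θ`, `θ² + θ + c = 0`, and inversion acts as `θ ↦ -1 - θ` -/
def Quad (P : Subgroup (G4 k)) (c : ℤ) : Prop :=
  ∃ θ : k, θ ^ 2 + θ + c = 0 ∧
    ∀ A ∈ P, ∃ a b : ℤ, tr A = a + b * θ ∧ tr A⁻¹ = a + b * (-1 - θ)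

/-- inversion acts on the character values as the cube map -/
def Cub (P : Subgroup (G4 k)) : Prop := ∀ A ∈ P, tr A⁻¹ = tr A ^ 3

def IsL27 (G : Type*) [Group G] : Prop := Nonempty (G ≃* PSL(2, ZMod 7))

def IsL34 (G : Type*) [Group G] : Prop :=
  ∃ (K : Type) (_ : Field K) (_ : Fintype K), Fintype.card K = 4 ∧ Nonempty (G ≃* PSL(3, K))

/-- `PSp₄(r)`, `L₄(r)` or `U₄(r)` with `r` odd -/
def IsLie4 (G : Type*) [Group G] : Prop :=
  (∃ (K : Type) (_ : Field K) (_ : Fintype K), Odd (Fintype.card K) ∧ Nonempty (G ≃* PSp 2 K)) ∨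
  (∃ (K : Type) (_ : Field K) (_ : Fintype K), Odd (Fintype.card K) ∧ Nonempty (G ≃* PSL(4, K))) ∨
  ∃ (K : Type) (_ : Field K) (_ : Fintype K) (r : ℕ), Fintype.card K = r ^ 2 ∧ Odd r ∧
    Nonempty (G ≃* PSU 4 K r)

/-- `A₈, …, A₁₁`, `M₂₂`, `M₂₃`, or an involution centraliser `2.A₈`, `2.A₉` -/
def IsSpo (G : Type*) [Group G] : Prop :=
  (∃ n, 8 ≤ n ∧ n ≤ 11 ∧ Nonempty (G ≃* alternatingGroup (Fin n))) ∨ IsM22 G ∨ IsM23 G ∨
  ∃ (z : G) (n : ℕ), orderOf z = 2 ∧ (n = 8 ∨ n = 9) ∧
    IsNonsplitDoubleCover (Subgroup.centralizer {z}) (alternatingGroup (Fin n))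

theorem core_of [Finite k] {H P : Subgroup (G4 k)} (h : IsResidualCore H P) : Core P :=
  ⟨inferInstance, h.perfect, h.simple, h.nonabelian, CL.Four.alg_eq_top4 h.absIrred⟩

theorem tr_conj {A B : G4 k} (h : IsConj A B) : tr A = tr B := by
  obtain ⟨c, rfl⟩ := isConj_iff.1 h
  rw [tr, tr, Units.val_mul, Units.val_mul, trace_mul_cycle, Units.inv_mul, one_mul]

namespace Core

variable {P : Subgroup (G4 k)} (C : Core P) {A : G4 k}
include C

theorem irr : Irr P := irr_of_alg_top C.alg

theorem det (hA : A ∈ P) : (A : M4 k).det = 1 := by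
  have h : GeneralLinearGroup.det A = 1 := MH.map_eq_one_of_perfect C.perfect
    (GeneralLinearGroup.det.comp P.subtype) ⟨A, hA⟩
  rw [← GeneralLinearGroup.val_det_apply, h, Units.val_one]

/-- scalars in `P` are fourth roots of unity -/
theorem pow_four {c : k} (hA : A ∈ P) (h : (A : M4 k) = c • (1 : M4 k)) : c ^ 4 = 1 := by
  simpa [h] using C.det hA

theorem scalar_pow (hA : A ∈ P) (h : A ∈ scalars (Fin 4) k) : A ^ 4 = 1 := by
  obtain ⟨c, hc⟩ := mem_scalars'.1 h
  ext1
  rw [Units.val_pow_eq_pow_val, hc, smul_pow, C.pow_four hA hc, one_pow, one_smul, Units.val_one]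

/-- an element commuting with `P` is a scalar -/
theorem scalar_of_comm (h : ∀ x ∈ P, A * x = x * A) : A ∈ scalars (Fin 4) k :=
  mem_scalars'.2 (scalar_of_alg_top C.alg _ fun x hx => congrArg Units.val (h x hx))

/-- a subgroup normalised by `P` and containing a non-scalar element of `P` contains `P` -/
theorem le_of_normal {T : Subgroup (G4 k)} (hT : NormBy P T) (h1 : A ∈ T) (h2 : A ∈ P)
    (h3 : A ∉ scalars (Fin 4) k) : P ≤ T := by
  have := C.simple
  let π := QuotientGroup.mk' ((scalars (Fin 4) k).subgroupOf P)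
  have hn : (T.subgroupOf P).Normal := ⟨fun x hx g => hT _ g.2 _ hx⟩
  rcases (hn.map π (QuotientGroup.mk'_surjective _)).eq_bot_or_eq_top with e | e
  · exact absurd ((QuotientGroup.eq_one_iff (⟨A, h2⟩ : P)).1
      (e.le (Subgroup.mem_map_of_mem π (show (⟨A, h2⟩ : P) ∈ T.subgroupOf P from h1)))) h3
  · have key : ∀ x ∈ P, ∃ t ∈ T, ∃ z ∈ scalars (Fin 4) k, x = t * z := fun x hx => by
      obtain ⟨t, ht, e'⟩ := e.ge (Subgroup.mem_top (π ⟨x, hx⟩))
      have e'' : t⁻¹ * ⟨x, hx⟩ ∈ (scalars (Fin 4) k).subgroupOf P :=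
        QuotientGroup.eq.1 (show (t : Bar P) = ((⟨x, hx⟩ : P) : Bar P) from e')
      exact ⟨t, ht, _, e'', by simp⟩
    rw [← C.perfect, Subgroup.commutator_le]
    intro a ha b hb
    obtain ⟨t, ht, z, hz, rfl⟩ := key a ha
    obtain ⟨t', ht', z', hz', rfl⟩ := key b hb
    have : ⁅t * z, t' * z'⁆ = ⁅t, t'⁆ := by
      have h1 := scalars_comm hz
      have h2 := scalars_comm hz'
      calc _ = t * (z * (t' * z')) * z⁻¹ * t⁻¹ * (z'⁻¹ * t'⁻¹) := by
            rw [commutatorElement_def]; group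
        _ = t * t' * (z' * t⁻¹) * (z'⁻¹ * t'⁻¹) := by rw [h1]; group
        _ = _ := by rw [h2, commutatorElement_def]; group
    rw [this, commutatorElement_def]
    exact T.mul_mem (T.mul_mem (T.mul_mem ht ht') (T.inv_mem ht)) (T.inv_mem ht')

end Core

section Map

variable {K : Type*} [Field K] (f : k →+* K) {P : Subgroup (G4 k)}

/-- extension of scalars -/
abbrev ext (P : Subgroup (G4 k)) : Subgroup (G4 K) := P.map (GeneralLinearGroup.map f)

theorem map_inj : Function.Injective (GeneralLinearGroup.map (n := Fin 4) f) := fun A B h => by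
  ext i j
  exact f.injective (congrArg (fun X : G4 K => (X : M4 K) i j) h)

theorem map_mem_scalars {A : G4 k} :
    GeneralLinearGroup.map f A ∈ scalars (Fin 4) K ↔ A ∈ scalars (Fin 4) k := by
  rw [mem_scalars', mem_scalars']
  constructor
  · rintro ⟨c, hc⟩
    have h := fun i j => congrFun (congrFun hc i) j
    simp only [GeneralLinearGroup.map_apply] at h
    refine ⟨(A : M4 k) 0 0, ?_⟩
    ext i j
    refine f.injective ?_
    by_cases hij : i = j <;> simp [h, hij]
  · rintro ⟨c, hc⟩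
    refine ⟨f c, ?_⟩
    ext i j
    by_cases hij : i = j <;> simp [GeneralLinearGroup.map_apply, hc, hij]

/-- `P` modulo scalars does not change under extension of scalars -/
noncomputable def barExt (P : Subgroup (G4 k)) : Bar P ≃* Bar (ext f P) :=
  QuotientGroup.congr _ _ (P.equivMapOfInjective _ (map_inj f)) (by
    ext ⟨_, A, hA, rfl⟩
    constructor
    · rintro ⟨B, hB, e⟩
      have : GeneralLinearGroup.map f B = GeneralLinearGroup.map f A := congrArg Subtype.val e
      have h := (map_mem_scalars f (A := B)).2 hB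
      rw [this] at h
      exact h
    · exact fun h => ⟨⟨A, hA⟩, (map_mem_scalars f).1 h, rfl⟩)

theorem tr_map (A : G4 k) : tr (GeneralLinearGroup.map f A) = f (tr A) := by
  simp [tr, trace]

theorem Core.ext (C : Core P) : Core (ext f P) where
  fin := have := C.fin; Finite.of_equiv _ (P.equivMapOfInjective _ (map_inj f)).toEquiv
  perfect := by rw [← Subgroup.map_commutator, C.perfect]
  simple := have := C.simple; (barExt f P).symm.isSimpleGroup
  nonabelian h := C.nonabelian ⟨⟨fun a b => (barExt f P).injective (by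
    rw [map_mul, map_mul, h.is_comm.comm])⟩⟩
  alg := by
    have h : ∀ y : M4 k, y.map f ∈ Asch.alg (D4.ext f P) := fun y => by
      let W : Submodule k (M4 k) :=
        { carrier := {y | y.map f ∈ Asch.alg (D4.ext f P)}
          add_mem' := fun {a b} ha hb => by
            simpa only [Set.mem_ofPred_eq, Matrix.map_add _ (map_add f)] using add_mem ha hb
          zero_mem' := by simp
          smul_mem' := fun c a ha => by
            have e : (c • a).map f = f c • a.map f := by ext i j; simp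
            rw [Set.mem_ofPred_eq, e]
            exact Subalgebra.smul_mem _ ha (f c) }
      exact alg_le_submodule (W := W) (fun x hx => mem_alg (Subgroup.mem_map_of_mem _ hx)) y
        (by rw [C.alg]; trivial)
    refine top_unique fun y _ => ?_
    rw [matrix_eq_sum_single y]
    refine sum_mem fun i _ => sum_mem fun j _ => ?_
    have := Subalgebra.smul_mem _ (h (single i j 1)) (y i j)
    rwa [map_single, map_one, smul_single, smul_eq_mul, mul_one] at this

theorem ort_ext : Ort (ext f P) ↔ Ort P := by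
  refine ⟨fun h A hA => f.injective ?_, ?_⟩
  · rw [← tr_map, ← tr_map, map_inv]; exact h _ (Subgroup.mem_map_of_mem _ hA)
  · rintro h _ ⟨A, hA, rfl⟩
    rw [← map_inv, tr_map, tr_map, h A hA]

theorem HasTv.of_ext (h : HasTv (ext f P)) : HasTv P := by
  obtain ⟨_, ⟨g, hg, rfl⟩, v, φ, hv, hφ, h0, e⟩ := h
  have e' : ∀ i j, f (((g : M4 k) - 1 : M4 k) i j) = v i * φ j := fun i j => by
    have := congrFun (congrFun e i) j
    rw [GeneralLinearGroup.map_apply, Matrix.add_apply, vecMulVec_apply] at this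
    rw [Matrix.sub_apply, map_sub, this]
    by_cases hij : i = j <;> simp [hij, one_apply]
  obtain ⟨a, ha⟩ := Function.ne_iff.1 hv
  obtain ⟨b, hb⟩ := Function.ne_iff.1 hφ
  set N : M4 k := (g : M4 k) - 1 with hN
  have hab : N a b ≠ 0 := fun h => mul_ne_zero ha hb (by rw [← e', h, map_zero])
  have hf : f (N a b) ≠ 0 := (map_ne_zero f).2 hab
  refine ⟨g, hg, fun i => N i b, fun j => N a j / N a b, fun h => hab (congrFun h a),
    fun h => by simpa [hab] using congrFun h b, f.injective ?_, ?_⟩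
  · rw [dotProduct] at h0 ⊢
    simp only [map_sum, map_mul, map_div₀, e', map_zero]
    have : ∀ i, v a * φ i / (v a * φ b) * (v i * φ b) = φ i * v i := fun i => by
      have : v a ≠ 0 := ha
      have : φ b ≠ 0 := hb
      field_simp
    simp only [this, h0]
  · rw [← sub_eq_iff_eq_add', ← hN]
    ext i j
    refine f.injective ?_
    have : v a ≠ 0 := ha
    have : φ b ≠ 0 := hb
    rw [vecMulVec_apply, map_mul, map_div₀, e', e', e', e']
    field_simp

end Map

section Tools

variable {P : Subgroup (G4 k)}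

/-- `P` contains no non-trivial scalar -/
def NoZ (P : Subgroup (G4 k)) : Prop := ∀ A ∈ P, A ∈ scalars (Fin 4) k → A = 1

/-- the projection to `P` modulo scalars -/
abbrev pr (P : Subgroup (G4 k)) : P →* Bar P := QuotientGroup.mk' _

theorem pr_surj : Function.Surjective (pr P) := QuotientGroup.mk'_surjective _

theorem pr_eq_one {A : P} : pr P A = 1 ↔ (A : G4 k) ∈ scalars (Fin 4) k :=
  QuotientGroup.eq_one_iff A

theorem ker_pr_le : (pr P).ker ≤ Subgroup.center P := fun _ hA =>
  Subgroup.mem_center_iff.2 fun _ => Subtype.ext (scalars_comm (pr_eq_one.1 hA) _).symm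

theorem NoZ.inj (h : NoZ P) : Function.Injective (pr P) :=
  (injective_iff_map_eq_one _).2 fun A hA => Subtype.ext (h _ A.2 (pr_eq_one.1 hA))

/-- without scalars `P` is its own central quotient -/
noncomputable def NoZ.equiv (h : NoZ P) : P ≃* Bar P := MulEquiv.ofBijective _ ⟨h.inj, pr_surj⟩

theorem NoZ.equiv_apply (h : NoZ P) (A : P) : h.equiv A = pr P A := rfl

theorem tr_pow_char (p : ℕ) [Fact p.Prime] [CharP k p] (A : G4 k) (n : ℕ) :
    tr (A ^ p ^ n) = tr A ^ p ^ n := by
  rw [tr, Units.val_pow_eq_pow_val, Sp4O.trace_pow_char]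

namespace Core

variable (C : Core P)
include C

theorem commutator_eq : commutator P = ⊤ := by
  apply Subgroup.map_injective P.subtype_injective
  rw [commutator_def, Subgroup.map_commutator, ← MonoidHom.range_eq_map, Subgroup.range_subtype,
    C.perfect]

theorem finite_bar : Finite (Bar P) := have := C.fin; inferInstance

theorem commutator_bar : commutator (Bar P) = ⊤ := by
  rw [commutator_def, ← Subgroup.map_top_of_surjective _ (pr_surj (P := P)),
    ← Subgroup.map_commutator, ← commutator_def, C.commutator_eq]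

/-- the scalars in `P` are bounded by the Schur multiplier -/
theorem ker_dvd_of_mult {G : Type*} [Group G] (e : Bar P ≃* G) {M : Type*} [CommGroup M] [Finite M]
    (h : HasSchurMultiplier G M) : Nat.card (pr P).ker ∣ Nat.card M := by
  have := C.fin
  have : Small.{u_2} P := inferInstance
  let ε : Shrink.{u_2} P ≃* P := Shrink.mulEquiv
  have : Finite (Shrink.{u_2} P) := Finite.of_equiv _ ε.symm.toEquiv
  let σ : Shrink.{u_2} P →* G := e.toMonoidHom.comp ((pr P).comp ε.toMonoidHom)
  have hk : ∀ x, x ∈ σ.ker ↔ ε x ∈ (pr P).ker := fun x => e.map_eq_one_iff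
  obtain ⟨π, hπ⟩ := h.2 _ σ ⟨e.surjective.comp (pr_surj.comp ε.surjective), fun x hx =>
    Subgroup.mem_center_iff.2 fun g => ε.injective (by
      rw [map_mul, map_mul]; exact Subgroup.mem_center_iff.1 (ker_pr_le ((hk x).1 hx)) _), by
    have : commutator (Shrink.{u_2} P) = ⊤ := by
      rw [commutator_def, ← Subgroup.map_top_of_surjective ε.symm.toMonoidHom ε.symm.surjective,
        ← Subgroup.map_commutator, ← commutator_def, C.commutator_eq]
    exact this ▸ le_top⟩
  rw [← Nat.card_congr (ε.toEquiv.subtypeEquiv hk)]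
  exact Subgroup.card_dvd_of_surjective π hπ

theorem ker_pow {A : P} (h : pr P A = 1) : A ^ 4 = 1 :=
  Subtype.ext (C.scalar_pow A.2 (pr_eq_one.1 h))

/-- an odd number of scalars means none -/
theorem noZ_of_odd (h : Odd (Nat.card (pr P).ker)) : NoZ P := fun A hA hs => by
  have := C.fin
  let a : (pr P).ker := ⟨⟨A, hA⟩, pr_eq_one.2 hs⟩
  have h1 : orderOf a ∣ 4 := orderOf_dvd_of_pow_eq_one (Subtype.ext (C.ker_pow a.2))
  have h2 : Nat.Coprime 4 (Nat.card (pr P).ker) :=
    Nat.Coprime.pow_left 2 (Nat.coprime_two_left.2 h)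
  exact congrArg (fun x : (pr P).ker => ((x : P) : G4 k)) (orderOf_eq_one_iff.1
    (Nat.eq_one_of_dvd_coprimes h2 h1 (orderOf_dvd_natCard a)))

/-- in characteristic two there are no scalars -/
theorem noZ_two (h2 : (2 : k) = 0) : NoZ P := fun A hA hs => by
  obtain ⟨c, hc⟩ := mem_scalars'.1 hs
  have h : (c - 1) ^ 4 = 0 := by linear_combination C.pow_four hA hc + (1 - 2 * c + 3 * c ^ 2 - 2 * c ^ 3) * h2
  ext1
  rw [hc, sub_eq_zero.1 (pow_eq_zero_iff (by norm_num) |>.1 h), one_smul, Units.val_one]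

/-- lifts of odd order are unique -/
theorem lift_unique {A B : P} {n : ℕ} (hn : Odd n) (h : pr P A = pr P B) (hA : A ^ n = 1) (hB : B ^ n = 1) :
    A = B := by
  have h1 : pr P (A⁻¹ * B) = 1 := by rw [map_mul, map_inv, h, inv_mul_cancel]
  have h2 : Commute A (A⁻¹ * B) := Subgroup.mem_center_iff.1 (ker_pr_le h1) A
  have h3 : (A⁻¹ * B) ^ n = 1 := by
    have := h2.mul_pow n
    rwa [mul_inv_cancel_left, hA, hB, one_mul, eq_comm] at this
  have h4 : Nat.Coprime 4 n := Nat.Coprime.pow_left 2 (Nat.coprime_two_left.2 hn)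
  exact inv_mul_eq_one.1 (orderOf_eq_one_iff.1 (Nat.eq_one_of_dvd_coprimes h4
    (orderOf_dvd_of_pow_eq_one (C.ker_pow h1)) (orderOf_dvd_of_pow_eq_one h3)))

/-- a subgroup of odd order lifts, compatibly with conjugation -/
theorem odd_lift (H : Subgroup (Bar P)) (h : Odd (Nat.card H)) : ∃ σ : H →* P, (∀ x, pr P (σ x) = x) ∧
    ∀ (g : P) (x y : H), pr P g * x * (pr P g)⁻¹ = y → g * σ x * g⁻¹ = σ y := by
  have := C.fin
  let π : H.comap (pr P) →* H := (pr P).subgroupComap H
  have hπ : Function.Surjective π := (pr P).subgroupComap_surjective_of_surjective H pr_surj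
  have hi : π.ker.index = Nat.card H := by
    rw [Subgroup.index_ker, MonoidHom.range_eq_top.2 hπ, Subgroup.card_top]
  have h2 : IsPGroup 2 π.ker := fun a => ⟨2, Subtype.ext (Subtype.ext
    (C.ker_pow (congrArg Subtype.val (MonoidHom.mem_ker.1 a.2))))⟩
  obtain ⟨m, hm⟩ := IsPGroup.iff_card.1 h2
  obtain ⟨K, hK⟩ := Subgroup.exists_right_complement'_of_coprime (N := π.ker)
    (by rw [hm, hi]; exact Nat.Coprime.pow_left m (Nat.coprime_two_left.2 h))
  have hb : Function.Bijective (π.comp K.subtype) := by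
    refine ⟨(injective_iff_map_eq_one _).2 fun a ha => Subtype.ext
      (Subgroup.disjoint_def.1 hK.disjoint ha a.2), fun y => ?_⟩
    obtain ⟨x, rfl⟩ := hπ y
    obtain ⟨⟨a, b⟩, rfl⟩ := hK.2 x
    exact ⟨b, by simp [MonoidHom.mem_ker.1 a.2]⟩
  let e := MulEquiv.ofBijective _ hb
  let σ : H →* P := ((H.comap (pr P)).subtype.comp K.subtype).comp e.symm.toMonoidHom
  have h3 : ∀ x, pr P (σ x) = x := fun x => congrArg Subtype.val (e.apply_symm_apply x)
  refine ⟨σ, h3, fun g x y e => C.lift_unique h (by rw [map_mul, map_mul, map_inv, h3, h3, e]) ?_ ?_⟩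
  · rw [conj_pow, ← map_pow, pow_card_eq_one', map_one, mul_one, mul_inv_cancel]
  · rw [← map_pow, pow_card_eq_one', map_one]

end Core

/-- if the `p'`-parts of all elements are real, the character is real -/
theorem NoZ.ort (h : NoZ P) (p : ℕ) [hp : Fact p.Prime] [CharP k p]
    (hr : ∀ g : Bar P, ∃ n, IsConj (g ^ p ^ n) (g ^ p ^ n)⁻¹) : Ort P := fun A hA => by
  obtain ⟨n, hn⟩ := hr (h.equiv ⟨A, hA⟩)
  have := tr_conj (P.subtype.map_isConj (h.equiv.symm.toMonoidHom.map_isConj hn))
  simp only [MulEquiv.toMonoidHom_eq_coe, MonoidHom.coe_coe, map_pow, map_inv,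
    MulEquiv.symm_apply_apply, Subgroup.coe_subtype] at this
  rw [← inv_pow, tr_pow_char, tr_pow_char] at this
  exact ((iterateFrobenius k p n).injective (by simpa [iterateFrobenius_def] using this)).symm

/-- the fixed space -/
def fix (A : G4 k) : Submodule k (V4 k) := LinearMap.ker (1 - toLin' (A : M4 k))

theorem mem_fix {A : G4 k} {v : V4 k} : v ∈ fix A ↔ (A : M4 k) *ᵥ v = v := by
  simp [fix, sub_eq_zero, eq_comm]

theorem inv_invariant {W : Submodule k (V4 k)} {A : G4 k} (h : ∀ v ∈ W, (A : M4 k) *ᵥ v ∈ W) :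
    ∀ v ∈ W, ((A⁻¹ : G4 k) : M4 k) *ᵥ v ∈ W := fun v hv => by
  let f : W →ₗ[k] W := (toLin' (A : M4 k)).restrict h
  have hf : Function.Injective f := fun a b e => Subtype.ext (by
    have : (A : M4 k) *ᵥ a = (A : M4 k) *ᵥ b := congrArg Subtype.val e
    rw [← inv_mulVec_mulVec A a, this, inv_mulVec_mulVec])
  obtain ⟨w, hw⟩ := LinearMap.injective_iff_surjective.1 hf ⟨v, hv⟩
  have : (A : M4 k) *ᵥ w = v := congrArg Subtype.val hw
  rw [← this, inv_mulVec_mulVec]
  exact w.2

/-- Scott's lemma -/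
theorem Core.scott (C : Core P) {A B : G4 k} (h : Subgroup.closure {A, B} = P) :
    finrank k (fix A) + finrank k (fix B) + finrank k (fix (A * B)) ≤ 4 := by
  have key := scott_lin (toLin' (A : M4 k)) (toLin' (B : M4 k))
  have nt : ¬ (A = 1 ∧ B = 1) := by
    rintro ⟨rfl, rfl⟩
    refine not_le_scalars_of_irr (by simp) C.irr ?_
    rw [← h, Subgroup.closure_le]
    rintro _ (rfl | rfl) <;> exact one_mem _
  have ind : ∀ W : Submodule k (V4 k), (∀ v ∈ W, (A : M4 k) *ᵥ v ∈ W) →
      (∀ v ∈ W, (B : M4 k) *ᵥ v ∈ W) → W = ⊥ ∨ W = ⊤ := fun W h1 h2 => C.irr W fun g hg => by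
    rw [← h] at hg
    induction hg using Subgroup.closure_induction with
    | mem x hx => rcases hx with rfl | rfl <;> assumption
    | one => simp
    | mul x y _ _ hx hy =>
      intro v hv
      rw [Units.val_mul, ← mulVec_mulVec]
      exact hx _ (hy v hv)
    | inv x _ hx => exact inv_invariant hx
  have e1 : LinearMap.ker (1 - toLin' (A : M4 k)) ⊓ LinearMap.ker (1 - toLin' (B : M4 k)) = ⊥ := by
    refine (ind _ (fun v hv => ?_) fun v hv => ?_).resolve_right fun e => nt ⟨?_, ?_⟩
    · rwa [mem_fix.1 hv.1]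
    · rwa [mem_fix.1 hv.2]
    · exact Units.ext (eq_of_mulVec fun v => by simpa using mem_fix.1 (e.ge Submodule.mem_top).1)
    · exact Units.ext (eq_of_mulVec fun v => by simpa using mem_fix.1 (e.ge Submodule.mem_top).2)
  have e2 : LinearMap.range (1 - toLin' (A : M4 k)) ⊔ LinearMap.range (1 - toLin' (B : M4 k)) =
      ⊤ := by
    refine (ind _ (fun v hv => ?_) fun v hv => ?_).resolve_left fun e => nt ⟨?_, ?_⟩
    · simpa using sub_mem hv (Submodule.mem_sup_left (LinearMap.mem_range_self _ v))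
    · simpa using sub_mem hv (Submodule.mem_sup_right (LinearMap.mem_range_self _ v))
    · exact Units.ext (eq_of_mulVec fun v => by
        simpa [sub_eq_zero, eq_comm] using e.le (Submodule.mem_sup_left (LinearMap.mem_range_self _ v)))
    · exact Units.ext (eq_of_mulVec fun v => by
        simpa [sub_eq_zero, eq_comm] using e.le (Submodule.mem_sup_right (LinearMap.mem_range_self _ v)))
  rw [e1, e2, finrank_bot, finrank_top, finrank_fin_fun, Module.End.mul_eq_comp, ← toLin'_mul] at key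
  have : finrank k (fix A) + finrank k (fix B) + finrank k (fix (A * B)) + 4 ≤ 2 * 4 + 0 := key
  omega

end Tools

end CL.D4
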