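import Cfsg.Agent.CLAS.D4.Def
import Cfsg.Agent.CLAS.FourJ4

/-!
# Block J: no scalar multiples of reflections
-/

set_option autoImplicit false

namespace CL.D4

open Matrix Cfsg Cfsg.Geo CL.Asch
open CL.Five (IsL2 IsL3 IsU3 IsA7 IsU42 ListE ListO)
open scoped MatrixGroups commutatorElement

variable {k : Type*} [Field k] [IsAlgClosed k] {P : Subgroup (G4 k)}

namespace J

/-- `P` together with the eighth roots of unity -/
def P8 (P : Subgroup (G4 k)) : Subgroup (G4 k) where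
  carrier := {g | ∃ x ∈ P, ∃ a : k, a ^ 8 = 1 ∧ (g : M4 k) = a • (x : M4 k)}
  one_mem' := ⟨1, one_mem _, 1, one_pow _, by simp⟩
  mul_mem' := by
    rintro g h ⟨x, hx, a, ha, e⟩ ⟨y, hy, b, hb, e'⟩
    exact ⟨x * y, mul_mem hx hy, a * b, by rw [mul_pow, ha, hb, one_mul], by
      rw [Units.val_mul, Units.val_mul, e, e', smul_mul_smul_comm]⟩
  inv_mem' := by
    rintro g ⟨x, hx, a, ha, e⟩
    have a0 : a ≠ 0 := by rintro rfl; simp at ha
    exact ⟨x⁻¹, inv_mem hx, a⁻¹, by rw [inv_pow, ha, inv_one], Units.inv_eq_of_mul_eq_one_right (by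
      rw [e, smul_mul_smul_comm, mul_inv_cancel₀ a0, Units.mul_inv, one_smul])⟩

omit [IsAlgClosed k] in
theorem le_P8 : P ≤ P8 P := fun x hx => ⟨x, hx, 1, one_pow _, by simp⟩

omit [IsAlgClosed k] in
theorem smul_eq (g : P8 P) (v : V4 k) : g • v = (g.1 : M4 k) *ᵥ v := rfl

omit [IsAlgClosed k] in
theorem sc_iff {g : P8 P} {a : k} : FJ.Sc (V4 k) g a ↔ (g.1 : M4 k) = a • (1 : M4 k) :=
  ⟨fun h => eq_of_mulVec fun v => by simpa [smul_eq, smul_mulVec] using h v,
    fun h v => by simp [smul_eq, h, smul_mulVec]⟩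

omit [IsAlgClosed k] in
theorem ex8 (a : k) (ha : a ^ 8 = 1) : ∃ g : P8 P, FJ.Sc (V4 k) g a := by
  have a0 : a ≠ 0 := by rintro rfl; simp at ha
  exact ⟨⟨GeneralLinearGroup.mkOfDetNeZero (a • 1) (by simp [a0]), 1, one_mem _, a, ha, rfl⟩,
    sc_iff.2 rfl⟩

omit [IsAlgClosed k] in
theorem fin (C : Core P) : Finite (P8 P) := by
  classical
  have := C.fin
  have : Finite {a : k // a ^ 8 = 1} := Set.Finite.to_subtype
    ((Polynomial.nthRoots 8 (1 : k)).toFinset.finite_toSet.subset fun a ha => by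
      have h : a ^ 8 = 1 := ha
      simpa [Polynomial.mem_nthRoots] using h)
  choose X hX A hA e using fun g : P8 P => g.2
  exact Finite.of_injective (fun g => ((⟨X g, hX g⟩ : P), (⟨A g, hA g⟩ : {a : k // a ^ 8 = 1})))
    fun g h q => Subtype.ext (Units.ext (by
      simp only [Prod.mk.injEq, Subtype.mk.injEq] at q
      rw [e, e, q.1, q.2]))

omit [IsAlgClosed k] in
theorem ctx (h2 : (2 : k) ≠ 0) (C : Core P) (hT : ¬ HasTv P) : FJ.Ctx k (V4 k) (P8 P) := by
  have faith : ∀ g : P8 P, (∀ w : V4 k, g • w = w) → g = 1 := fun g h =>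
    Subtype.ext (Units.ext (eq_of_mulVec fun v => by simpa [smul_eq] using h v))
  refine ⟨h2, by simp, faith, fun g v φ h0 h => ?_, fun g b h => ?_, ex8, fun N h1 h2 g => ?_,
    fun N hN hp g hg => ?_⟩
  · have e : ∀ w, (fun j => φ (Pi.single j 1)) ⬝ᵥ w = φ w := fun w => by
      conv_rhs => rw [pi_eq_sum_univ' w, map_sum]
      exact Finset.sum_congr rfl fun l _ => by simp only [map_smul, smul_eq_mul]; ring
    have h8 : (8 : k) ≠ 0 := by
      rw [show (8 : k) = 2 ^ 3 by norm_num]; exact pow_ne_zero _ h2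
    have hp : ∀ (n : ℕ) (w : V4 k), g ^ n • w = w + (n * φ w) • v := fun n w => by
      induction n with
      | zero => simp
      | succ n ih =>
        rw [pow_succ', mul_smul, ih, h]
        simp only [map_add, map_smul, h0, smul_zero, add_zero]
        push_cast
        module
    obtain ⟨x, hx, a, ha, ex⟩ := g.2
    by_contra g1
    refine hT ⟨x ^ 8, pow_mem hx 8, (8 : k) • v, fun j => φ (Pi.single j 1),
      fun e' => g1 (faith g fun w => ?_), fun e' => g1 (faith g fun w => ?_),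
      by rw [e, map_smul, h0, smul_zero], eq_of_mulVec fun w => ?_⟩
    · rw [h, (smul_eq_zero.1 e').resolve_left h8, smul_zero, add_zero]
    · rw [h, ← e, e', zero_dotProduct, zero_smul, add_zero]
    · have := hp 8 w
      rw [smul_eq, Subgroup.coe_pow, Units.val_pow_eq_pow_val, ex, smul_pow, ha, one_smul] at this
      rw [Units.val_pow_eq_pow_val, this, add_mulVec, one_mulVec, vecMulVec_mulVec, e]
      simp [smul_smul, mul_comm]
  · obtain ⟨x, hx, a, ha, ex⟩ := g.2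
    have a0 : a ≠ 0 := by rintro rfl; simp at ha
    have := C.pow_four hx (c := a⁻¹ * b) (by
      rw [mul_smul, ← sc_iff.1 h, ex, inv_smul_smul₀ a0])
    calc b ^ 8 = a ^ 8 * ((a⁻¹ * b) ^ 4) ^ 2 := by field_simp
      _ = 1 := by rw [ha, this]; simp
  · obtain ⟨x, hx, a, ha, ex⟩ := g.2
    obtain ⟨z, hz⟩ := ex8 (P := P) a ha
    have : x ∈ (commutator (P8 P)).map (P8 P).subtype := by
      rw [Subgroup.map_subtype_commutator]
      exact Subgroup.commutator_mono le_P8 le_P8 (C.perfect.ge hx)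
    obtain ⟨y, hy, rfl⟩ := this
    rw [show g = z * y from Subtype.ext (Units.ext (by
      rw [ex, Subgroup.coe_mul, Units.val_mul, sc_iff.1 hz, smul_mul_assoc, one_mul]; rfl))]
    exact mul_mem (h2 z a hz) (h1 hy)
  · let T : Subgroup (G4 k) :=
      { carrier := {t | ∃ n ∈ N, ∃ a : k, a ≠ 0 ∧ (n.1 : M4 k) = a • (t : M4 k)}
        one_mem' := ⟨1, one_mem _, 1, one_ne_zero, by simp⟩
        mul_mem' := by
          rintro g h ⟨x, hx, a, ha, e⟩ ⟨y, hy, b, hb, e'⟩
          exact ⟨x * y, mul_mem hx hy, a * b, mul_ne_zero ha hb, by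
            rw [Subgroup.coe_mul, Units.val_mul, Units.val_mul, e, e', smul_mul_smul_comm]⟩
        inv_mem' := by
          rintro g ⟨x, hx, a, ha, e⟩
          exact ⟨x⁻¹, inv_mem hx, a⁻¹, inv_ne_zero ha, Units.inv_eq_of_mul_eq_one_right (by
            rw [e, smul_mul_smul_comm, mul_inv_cancel₀ ha, Units.mul_inv, one_smul])⟩ }
    obtain ⟨x, hx, a, ha, ex⟩ := g.2
    have a0 : a ≠ 0 := by rintro rfl; simp at ha
    by_contra hs
    have hP : P ≤ T := C.le_of_normal (T := T) (by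
      rintro h hh t ⟨n, hn, b, hb, e⟩
      exact ⟨_, hN.conj_mem n hn ⟨h, le_P8 hh⟩, b, hb, by simp [e]⟩) ⟨g, hg, a, a0, ex⟩ hx
      fun h => hs (by
        obtain ⟨b, hb⟩ := mem_scalars'.1 h
        exact ⟨a * b, sc_iff.2 (by rw [ex, hb, smul_smul])⟩)
    have := C.finite_bar
    have := C.simple
    have hp' : IsPGroup 2 (Bar P) := fun y => by
      obtain ⟨y, rfl⟩ := pr_surj y
      obtain ⟨n, hn, b, hb, e⟩ := hP y.2
      obtain ⟨m, hm⟩ := hp ⟨n, hn⟩
      have hm' : (n.1 : M4 k) ^ 2 ^ m = 1 := congrArg (fun t : N => (t.1.1 : M4 k)) hm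
      refine ⟨m, (map_pow _ _ _).symm.trans (pr_eq_one.2 (mem_scalars'.2 ⟨(b ^ 2 ^ m)⁻¹, ?_⟩))⟩
      rw [← hm', e, smul_pow, inv_smul_smul₀ (pow_ne_zero _ hb)]
      rfl
    have := hp'.isNilpotent
    exact C.nonabelian ⟨⟨IsSimpleGroup.comm_iff_isSolvable.2 inferInstance⟩⟩

end J

theorem no_J (p : ℕ) [Fact p.Prime] [CharP k p] (h2 : (2 : k) ≠ 0) (C : Core P) (hT : ¬ HasTv P) : ¬ HasJ P := by
  rintro ⟨g, hg, c, v, φ, h0, h1⟩
  have := J.fin C
  have hd := C.det hg
  rw [h1, det_smul, sub_eq_add_neg, ← neg_vecMulVec, vecMulVec_eq Unit,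
    det_one_add_replicateCol_mul_replicateRow, dotProduct_neg, h0] at hd
  have h8 : c ^ 8 = 1 := by
    simp only [Fintype.card_fin] at hd
    linear_combination (1 - c ^ 4) * hd
  have c0 : c ≠ 0 := by rintro rfl; simp at h8
  obtain ⟨z, hz⟩ := J.ex8 (P := P) c⁻¹ (by rw [inv_pow, h8, inv_one])
  exact (J.ctx h2 C hT).false p ⟨z * ⟨g, J.le_P8 hg⟩, v, dotProductBilin k k φ, h0, fun w => by
    rw [mul_smul, hz, J.smul_eq, h1, smul_mulVec, inv_smul_smul₀ c0, sub_mulVec, one_mulVec,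
      vecMulVec_mulVec]
    simp⟩

end CL.D4
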