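import Cfsg.Agent.CLAS.D4.Def
import Cfsg.Agent.CLAS.FiveK1

/-!
# Eigenvalues and traces in dimension four
-/

set_option autoImplicit false

namespace CL.D4

open Matrix Cfsg Cfsg.Geo CL.Asch Module Finset Polynomial
open scoped MatrixGroups

variable {k : Type*} [Field k] {P : Subgroup (G4 k)}

namespace K4

theorem exists_diag [IsAlgClosed k] {A : G4 k} {n : ℕ} (h0 : (n : k) ≠ 0) (hn : A ^ n = 1) :
    ∃ (X : G4 k) (d : Fin 4 → k), (A : M4 k) = X * diagonal d * (X⁻¹ : G4 k) := by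
  obtain ⟨I, _, v, d, h1, h2, h3⟩ := CL.AltE.exists_eb_top (J := Unit) (fun _ => toLin' (A : M4 k))
    (fun _ _ => Commute.refl _) h0 fun _ => by
      rw [← toLin'_pow, ← Units.val_pow_eq_pow_val, hn, Units.val_one, toLin'_one]; rfl
  have e : I ≃ Fin 4 := Fintype.equivFinOfCardEq (by
    rw [← finrank_span_eq_card h1, h2, finrank_top, finrank_fin_fun])
  let b := (Basis.mk h1 h2.ge).reindex e
  have := (Pi.basisFun k (Fin 4)).invertibleToMatrix b
  refine ⟨unitOfInvertible ((Pi.basisFun k (Fin 4)).toMatrix b), fun i => d () (e.symm i), ?_⟩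
  rw [Units.eq_mul_inv_iff_mul_eq]
  ext i j
  have := congrFun (h3 () (e.symm j)) i
  simpa [mul_apply, Basis.toMatrix_apply, b, mulVec, dotProduct, diagonal_apply, mul_comm] using this

theorem roots_diag (X : G4 k) (d : Fin 4 → k) :
    ((X : M4 k) * diagonal d * (X⁻¹ : G4 k)).charpoly.roots = univ.val.map d := by
  rw [coe_units_inv, charpoly_units_conj, charpoly_diagonal, ← roots_multiset_prod_X_sub_C (univ.val.map d),
    Multiset.map_map]
  rfl

/-- the eigenvalues of an element of order prime to the characteristic -/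
theorem exists_exp [IsAlgClosed k] {ζ : k} {n : ℕ} [NeZero n] (hζ : IsPrimitiveRoot ζ n) {A : G4 k}
    (hn : A ^ n = 1) : ∃ (a b c d : Fin n) (s : Multiset ℕ), s = {a.1, b.1, c.1, d.1} ∧
      (∀ r, tr (A ^ r) = (s.map fun j => ζ ^ (j * r)).sum) ∧ (A : M4 k).det = ζ ^ s.sum ∧
      (∀ m, IsConj A (A ^ m) → s.map (· * m % n) = s) ∧
      (∀ r (c : k), ((A ^ r : G4 k) : M4 k) = c • 1 → ∀ j ∈ s, ζ ^ (j * r) = c) ∧
      ∀ x y : k, (∀ j ∈ s, ζ ^ j = x ∨ ζ ^ j = y) → (A : M4 k) * A = (x + y) • (A : M4 k) - (x * y) • 1 := by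
  obtain ⟨X, d, h⟩ := exists_diag hζ.neZero'.out hn
  have hp : ∀ r, ((A ^ r : G4 k) : M4 k) = X * diagonal (fun i => d i ^ r) * (X⁻¹ : G4 k) := fun r => by
    rw [Units.val_pow_eq_pow_val, h, Units.conj_pow, diagonal_pow]; rfl
  have hq : ∀ r (c : k), ((A ^ r : G4 k) : M4 k) = c • 1 → ∀ i, d i ^ r = c := fun r c e i => by
    rw [hp, Units.mul_inv_eq_iff_eq_mul, smul_mul_assoc, one_mul, ← mul_one (c • _), smul_mul_assoc,
      ← mul_smul_comm, Units.mul_right_inj] at e
    simpa using congrFun (congrFun e i) i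
  have h1 : ∀ i, ∃ e : Fin n, ζ ^ e.1 = d i := fun i => by
    obtain ⟨e, he, h'⟩ := hζ.eq_pow_of_pow_eq_one (hq n 1 (by simp [hn]) i)
    exact ⟨⟨e, he⟩, h'⟩
  choose e he using h1
  have hs : ({(e 0).1, (e 1).1, (e 2).1, (e 3).1} : Multiset ℕ) = univ.val.map fun i => (e i).1 := rfl
  refine ⟨e 0, e 1, e 2, e 3, _, rfl, fun r => ?_, ?_, fun m hm => ?_, fun r c h j hj => ?_,
    fun x y hxy => ?_⟩
  · rw [tr, hp, trace_mul_cycle, Units.inv_mul, one_mul, trace_diagonal]
    simp [Fin.sum_univ_four, ← he, pow_mul, add_assoc]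
  · rw [h, det_units_conj, det_diagonal]
    simp [Fin.prod_univ_four, ← he, pow_add, mul_assoc]
  · obtain ⟨c, hc⟩ := isConj_iff.1 hm
    have h2 := roots_diag X fun i => d i ^ m
    rw [← hp, ← hc, Units.val_mul, Units.val_mul, coe_units_inv, charpoly_units_conj, h, roots_diag] at h2
    have h3 : Function.Injective fun j : Fin n => ζ ^ j.1 := fun i j e => Fin.ext (hζ.pow_inj i.2 j.2 e)
    have h4 : univ.val.map (fun i => (⟨(e i).1 * m % n, Nat.mod_lt _ (NeZero.pos n)⟩ : Fin n)) =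
        univ.val.map e := Multiset.map_injective h3 (by
      simp only [Multiset.map_map, Function.comp_def, ← pow_eq_pow_mod _ hζ.pow_eq_one, pow_mul, he, h2])
    rw [hs, Multiset.map_map]
    simpa only [Multiset.map_map, Function.comp_def] using congrArg (Multiset.map Fin.val) h4
  · rw [hs, Multiset.mem_map] at hj
    obtain ⟨i, -, rfl⟩ := hj
    rw [pow_mul, he, hq r c h]
  · rw [h]
    have : diagonal d * diagonal d = (x + y) • diagonal d - (x * y) • 1 := by
      ext i j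
      have := hxy (e i) (by rw [hs]; exact Multiset.mem_map_of_mem _ (mem_univ i))
      by_cases hij : i = j
      · subst hij
        rcases this with a | a <;> simp [← he, a] <;> ring
      · simp [hij]
    calc _ = (X : M4 k) * (diagonal d * diagonal d) * (X⁻¹ : G4 k) := by
          simp only [mul_assoc, Units.inv_mul_cancel_left]
      _ = _ := by simp [this, mul_sub, sub_mul]

theorem tr_one : tr (1 : G4 k) = 4 := by simp [tr]

theorem tr_neg (A : G4 k) : tr (-A) = -tr A := by simp [tr]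

section Char

variable (p : ℕ) [hp : Fact p.Prime] [CharP k p] {A : G4 k}

theorem int_of_conj (j : ℕ) (h : IsConj (A ^ p ^ j) (A ^ p ^ (j + 1))) : ∃ a : ℤ, tr A = a := by
  refine CL.Five.K.int_of_pow p (iterateFrobenius_inj k p j ?_)
  rw [iterateFrobenius_def, iterateFrobenius_def, ← pow_mul, ← pow_succ', ← tr_pow_char, ← tr_pow_char,
    tr_conj h]

include p in
/-- a real element of order dividing four or six has an integral trace -/
theorem int_of_real {n : ℕ} (hn : n = 4 ∨ n = 6) (h : A ^ n = 1) (hr : IsConj A A⁻¹) : ∃ a : ℤ, tr A = a := by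
  refine int_of_conj p 2 ?_
  have key : ∀ a b : ℕ, a % n = b % n → A ^ a = A ^ b := fun a b e => by
    rw [pow_eq_pow_mod a h, e, ← pow_eq_pow_mod b h]
  have : p ^ 3 % n = p ^ 2 % n ∨ (p ^ 3 + p ^ 2) % n = 0 % n := by
    have : p % n < n := Nat.mod_lt _ (by omega)
    rw [Nat.add_mod, Nat.pow_mod, Nat.pow_mod p 2]
    generalize p % n = r at this
    rcases hn with rfl | rfl <;> interval_cases r <;> simp
  rcases this with e | e
  · rw [key _ _ e]
  · have := key _ _ e
    rw [pow_add, pow_zero] at this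
    rw [eq_inv_of_mul_eq_one_left this, ← inv_pow]
    exact hr.pow _

omit hp in
theorem conj_five {G : Type*} [Group G] {g : G} (h : g ^ 5 = 1) (e : IsConj g (g ^ 2)) {m : ℕ} (hm : m % 5 ≠ 0) :
    IsConj g (g ^ m) := by
  have e4 : IsConj g (g ^ 4) := e.trans (by simpa only [← pow_mul] using e.pow 2)
  have e8 : IsConj g (g ^ 8) := e4.trans (by simpa only [← pow_mul] using e.pow 4)
  rw [pow_eq_pow_mod 8 h] at e8
  rw [pow_eq_pow_mod m h]
  have := Nat.mod_lt m (show 0 < 5 by norm_num)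
  generalize m % 5 = r at *
  interval_cases r
  exacts [absurd rfl hm, by rw [pow_one], e, e8, e4]

include p in
theorem int_of_five (h : A ^ 5 = 1) (e : IsConj A (A ^ 2)) : ∃ a : ℤ, tr A = a := by
  refine int_of_conj p 1 ?_
  by_cases h5 : p % 5 = 0
  · rw [pow_eq_pow_mod _ h, pow_eq_pow_mod (p ^ (1 + 1)) h, Nat.pow_mod, Nat.pow_mod p, h5]
  · have key : ∀ j, p ^ j % 5 ≠ 0 := fun j a => h5 (Nat.mod_eq_zero_of_dvd
      (Nat.prime_five.dvd_of_dvd_pow (Nat.dvd_of_mod_eq_zero a)))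
    exact (conj_five h e (key _)).symm.trans (conj_five h e (key _))

theorem tr_unip {j : ℕ} (h : A ^ p ^ j = 1) : tr A = 4 := iterateFrobenius_inj k p j (by
  rw [iterateFrobenius_def, ← tr_pow_char, h, tr_one, map_ofNat])

include p in
/-- elements of order seven conjugate to their squares -/
theorem quad_seven [IsAlgClosed k] : ∃ θ : k, θ ^ 2 + θ + 2 = 0 ∧ ∀ A : G4 k, A ^ 7 = 1 → IsConj A (A ^ 2) →
    ∃ a b : ℤ, tr A = a + b * θ ∧ tr A⁻¹ = a + b * (-1 - θ) := by
  by_cases h7 : p = 7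
  · subst h7
    refine ⟨3, by linear_combination 2 * CharP.cast_eq_zero k 7, fun A h _ => ⟨4, 0, ?_, ?_⟩⟩
    · simpa using tr_unip 7 (j := 1) h
    · simpa using tr_unip 7 (j := 1) (A := A⁻¹) (by rw [inv_pow, pow_one, h, inv_one])
  obtain ⟨ζ, hζ⟩ := CL.Five.K.exists_prim (k := k) (n := 7) fun e => h7
    ((Nat.prime_dvd_prime_iff_eq hp.out (by norm_num)).1 ((CharP.cast_eq_zero_iff k p 7).1 e))
  have h1 := hζ.pow_eq_one
  have h2 := hζ.geom_sum_eq_zero (by norm_num)
  simp only [sum_range_succ, range_zero, sum_empty] at h2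
  refine ⟨ζ + ζ ^ 2 + ζ ^ 4, by linear_combination 2 * h2 + ζ * h1, fun A h e => ?_⟩
  obtain ⟨a, b, c, d, s, hs, h3, -, h4, -⟩ := exists_exp hζ h
  have h5 : s = {0, 0, 0, 0} ∨ s = {0, 1, 2, 4} ∨ s = {0, 3, 5, 6} := by
    have := h4 2 e
    subst hs
    clear h3 h4
    revert a b c d
    decide +kernel
  have h6 := h3 1
  have h8 := h3 6
  rw [show A ^ 6 = A⁻¹ from eq_inv_of_mul_eq_one_left (by rw [← pow_succ, h])] at h8
  rw [pow_one] at h6
  rw [h6, h8, Multiset.map_congr rfl fun j _ => pow_eq_pow_mod (j * 6) h1]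
  rcases h5 with rfl | rfl | rfl
  · exact ⟨4, 0, by simp; norm_num, by simp; norm_num⟩
  · exact ⟨1, 1, by simp; ring, by simp; linear_combination h2⟩
  · exact ⟨0, -1, by simp; linear_combination h2, by simp; ring⟩

end Char

/-- a real element whose fourth power is `-1` has trace zero or a quadratic minimal polynomial -/
theorem eight [IsAlgClosed k] (h2 : (2 : k) ≠ 0) {A : G4 k} (h : A ^ 4 = -1) (hd : (A : M4 k).det = 1)
    (hr : IsConj A A⁻¹) : tr A = 0 ∨ ∃ x y : k, (A : M4 k) * A = x • (A : M4 k) - y • 1 := by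
  have h8 : A ^ 8 = 1 := by rw [show 8 = 4 * 2 from rfl, pow_mul, h, neg_one_sq]
  obtain ⟨ζ, hζ⟩ := CL.Five.K.exists_prim (k := k) (n := 8) (by
    rw [show ((8 : ℕ) : k) = 2 ^ 3 by norm_num]; exact pow_ne_zero _ h2)
  have h1 : ζ ^ 4 = -1 := (hζ.pow (by norm_num) (show 8 = 4 * 2 from rfl)).eq_neg_one_of_two_right
  obtain ⟨a, b, c, d, s, hs, h3, h4, h5, h6, h7⟩ := exists_exp hζ h8
  have h9 : s = {1, 3, 5, 7} ∨ (∀ j ∈ s, j = 1 ∨ j = 7) ∨ ∀ j ∈ s, j = 3 ∨ j = 5 := by
    have a1 := h5 7 (by rwa [show A ^ 7 = A⁻¹ from eq_inv_of_mul_eq_one_left (by rw [← pow_succ, h8])])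
    have a2 : ∀ j ∈ s, ¬ 2 ∣ j := fun j hj ⟨m, e⟩ => h2 (by
      have := h6 4 (-1) (by simp [h]) j hj
      rw [e, show 2 * m * 4 = 8 * m by ring, pow_mul, hζ.pow_eq_one, one_pow] at this
      linear_combination this)
    have a3 := (hζ.pow_eq_one_iff_dvd _).1 (h4.symm.trans hd)
    subst hs
    clear h3 h4 h5 h6 h7
    revert a b c d
    decide +kernel
  rcases h9 with rfl | e | e
  · refine .inl ?_
    rw [← pow_one A, h3]
    simp
    linear_combination (ζ + ζ ^ 3) * h1
  · exact .inr ⟨_, _, h7 (ζ ^ 1) (ζ ^ 7) fun j hj => (e j hj).imp (congrArg _) (congrArg _)⟩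
  · exact .inr ⟨_, _, h7 (ζ ^ 3) (ζ ^ 5) fun j hj => (e j hj).imp (congrArg _) (congrArg _)⟩

end K4

namespace Core

variable (C : Core P)
include C

/-- the lift of an element of odd order -/
theorem lift_odd {g : Bar P} {n : ℕ} (hn : Odd n) (h : g ^ n = 1) :
    ∃ A : P, pr P A = g ∧ A ^ n = 1 ∧ ∀ m, IsConj g (g ^ m) → IsConj A (A ^ m) := by
  obtain ⟨B, rfl⟩ := pr_surj g
  obtain ⟨j, rfl⟩ := hn
  have h1 : pr P (B ^ (2 * j + 1 + 1) ^ 2) = pr P B := by
    rw [map_pow, show (2 * j + 1 + 1) ^ 2 = (2 * j + 1) * (2 * j + 3) + 1 by ring, pow_succ, pow_mul, h, one_pow,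
      one_mul]
  have h2 : (B ^ (2 * j + 1 + 1) ^ 2) ^ (2 * j + 1) = 1 := by
    rw [← pow_mul, show (2 * j + 1 + 1) ^ 2 * (2 * j + 1) = (2 * j + 1) * 4 * (j + 1) ^ 2 by ring, pow_mul, pow_mul,
      C.ker_pow (by rw [map_pow, h]), one_pow]
  refine ⟨_, h1, h2, fun m hm => ?_⟩
  generalize B ^ (2 * j + 1 + 1) ^ 2 = A at h1 h2
  obtain ⟨c, hc⟩ := isConj_iff.1 hm
  obtain ⟨c, rfl⟩ := pr_surj c
  refine isConj_iff.2 ⟨c, C.lift_unique ⟨j, rfl⟩ (by rw [map_mul, map_mul, map_inv, map_pow, h1, hc]) ?_ ?_⟩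
  · rw [conj_pow, h2, mul_one, mul_inv_cancel]
  · rw [← pow_mul, mul_comm, pow_mul, h2, one_pow]

/-- generators modulo scalars generate -/
theorem closure_eq {A B : P} (h : Subgroup.closure {pr P A, pr P B} = ⊤) :
    Subgroup.closure {(A : G4 k), (B : G4 k)} = P := by
  set T := Subgroup.closure {(A : G4 k), (B : G4 k)}
  have hA : (A : G4 k) ∈ T := Subgroup.subset_closure (by simp)
  have hB : (B : G4 k) ∈ T := Subgroup.subset_closure (by simp)
  have h1 : (T.subgroupOf P).map (pr P) = ⊤ := top_unique (h ▸ (Subgroup.closure_le _).2 (by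
    rintro _ (rfl | rfl)
    exacts [Subgroup.mem_map_of_mem _ hA, Subgroup.mem_map_of_mem _ hB]))
  have h2 : NormBy P T := fun g hg x hx => by
    obtain ⟨t, ht, e⟩ := h1.ge (Subgroup.mem_top (pr P ⟨g, hg⟩))
    have h3 : pr P (t⁻¹ * ⟨g, hg⟩) = 1 := by rw [map_mul, map_inv, e, inv_mul_cancel]
    have h4 : g * x * g⁻¹ = t * x * t⁻¹ := by
      have := scalars_comm (pr_eq_one.1 h3) x
      rw [Subgroup.coe_mul, Subgroup.coe_inv, mul_assoc, inv_mul_eq_iff_eq_mul] at this
      rw [this]; simp [mul_assoc]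
    exact h4 ▸ T.mul_mem (T.mul_mem ht hx) (T.inv_mem ht)
  refine le_antisymm ((Subgroup.closure_le _).2 (by rintro _ (rfl | rfl) <;> simp)) ?_
  by_cases h3 : (A : G4 k) ∈ scalars (Fin 4) k
  · refine C.le_of_normal h2 hB B.2 fun h4 => ?_
    have := C.simple
    rw [pr_eq_one.2 h3, pr_eq_one.2 h4] at h
    simp [Subgroup.closure_singleton_one] at h
  · exact C.le_of_normal h2 hA A.2 h3

/-- two matrices with quadratic minimal polynomials do not generate -/
theorem not_quad [IsAlgClosed k] {A B : P} (h : Subgroup.closure {pr P A, pr P B} = ⊤) {x y x' y' : k}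
    (hA : ((A : G4 k) : M4 k) * (A : G4 k) = x • ((A : G4 k) : M4 k) - y • 1) :
    ((B : G4 k) : M4 k) * (B : G4 k) ≠ x' • ((B : G4 k) : M4 k) - y' • 1 := fun hB => by
  classical
  have hP := C.closure_eq h
  generalize (A : G4 k) = A at *
  generalize (B : G4 k) = B at *
  obtain ⟨z, hz⟩ : ∃ z : M4 k, z = A * B + B * A - x' • (A : M4 k) - x • (B : M4 k) := ⟨_, rfl⟩
  have h1 : z * A = A * z := by
    simp only [hz, mul_add, add_mul, mul_sub, sub_mul, smul_mul_assoc, mul_smul_comm, mul_assoc, hA,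
      ← mul_assoc (A : M4 k) A, mul_one, one_mul]
    abel
  have h2 : z * B = B * z := by
    simp only [hz, mul_add, add_mul, mul_sub, sub_mul, smul_mul_assoc, mul_smul_comm, mul_assoc, hB,
      ← mul_assoc (B : M4 k) B, mul_one, one_mul]
    abel
  obtain ⟨γ, hγ⟩ := scalar_of_alg_top C.alg z fun g hg => by
    rw [← hP] at hg
    induction hg using Subgroup.closure_induction with
    | mem x hx => rcases hx with rfl | rfl <;> assumption
    | one => simp
    | mul x y _ _ hx hy => rw [Units.val_mul, ← mul_assoc, hx, mul_assoc, hy, mul_assoc]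
    | inv x _ hx => rw [Units.mul_inv_eq_iff_eq_mul, mul_assoc, hx, Units.inv_mul_cancel_left]
  obtain ⟨μ, hμ⟩ := End.exists_eigenvalue (toLin' (A : M4 k))
  obtain ⟨v, hv⟩ := hμ.exists_hasEigenvector
  have h3 : (A : M4 k) *ᵥ v = μ • v := hv.apply_eq_smul
  let W := Submodule.span k {v, (B : M4 k) *ᵥ v}
  have a1 : v ∈ W := Submodule.subset_span (by simp)
  have a2 : (B : M4 k) *ᵥ v ∈ W := Submodule.subset_span (by simp)
  have key : ∀ M : M4 k, M *ᵥ v ∈ W → M *ᵥ (B : M4 k) *ᵥ v ∈ W → ∀ w ∈ W, M *ᵥ w ∈ W := fun M e e' w hw => by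
    obtain ⟨a, b, rfl⟩ := Submodule.mem_span_pair.1 hw
    rw [mulVec_add, mulVec_smul, mulVec_smul]
    exact add_mem (W.smul_mem _ e) (W.smul_mem _ e')
  have h4 := C.irr W fun g hg => by
    rw [← hP] at hg
    induction hg using Subgroup.closure_induction with
    | mem g hg =>
      rcases hg with rfl | rfl
      · refine key _ (h3 ▸ W.smul_mem _ a1) ?_
        rw [mulVec_mulVec, show (g : M4 k) * B = γ • 1 - B * g + x' • (g : M4 k) + x • (B : M4 k) by
          rw [← hγ, hz]; abel]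
        simp only [add_mulVec, sub_mulVec, smul_mulVec, one_mulVec, ← mulVec_mulVec, h3, mulVec_smul]
        exact add_mem (add_mem (sub_mem (W.smul_mem _ a1) (W.smul_mem _ a2)) (W.smul_mem _ (W.smul_mem _ a1)))
          (W.smul_mem _ a2)
      · refine key _ a2 ?_
        rw [mulVec_mulVec, hB, sub_mulVec, smul_mulVec, smul_mulVec, one_mulVec]
        exact sub_mem (W.smul_mem _ a2) (W.smul_mem _ a1)
    | one => simp
    | mul x y _ _ hx hy =>
      intro v hv
      rw [Units.val_mul, ← mulVec_mulVec]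
      exact hx _ (hy v hv)
    | inv x _ hx => exact inv_invariant hx
  rcases h4 with e | e
  · exact hv.2 (e.le a1)
  · have := finrank_span_le_card (R := k) {v, (B : M4 k) *ᵥ v}
    rw [show Submodule.span k _ = ⊤ from e, finrank_top, finrank_fin_fun, Set.toFinset_insert,
      Set.toFinset_singleton] at this
    exact absurd (this.trans card_le_two) (by norm_num)

end Core

end CL.D4
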