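import Cfsg.Agent.CLAS.D4.Tl

/-!
# More tools: Heisenberg groups by generators, four-groups, regular unipotent elements
-/

set_option autoImplicit false

namespace CL.D4

open Matrix Cfsg Cfsg.Geo CL.Asch
open scoped MatrixGroups commutatorElement

variable {k : Type*} [Field k] {P : Subgroup (G4 k)}

theorem exists_heis_sub {G : Type*} [Group G] {r m : ℕ} {x y : G} (hx : x ^ r ^ m = 1) (hy : y ^ r ^ m = 1)
    (hz : ⁅x, y⁆ ^ r ^ m = 1) (h1 : Commute x ⁅x, y⁆) (h2 : Commute y ⁅x, y⁆) :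
    ∃ H : Subgroup G, IsPGroup r H ∧ x ∈ H ∧ y ∈ H := by
  have zp : ∀ {x : G}, x ^ r ^ m = 1 → IsPGroup r (Subgroup.closure {x}) := fun {x} h a => ⟨m, Subtype.ext (by
    obtain ⟨n, hn⟩ := Subgroup.mem_closure_singleton.1 a.2
    rw [Subgroup.coe_pow, ← hn, ← _root_.zpow_natCast, ← _root_.zpow_mul, mul_comm, _root_.zpow_mul,
      _root_.zpow_natCast, h, _root_.one_zpow]; rfl)⟩
  have a1 := (zp hz).to_sup_of_normal_left' (zp hx) (Subgroup.le_normalizer_closure_iff.2 fun h hh g hg => by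
    obtain ⟨n, rfl⟩ := Subgroup.mem_closure_singleton.1 hh
    rw [hg, (h1.zpow_left n).eq, mul_inv_cancel_right]; exact Subgroup.subset_closure rfl)
  rw [← Subgroup.closure_union] at a1
  have z1 : ⁅x, y⁆ ∈ Subgroup.closure ({⁅x, y⁆} ∪ {x}) := Subgroup.subset_closure (.inl rfl)
  have x1 : x ∈ Subgroup.closure ({⁅x, y⁆} ∪ {x}) := Subgroup.subset_closure (.inr rfl)
  refine ⟨_, a1.to_sup_of_normal_left' (zp hy) ((Subgroup.closure_le _).2 ?_), Subgroup.mem_sup_left x1,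
    Subgroup.mem_sup_right (Subgroup.subset_closure rfl)⟩
  rw [Set.singleton_subset_iff, SetLike.mem_coe, Subgroup.mem_normalizer_iff_map_conj_eq, MonoidHom.map_closure, Set.image_union,
    Set.image_singleton, Set.image_singleton]
  have e1 : MulAut.conj y ⁅x, y⁆ = ⁅x, y⁆ := by rw [MulAut.conj_apply, h2.eq, mul_inv_cancel_right]
  have e2 : MulAut.conj y x = ⁅x, y⁆⁻¹ * x := by rw [MulAut.conj_apply, commutatorElement_def]; group
  rw [MonoidHom.coe_coe, e1, e2]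
  refine le_antisymm ((Subgroup.closure_le _).2 ?_) ((Subgroup.closure_le _).2 ?_)
  · rintro _ (rfl | rfl)
    exacts [z1, mul_mem (inv_mem z1) x1]
  · rintro _ (rfl | rfl)
    · exact Subgroup.subset_closure (.inl rfl)
    · exact (mul_mem_cancel_left (inv_mem (Subgroup.subset_closure (.inl rfl)))).1 (Subgroup.subset_closure (.inr rfl))

/-- Heisenberg, by generators -/
theorem Core.heis' [IsAlgClosed k] (C : Core P) (hT : ¬ HasTv P) {G : Type*} [Group G] (φ : G →* Bar P) {r : ℕ}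
    (hr : r.Prime) (ho : Odd r) {x y z : G} (hx : x ^ r = 1) (hy : y ^ r = 1) (hz : z ^ r = 1) (h : x * y = z * (y * x))
    (h0 : φ z ≠ 1) (h1 : x * z = z * x) (h2 : y * z = z * y) : r = 3 ∧ (3 : k) ≠ 0 ∧ ¬ IsConj (φ z) (φ z)⁻¹ := by
  obtain rfl : z = ⁅x, y⁆ := by rw [commutatorElement_def, h]; group
  obtain ⟨H, hH, a, b⟩ := exists_heis_sub (r := r) (m := 1) (by rwa [pow_one]) (by rwa [pow_one]) (by rwa [pow_one])
    h1 h2
  have := Fact.mk hr
  rw [map_commutatorElement] at h0 ⊢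
  refine C.heis hT hr ho (hH.map φ) (Subgroup.mem_map_of_mem _ a) (Subgroup.mem_map_of_mem _ b)
    (orderOf_eq_prime ?_ h0) ?_ ?_ <;> rw [← map_commutatorElement]
  · rw [← map_pow, hz, map_one]
  · exact Commute.map h1 φ
  · exact Commute.map h2 φ

theorem sq_mem_cz {x y : Bar P} (hy : y ^ 2 = 1) (h : x * y = y * x) : x ^ 2 ∈ cz y := by
  obtain ⟨x, rfl⟩ := pr_surj x
  obtain ⟨y, rfl⟩ := pr_surj y
  by_cases e : x * y = y * x
  · exact pow_mem (mem_cz.2 e) 2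
  · rw [← map_pow, mem_cz, sq]
    refine Subtype.ext (Units.ext ?_)
    simp only [Subgroup.coe_mul, Units.val_mul]
    rw [mul_assoc, anti_of_not hy h e, mul_neg, ← mul_assoc, anti_of_not hy h e, neg_mul, neg_neg, mul_assoc]

theorem card_le_cz' {E : Subgroup (Bar P)} {a b : Bar P} (ha : a ^ 2 = 1) (hb : b ^ 2 = 1)
    (h1 : ∀ x ∈ E, x * a = a * x) (h2 : ∀ x ∈ E, x * b = b * x) : Nat.card E ≤ Nat.card ↥(E ⊓ (cz a ⊓ cz b)) * 4 := by
  rw [inf_comm, card_inf, ← ((cz a ⊓ cz b).subgroupOf E).card_mul_index]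
  exact Nat.mul_le_mul_left _ ((Subgroup.index_inf_le (H := (cz a).subgroupOf E) (K := (cz b).subgroupOf E)).trans
    (Nat.mul_le_mul (Nat.le_of_dvd two_pos (index_cz ha h1)) (Nat.le_of_dvd two_pos (index_cz hb h2))))

/-- the exact centraliser of a four-group with commuting lifts is diagonal -/
theorem Core.cz_comm [IsAlgClosed k] (C : Core P) (h2 : (2 : k) ≠ 0) (hJ : ¬ HasJ P) {a b x y : Bar P} (ha : a ^ 2 = 1)
    (hb : b ^ 2 = 1) (ab : a ∈ cz b) (a1 : a ≠ 1) (b1 : b ≠ 1) (ba : b ≠ a) (hx : x ∈ cz a ⊓ cz b)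
    (hy : y ∈ cz a ⊓ cz b) : x ∈ cz y := by
  obtain ⟨a, rfl⟩ := pr_surj a
  obtain ⟨b, rfl⟩ := pr_surj b
  obtain ⟨x, rfl⟩ := pr_surj x
  obtain ⟨y, rfl⟩ := pr_surj y
  have e1 := congrArg Subtype.val (mem_cz.1 ab)
  obtain ⟨Y, d, hd⟩ := exists_diag ![a.1, b.1] (fun i j => by
    fin_cases i <;> fin_cases j <;> first | rfl | assumption | (symm; assumption)) (n := 8)
    (by simpa [show (8 : k) = 2 ^ 3 by norm_num] using h2) fun j => by
      fin_cases j <;> exact C.pow_eight ‹_›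
  obtain ⟨s, hs, s1⟩ := sgn hJ ha (hd 0)
  obtain ⟨t, ht, t1⟩ := sgn hJ hb (hd 1)
  have key : ∀ s : Fin 4 → ℤˣ, s 0 = 1 ∧ ∏ i, s i = 1 → ∀ t : Fin 4 → ℤˣ, t 0 = 1 ∧ ∏ i, t i = 1 →
    s = 1 ∨ t = 1 ∨ t = s ∨ ∀ i j, i ≠ j → s i = -s j ∨ t i = -t j := by
    set_option synthInstance.maxSize 1024 in decide +kernel
  rcases key s s1 t t1 with rfl | rfl | rfl | h
  · exact (a1 hs.one).elim
  · exact (b1 ht.one).elim
  · exact (ba (ht.eq hs ha)).elim
  have k1 : ∀ {a : P} {s : Fin 4 → ℤˣ}, Sg Y a s → ∀ {x : P}, pr P x ∈ cz (pr P a) → ∀ i j, s i = -s j →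
      cj Y x i j = 0 := fun {a s} ⟨c, hc⟩ x hx i j e => by
    have c0 : c ≠ 0 := fun h => a.1.det_ne_zero (by rw [← det_cj Y, hc, h, zero_smul, det_zero])
    have := congrFun (congrFun (congrArg (fun x : P => cj Y x) (mem_cz.1 hx)) i) j
    simp only [Subgroup.coe_mul, map_mul, hc, ← diagonal_smul, mul_diagonal, diagonal_mul, Pi.smul_apply, e,
      smul_eq_mul, Units.val_neg, Int.cast_neg] at this
    have s0 : ((s j : ℤ) : k) ≠ 0 := by rcases Int.units_eq_one_or (s j) with h | h <;> simp [h]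
    exact mul_left_cancel₀ (mul_ne_zero h2 (mul_ne_zero c0 s0)) (by linear_combination this)
  have k2 : ∀ {x : P}, pr P x ∈ cz (pr P a) ⊓ cz (pr P b) → diagonal (cj Y x).diag = cj Y x := fun hx =>
    (isDiag_iff_diagonal_diag _).1 fun i j hij => (h i j hij).elim (k1 hs hx.1 i j) (k1 ht hx.2 i j)
  refine mem_cz.2 (Subtype.ext (cj_inj Y ?_))
  rw [Subgroup.coe_mul, Subgroup.coe_mul, map_mul, map_mul, ← k2 hx, ← k2 hy]
  exact commute_diagonal _ _

/-- unitriangular form -/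
theorem exists_uni (p : ℕ) [Fact p.Prime] [CharP k p] {A B Z : G4 k} {m : ℕ} (hA : A ^ p ^ m = 1)
    (hB : B ^ p ^ m = 1) (hZ : Z ^ p ^ m = 1) (e1 : Z * A = A * Z) (e2 : Z * B = B * Z) (e3 : A * B = Z * (B * A)) :
    ∃ Y, ∀ X ∈ ({A, B, Z} : Set (G4 k)), ∃ a b c d e f, cj Y X = !![1, 0, 0, 0; a, 1, 0, 0; d, b, 1, 0; f, e, c, 1] := by
  have nil : ∀ {X : G4 k}, X ^ p ^ m = 1 → IsNilpotent ((X : M4 k) - 1) := fun {X} h => ⟨p ^ m, by
    rw [sub_pow_char_pow_of_commute _ _ (Commute.one_right _), ← Units.val_pow_eq_pow_val, h]; simp⟩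
  have f1 := congrArg Units.val e1
  have f2 := congrArg Units.val e2
  have f3 := congrArg Units.val (show A * B = B * (A * Z) by rw [e3, ← mul_assoc, e2, mul_assoc, e1])
  simp only [Units.val_mul] at f1 f2 f3
  obtain ⟨e, he, h⟩ := exists_flag (nil hA) (nil hB) (nil hZ) (by noncomm_ring [f1]) (by noncomm_ring [f2])
    (by noncomm_ring [f3]) 4 le_rfl
  obtain ⟨Y, hY⟩ := exists_gl he
  refine ⟨Y, fun X hX => ?_⟩
  have k1 : ∀ i, e i = (Y : M4 k) *ᵥ Pi.single i 1 := fun i => by ext l; simp [hY]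
  have k2 : ∀ l i, l ≤ i → cj Y X l i = (1 : M4 k) l i := fun l i hl => by
    have := (Submodule.span_le (p := LinearMap.ker (LinearMap.proj l ∘ₗ toLin' ((Y⁻¹ : G4 k) : M4 k)))).2 (by
      rintro _ ⟨j, hj, rfl⟩
      rw [SetLike.mem_coe, LinearMap.mem_ker, LinearMap.comp_apply, toLin'_apply, k1, inv_mulVec_mulVec]
      exact Pi.single_eq_of_ne (hl.trans_lt hj).ne _) (h ((X : M4 k) - 1) (by rcases hX with rfl | rfl | rfl <;> simp) i)
    rw [LinearMap.mem_ker, LinearMap.comp_apply, toLin'_apply, k1, mulVec_mulVec, mulVec_mulVec, mul_sub, sub_mul,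
      mul_one, Units.inv_mul, ← Units.val_mul, ← Units.val_mul, ← cj_apply] at this
    simpa [sub_eq_zero] using this
  refine ⟨cj Y X 1 0, cj Y X 2 1, cj Y X 3 2, cj Y X 2 0, cj Y X 3 1, cj Y X 3 0, ?_⟩
  ext l i
  fin_cases l <;> fin_cases i <;> first | rfl | simp [k2]

theorem ne_zero_of_noTv (hT : ¬ HasTv P) {Y Z : G4 k} {a b c : k}
    (hz : cj Y Z = !![1, 0, 0, 0; 0, 1, 0, 0; a, 0, 1, 0; c, b, 0, 1]) (h1 : Z ≠ 1) (hP : Z ∈ P) : a * b ≠ 0 := fun h => by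
  have ne : ¬ (a = 0 ∧ b = 0 ∧ c = 0) := by
    rintro ⟨rfl, rfl, rfl⟩
    exact h1 (cj_inj Y (by rw [hz, map_one]; ext i j; fin_cases i <;> fin_cases j <;> rfl))
  rcases mul_eq_zero.1 h with rfl | rfl
  · refine hT (hasTv_of_cj (Y := Y) hP (v := ![0, 0, 0, 1]) (φ := ![c, b, 0, 0]) (fun a => by simpa using congrFun a 3)
      (fun a => ne ⟨rfl, congrFun a 1, congrFun a 0⟩) (by simp) ?_)
    rw [hz]; ext i j; fin_cases i <;> fin_cases j <;> simp
  · refine hT (hasTv_of_cj (Y := Y) hP (v := ![0, 0, a, c]) (φ := ![1, 0, 0, 0]) (fun a => ne ⟨congrFun a 2, rfl,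
      congrFun a 3⟩) (fun a => by simpa using congrFun a 0) (by simp) ?_)
    rw [hz]; ext i j; fin_cases i <;> fin_cases j <;> simp

/-- the Borel subgroup of `U₃(q)` in characteristic two -/
theorem bor_two [CharP k 2] (hT : ¬ HasTv P) {A B Z T : G4 k} (hA : A ^ 4 = 1) (hB : B ^ 4 = 1) (hZ : Z ^ 4 = 1)
    (e1 : Z * A = A * Z) (e2 : Z * B = B * Z) (e3 : A * B = Z * (B * A)) (hAP : A ∈ P) (hBP : B ∈ P)
    (t1 : T * A = B * T) (t2 : T * (A * A) = A * A * T) (t3 : T * (A * B * (A * B)) = A * B * (A * B) * T)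
    (n1 : A * A ≠ 1) (n2 : A * B * (A * B) ≠ 1) : False := by
  obtain ⟨Y, h⟩ := exists_uni 2 (m := 2) hA hB hZ e1 e2 e3
  obtain ⟨a1, a2, a3, a4, a5, a6, ha⟩ := h A (by simp)
  obtain ⟨b1, b2, b3, b4, b5, b6, hb⟩ := h B (by simp)
  have h2 : (2 : k) = 0 := CharP.cast_eq_zero k 2
  have sq : ∀ {X : G4 k} {a b c d e f : k}, cj Y X = !![1, 0, 0, 0; a, 1, 0, 0; d, b, 1, 0; f, e, c, 1] →
      cj Y (X * X) = !![1, 0, 0, 0; 0, 1, 0, 0; b * a, 0, 1, 0; e * a + c * d, c * b, 0, 1] := fun h => by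
    rw [map_mul, h]
    ext i j
    fin_cases i <;> fin_cases j <;> simp [mul_apply, Fin.sum_univ_four, CharTwo.add_self_eq_zero] <;> grind
  have hc : cj Y (A * B) = !![1, 0, 0, 0; a1 + b1, 1, 0, 0; a4 + b4 + a2 * b1, a2 + b2, 1, 0;
      a6 + b6 + a5 * b1 + a3 * b4, a5 + b5 + a3 * b2, a3 + b3, 1] := by
    rw [map_mul, ha, hb]
    ext i j
    fin_cases i <;> fin_cases j <;> simp [mul_apply, Fin.sum_univ_four] <;> ring
  have m1 := ne_zero_of_noTv hT (sq ha) n1 (mul_mem hAP hAP)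
  have m2 := ne_zero_of_noTv hT (sq hc) n2 (mul_mem (mul_mem hAP hBP) (mul_mem hAP hBP))
  have d0 : (cj Y T).det ≠ 0 := by rw [det_cj]; exact T.det_ne_zero
  have g1 := congrArg (cj Y) t1
  have g2 := congrArg (cj Y) t2
  have g3 := congrArg (cj Y) t3
  rw [map_mul, map_mul _ B, ha, hb] at g1
  rw [map_mul, map_mul _ _ T, sq ha] at g2
  rw [map_mul, map_mul _ _ T, sq hc] at g3
  generalize cj Y T = M at *
  simp only [mul_ne_zero_iff] at m1 m2
  have u := fun i j => congrFun (congrFun g1 i) j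
  have v := fun i j => congrFun (congrFun g2 i) j
  have w := congrFun (congrFun g3 3) 0
  have x03 : M 0 3 = 0 := by simpa [mul_apply, Fin.sum_univ_four, m1] using u 0 2
  have x02 : M 0 2 = 0 := by simpa [mul_apply, Fin.sum_univ_four, m1, x03] using u 0 1
  have x01 : M 0 1 = 0 := by simpa [mul_apply, Fin.sum_univ_four, m1, x03, x02] using u 0 0
  have x13 : M 1 3 = 0 := by simpa [mul_apply, Fin.sum_univ_four, m1, x02] using u 1 2
  have x12 : M 1 2 = 0 := by simpa [mul_apply, Fin.sum_univ_four, m1, x01, x13] using u 1 1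
  have x23 : M 2 3 = 0 := by simpa [mul_apply, Fin.sum_univ_four, m1, x02, x12] using u 2 2
  have t0 : M 0 0 ≠ 0 := fun e => d0 (det_eq_zero_of_row_eq_zero 0 fun j => by fin_cases j <;> assumption)
  have g4 := (sq hb).symm.trans ((congrArg (cj Y) (show B * B = A * A from mul_right_cancel (b := T) (by
    rw [← t2, mul_assoc, ← t1, ← mul_assoc, ← t1, mul_assoc]))).trans (sq ha))
  have hW : b5 * b1 + b3 * b4 = a5 * a1 + a3 * a4 := congrFun (congrFun g4 3) 0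
  have u10 := u 1 0
  have u21 := u 2 1
  have u32 := u 3 2
  have v20 := v 2 0
  have v31 := v 3 1
  have v30 := v 3 0
  simp [mul_apply, Fin.sum_univ_four, x01, x02, x12, x13, x23] at u10 u21 u32 v20 v31 v30 w
  obtain ⟨ρ, rfl⟩ : ∃ ρ, b1 = ρ * a1 := ⟨b1 / a1, (div_mul_cancel₀ _ m1.1.2).symm⟩
  have y1 : M 1 1 = ρ * M 0 0 := mul_right_cancel₀ m1.1.2 (by linear_combination u10)
  have y2 : M 2 2 = M 0 0 := mul_right_cancel₀ (mul_ne_zero m1.1.1 m1.1.2) (by linear_combination v20)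
  have y3 : M 3 3 = ρ * M 0 0 := mul_right_cancel₀ (mul_ne_zero m1.2.1 m1.2.2) (by linear_combination v31 + a3 * a2 * y1)
  rw [y2, y1] at u21
  rw [y3, y2] at u32
  rw [y3] at v30 w
  obtain rfl : a2 = ρ * b2 := mul_left_cancel₀ t0 (by linear_combination u21)
  obtain rfl : b3 = ρ * a3 := mul_left_cancel₀ t0 (by linear_combination -u32)
  have r1 : ρ + 1 ≠ 0 := fun e => m2.1.2 (by linear_combination a1 * e)
  refine mul_ne_zero (pow_ne_zero 4 r1) (mul_ne_zero t0 (mul_ne_zero m1.1.2 (mul_ne_zero m1.2.1 m1.2.2))) ?_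
  linear_combination ρ * w - (1 + ρ) ^ 2 * v30 - (ρ - 1) * M 0 0 * (1 + ρ) * hW +
    (2 * ρ ^ 3 + 3 * ρ ^ 2 + 2 * ρ + 1) * (M 0 0 * (a1 * (a3 * (ρ * b2)))) * h2

end CL.D4
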