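import Cfsg.Agent.CLAS.D4.Tl
import Cfsg.Agent.FUS.XI.SLU
import Cfsg.Agent.S0822

/-!
# `PSp₄(r)`, `L₄(r)`, `U₄(r)`
-/

set_option autoImplicit false

namespace CL.D4

open Matrix Cfsg Cfsg.Geo CL.Asch
open CL.Five (IsL2 IsL3 IsU3 IsA7 IsU42 ListE ListO)
open scoped MatrixGroups commutatorElement

namespace Lie

theorem pg_zpowers {G : Type*} [Group G] {p : ℕ} {x : G} (h : x ^ p = 1) :
    IsPGroup p (Subgroup.zpowers x) := by
  rintro ⟨_, n, rfl⟩
  refine ⟨1, Subtype.ext ?_⟩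
  change (x ^ n) ^ p ^ 1 = 1
  rw [pow_one, ← zpow_natCast, ← _root_.zpow_mul, mul_comm, _root_.zpow_mul, zpow_natCast, h, _root_.one_zpow]

theorem exists_pg {G : Type*} [Group G] [Finite G] {p : ℕ} {x y : G} (hx : x ^ p = 1) (hy : y ^ p = 1)
    (hz : ⁅x, y⁆ ^ p = 1) (h1 : Commute x ⁅x, y⁆) (h2 : Commute y ⁅x, y⁆) :
    ∃ H : Subgroup G, IsPGroup p H ∧ x ∈ H ∧ y ∈ H := by
  have n1 : Subgroup.zpowers y ≤ Subgroup.normalizer (Subgroup.zpowers ⁅x, y⁆ : Set G) := by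
    rw [Subgroup.zpowers_le]
    refine Subgroup.mem_normalizer_fintype ?_
    rintro _ ⟨n, rfl⟩
    rw [(h2.zpow_right n).eq, mul_inv_cancel_right]
    exact ⟨n, rfl⟩
  have n2 : Subgroup.zpowers x ≤
      Subgroup.normalizer ((Subgroup.zpowers y ⊔ Subgroup.zpowers ⁅x, y⁆ : Subgroup G) : Set G) := by
    rw [Subgroup.zpowers_le]
    refine Subgroup.mem_normalizer_fintype fun n hn => ?_
    have : Subgroup.zpowers y ⊔ Subgroup.zpowers ⁅x, y⁆ ≤
        (Subgroup.zpowers y ⊔ Subgroup.zpowers ⁅x, y⁆).comap (MulAut.conj x).toMonoidHom := by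
      refine sup_le (Subgroup.zpowers_le.2 ?_) (Subgroup.zpowers_le.2 ?_)
      · change x * y * x⁻¹ ∈ Subgroup.zpowers y ⊔ Subgroup.zpowers ⁅x, y⁆
        rw [show x * y * x⁻¹ = ⁅x, y⁆ * y by rw [commutatorElement_def]; group]
        exact mul_mem (Subgroup.mem_sup_right (Subgroup.mem_zpowers _))
          (Subgroup.mem_sup_left (Subgroup.mem_zpowers _))
      · change x * ⁅x, y⁆ * x⁻¹ ∈ Subgroup.zpowers y ⊔ Subgroup.zpowers ⁅x, y⁆
        rw [h1.eq, mul_inv_cancel_right]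
        exact Subgroup.mem_sup_right (Subgroup.mem_zpowers _)
    exact this hn
  exact ⟨_, (pg_zpowers hx).to_sup_of_normal_right' ((pg_zpowers hy).to_sup_of_normal_right'
    (pg_zpowers hz) n1) n2, Subgroup.mem_sup_left (Subgroup.mem_zpowers _),
    Subgroup.mem_sup_right (Subgroup.mem_sup_left (Subgroup.mem_zpowers _))⟩

variable {k : Type*} [Field k] [IsAlgClosed k] {P : Subgroup (G4 k)}

theorem heisX (C : Core P) (hT : ¬ HasTv P) {X : Type*} [Group X] (e : Bar P ≃* X ⧸ Subgroup.center X)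
    {p : ℕ} (hp : p.Prime) (ho : Odd p) {x y z : X} (hx : x ^ p = 1) (hy : y ^ p = 1) (hz : z ^ p = 1)
    (hc : ⁅x, y⁆ = z) (h1 : Commute x z) (h2 : Commute y z) (hn : z ∉ Subgroup.center X) :
    p = 3 ∧ (3 : k) ≠ 0 ∧ ¬ IsConj z z⁻¹ := by
  have := C.finite_bar
  have := Fact.mk hp
  let φ : X →* Bar P := e.symm.toMonoidHom.comp (QuotientGroup.mk' _)
  have hc' : ⁅φ x, φ y⁆ = φ z := by rw [← hc, map_commutatorElement]
  have hz' : φ z ^ p = 1 := by rw [← map_pow, hz, map_one]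
  have hn' : φ z ≠ 1 := fun h => hn ((QuotientGroup.eq_one_iff z).1 (e.symm.map_eq_one_iff.1 h))
  obtain ⟨H, hH, mx, my⟩ := exists_pg (p := p) (x := φ x) (y := φ y) (by rw [← map_pow, hx, map_one])
    (by rw [← map_pow, hy, map_one]) (hc' ▸ hz') (hc' ▸ h1.map φ) (hc' ▸ h2.map φ)
  obtain ⟨a, b, c⟩ := C.heis hT hp ho hH mx my (hc' ▸ orderOf_eq_prime hz' hn') (hc' ▸ h1.map φ)
    (hc' ▸ h2.map φ)
  exact ⟨a, b, fun h => c (by rw [hc', ← map_inv]; exact φ.map_isConj h)⟩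

theorem no_inv (C : Core P) (hT : ¬ HasTv P) {X : Type*} [Group X] (e : Bar P ≃* X ⧸ Subgroup.center X)
    {p : ℕ} (hp : p.Prime) (ho : Odd p) {x y z d : X} (hx : x ^ p = 1) (hy : y ^ p = 1) (hz : z ^ p = 1)
    (hc : ⁅x, y⁆ = z) (h1 : Commute x z) (h2 : Commute y z) (hn : z * z ≠ 1) (hd : z * d * z = d) : False := by
  have hd' : d * z * d⁻¹ = z⁻¹ := by
    rw [eq_inv_iff_mul_eq_one, ← mul_left_cancel_iff (a := z), ← mul_right_cancel_iff (a := z⁻¹ * d)]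
    calc _ = z * d * z := by group
      _ = _ := by rw [hd]; group
  refine (heisX C hT e hp ho hx hy hz hc h1 h2 fun h => hn ?_).2.2 (isConj_iff.2 ⟨d, hd'⟩)
  rw [Subgroup.mem_center_iff.1 h d, mul_inv_cancel_right] at hd'
  exact eq_inv_iff_mul_eq_one.1 hd'

open CL.XI.SLU

section U
variable {K : Type*} [Field K]

theorem u_rel {p : ℕ} [CharP K p] (t : K) :
    U (-1 : K) 0 0 0 0 1 ^ p = 1 ∧ U 0 t t 0 t 0 ^ p = 1 ∧ U 0 0 (-(2 * t)) 0 0 0 ^ p = 1 ∧
    ⁅U (-1 : K) 0 0 0 0 1, U 0 t t 0 t 0⁆ = U 0 0 (-(2 * t)) 0 0 0 ∧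
    Commute (U (-1 : K) 0 0 0 0 1) (U 0 0 (-(2 * t)) 0 0 0) ∧
    Commute (U 0 t t 0 t 0) (U 0 0 (-(2 * t)) 0 0 0) := by
  have c : ∀ {x y w : SL(4, K)}, x * y = w * y * x → ⁅x, y⁆ = w := fun e => by
    rw [commutatorElement_def, e]; group
  refine ⟨?_, ?_, ?_, c ?_, (?_ : _ = _), (?_ : _ = _)⟩
  iterate 3 rw [U_pow (by ring) (by ring) (by ring), U_one]; simp
  all_goals simp only [U_mul]
  all_goals refine U_ext ?_ ?_ ?_ ?_ ?_ ?_
  all_goals ring1

theorem zz_ne {t : K} (two : (2 : K) ≠ 0) (h : t ≠ 0) :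
    U 0 0 (-(2 * t)) 0 0 0 * U 0 0 (-(2 * t)) 0 0 0 ≠ (1 : SL(4, K)) := by
  rw [U_mul]
  intro e
  refine z_ne (t := 2 * t) (mul_ne_zero two (mul_ne_zero two h)) (Eq.trans ?_ e)
  refine U_ext ?_ ?_ ?_ ?_ ?_ ?_ <;> ring1

/-- diagonal matrices -/
def Dg (a b c : K) (h : a * b * c * a = -1) : SL(4, K) := ⟨!![a, 0, 0, 0; 0, b, 0, 0; 0, 0, c, 0; 0, 0, 0, -a], by
  rw [Matrix.det_of_isUpperTriangular (by
    intro i j h; fin_cases i <;> fin_cases j <;> first | rfl | exact absurd h (by decide))]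
  simp [Fin.prod_univ_four, h]⟩

theorem z_inv (a b c : K) (h : a * b * c * a = -1) (t : K) :
    U 0 0 t 0 0 0 * Dg a b c h * U 0 0 t 0 0 0 = Dg a b c h := Subtype.ext (by
  change (U 0 0 t 0 0 0).1 * (Dg a b c h).1 * (U 0 0 t 0 0 0).1 = _
  ext i j
  fin_cases i <;> fin_cases j <;> simp [U, Dg, Matrix.mul_apply, Fin.sum_univ_four, mul_comm])

end U

theorem odd_char {K : Type*} [Field K] [Fintype K] (ho : Odd (Fintype.card K)) :
    ∃ p n : ℕ, p.Prime ∧ Odd p ∧ CharP K p ∧ Fintype.card K = p ^ (n + 1) ∧ (2 : K) ≠ 0 := by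
  obtain ⟨p, hc, ⟨n, hn0⟩, hp, hn⟩ := FiniteField.card' K
  obtain ⟨n, rfl⟩ : ∃ m, n = m + 1 := ⟨n - 1, by omega⟩
  have hn' : Fintype.card K = p ^ (n + 1) := hn
  have hpo : Odd p := by
    rw [hn', pow_succ] at ho
    exact Odd.of_dvd_nat ho (dvd_mul_left _ _)
  refine ⟨p, n, hp, hpo, hc, hn', fun h => ?_⟩
  rw [(Nat.prime_dvd_prime_iff_eq hp Nat.prime_two).1 ((CharP.cast_eq_zero_iff K p 2).1 h)] at hpo
  exact absurd hpo (by decide)

theorem sl4 (C : Core P) (hT : ¬ HasTv P) {K : Type} [Field K] [Fintype K] (ho : Odd (Fintype.card K))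
    (e : Bar P ≃* PSL(4, K)) : False := by
  obtain ⟨p, -, hp, hpo, hc, -, two⟩ := odd_char ho
  obtain ⟨a, b, c, d, f, g⟩ := u_rel (p := p) (1 : K)
  exact no_inv C hT e hp hpo a b c d f g (zz_ne two one_ne_zero) (z_inv 1 1 (-1) (by ring) _)

theorem su4 (C : Core P) (hT : ¬ HasTv P) {K : Type} [Field K] [Fintype K] {r : ℕ}
    (hK : Fintype.card K = r ^ 2) (ho : Odd r) (e : Bar P ≃* PSU 4 K r) : False := by
  obtain ⟨p, -, hp, hpo, hc, -, two⟩ := odd_char (K := K) (hK ▸ ho.pow)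
  let σ : K →+* K := SqField.conj hK
  have hσ : ∀ x, x ^ r = σ x := fun _ => rfl
  have σσ : ∀ x, σ (σ x) = x := SqField.conj_conj hK
  obtain ⟨ε, hε⟩ := SqField.exists_mul_pow_q_eq hK (μ := -1) (by rw [hσ, map_neg, map_one])
  rw [hσ] at hε
  obtain ⟨θ, θ0, sθ⟩ : ∃ θ : K, θ ≠ 0 ∧ σ θ = -θ := by
    obtain ⟨x, hx⟩ : ∃ x : K, x ^ r ≠ x := by
      by_contra! h
      have h1 := SqField.card_fixed hK
      rw [Nat.card_congr (Equiv.subtypeUnivEquiv h), Nat.card_eq_fintype_card, hK] at h1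
      have := SqField.two_le hK
      nlinarith
    exact ⟨x - σ x, fun h => hx (sub_eq_zero.1 h).symm, by rw [map_sub, σσ, neg_sub]⟩
  obtain ⟨h, hh⟩ : ∃ h : K, 2 * h = 1 := ⟨2⁻¹, mul_inv_cancel₀ two⟩
  have sh : σ h = h := mul_left_cancel₀ two (by rw [hh, ← map_ofNat σ 2, ← map_mul, hh, map_one])
  let Q : Matrix (Fin 4) (Fin 4) K := !![1, 0, 0, h; ε, 0, 0, -(ε * h); 0, 1, h, 0; 0, ε, -(ε * h), 0]
  have hP : Qᵀ * Q.map σ = Jm := by
    ext i j
    fin_cases i <;> fin_cases j <;> simp [Q, Jm, Matrix.mul_apply, Fin.sum_univ_four, sh] <;>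
      first
        | linear_combination hε
        | linear_combination hh - h * hε
        | linear_combination h * h * hε
  have hJ : (Jm : Matrix (Fin 4) (Fin 4) K) * Jm = 1 := by
    ext i j
    fin_cases i <;> fin_cases j <;> simp [Jm, Matrix.mul_apply, Fin.sum_univ_four]
  have hP' : (Q.map σ * Jm)ᵀ * Q = 1 := by
    rw [← transpose_transpose Q, ← transpose_mul, transpose_transpose, ← Matrix.mul_assoc, hP, hJ,
      transpose_one]
  let c := CL.XI.SLU.cj hP'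
  obtain ⟨r1, r2, r3, r4, r5, r6⟩ := u_rel (p := p) θ
  have m0 : c (U (-1) 0 0 0 0 1) ∈ Cfsg.SU 4 K r := cj_mem σ hσ hP' hP (by
    ext i j
    fin_cases i <;> fin_cases j <;> simp [U, Jm, Matrix.mul_apply, Fin.sum_univ_four])
  have m1 : c (U 0 θ θ 0 θ 0) ∈ Cfsg.SU 4 K r := cj_mem σ hσ hP' hP (by
    ext i j
    fin_cases i <;> fin_cases j <;> simp [U, Jm, Matrix.mul_apply, Fin.sum_univ_four, sθ])
  have mz : c (U 0 0 (-(2 * θ)) 0 0 0) ∈ Cfsg.SU 4 K r := by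
    rw [← r4, map_commutatorElement]; exact mul_mem (mul_mem (mul_mem m0 m1) (inv_mem m0)) (inv_mem m1)
  have hd : ε * -σ ε * σ ε * ε = -1 := by linear_combination (1 - ε * σ ε) * hε
  have md : c (Dg ε (-σ ε) (σ ε) hd) ∈ Cfsg.SU 4 K r := cj_mem σ hσ hP' hP (by
    ext i j
    fin_cases i <;> fin_cases j <;> simp [Dg, Jm, Matrix.mul_apply, Fin.sum_univ_four, σσ] <;>
      linear_combination -hε)
  refine no_inv C hT e hp hpo (x := ⟨_, m0⟩) (y := ⟨_, m1⟩) (z := ⟨_, mz⟩) (d := ⟨_, md⟩)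
    (Subtype.ext ?_) (Subtype.ext ?_) (Subtype.ext ?_) (Subtype.ext ?_) (Subtype.ext (r5.map c).eq)
    (Subtype.ext (r6.map c).eq) (fun h => zz_ne two θ0 (CL.XI.SLU.cj_inj hP' ?_)) (Subtype.ext ?_)
  · exact (map_pow c _ p).symm.trans (by rw [r1, map_one]; rfl)
  · exact (map_pow c _ p).symm.trans (by rw [r2, map_one]; rfl)
  · exact (map_pow c _ p).symm.trans (by rw [r3, map_one]; rfl)
  · exact (map_commutatorElement c _ _).symm.trans (congrArg c r4)
  · exact (map_mul c _ _).trans ((congrArg Subtype.val h).trans (map_one c).symm)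
  · change c _ * c _ * c _ = c _
    rw [← map_mul, ← map_mul, z_inv]

section Sp
variable {K : Type*} [Field K]

/-- the Siegel radical -/
def Sg (a b c : K) : symplecticGroup (Fin 2) K := ⟨fromBlocks 1 !![a, b; b, c] 0 1, by
  rw [SymplecticGroup.mem_iff]
  ext (i | i) (j | j) <;> fin_cases i <;> fin_cases j <;>
    simp [J, fromBlocks_multiply, fromBlocks_transpose]⟩

/-- the Levi element -/
def Lv (a : K) : symplecticGroup (Fin 2) K := ⟨fromBlocks !![1, a; 0, 1] 0 0 !![1, 0; -a, 1], by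
  rw [SymplecticGroup.mem_iff]
  ext (i | i) (j | j) <;> fin_cases i <;> fin_cases j <;>
    simp [J, fromBlocks_multiply, fromBlocks_transpose, Matrix.mul_apply, Fin.sum_univ_two]⟩

theorem Sg_mul (a b c a' b' c' : K) : Sg a b c * Sg a' b' c' = Sg (a + a') (b + b') (c + c') :=
  Subtype.ext (by
    change (Sg a b c).1 * (Sg a' b' c').1 = _
    ext (i | i) (j | j) <;> fin_cases i <;> fin_cases j <;> simp [Sg, fromBlocks_multiply, add_comm])

theorem Sg_zero : Sg (0 : K) 0 0 = 1 := Subtype.ext (by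
  ext (i | i) (j | j) <;> fin_cases i <;> fin_cases j <;> simp [Sg])

theorem Lv_mul (a a' : K) : Lv a * Lv a' = Lv (a + a') :=
  Subtype.ext (by
    change (Lv a).1 * (Lv a').1 = _
    ext (i | i) (j | j) <;> fin_cases i <;> fin_cases j <;> simp [Lv, fromBlocks_multiply, add_comm])

theorem Lv_zero : Lv (0 : K) = 1 := Subtype.ext (by
  ext (i | i) (j | j) <;> fin_cases i <;> fin_cases j <;> simp [Lv])

theorem Lv_Sg (t a b : K) : Lv t * Sg a b 0 = Sg (a + 2 * t * b) b 0 * Lv t :=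
  Subtype.ext (by
    change (Lv t).1 * (Sg a b 0).1 = (Sg _ b 0).1 * (Lv t).1
    ext (i | i) (j | j) <;> fin_cases i <;> fin_cases j <;> simp [Lv, Sg, fromBlocks_multiply] <;> ring)

theorem Sg_pow (a b c : K) (n : ℕ) : Sg a b c ^ n = Sg (n * a) (n * b) (n * c) := by
  induction n with
  | zero => simp [Sg_zero]
  | succ n ih => rw [pow_succ, ih, Sg_mul]; push_cast; congr 1 <;> ring

theorem Lv_pow (a : K) (n : ℕ) : Lv a ^ n = Lv (n * a) := by
  induction n with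
  | zero => simp [Lv_zero]
  | succ n ih => rw [pow_succ, ih, Lv_mul]; push_cast; congr 1; ring

theorem Sg_center {a b c : K} (h : Sg a b c ∈ Subgroup.center (symplecticGroup (Fin 2) K)) :
    a = 0 ∧ b = 0 ∧ c = 0 := by
  have e : (SymplecticGroup.symJ (Fin 2) K).1 * (Sg a b c).1 = (Sg a b c).1 * (SymplecticGroup.symJ (Fin 2) K).1 :=
    congrArg Subtype.val (Subgroup.mem_center_iff.1 h _)
  have e1 := congrFun (congrFun e (.inl 0)) (.inl 0)
  have e2 := congrFun (congrFun e (.inl 0)) (.inl 1)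
  have e3 := congrFun (congrFun e (.inl 1)) (.inl 1)
  simp [SymplecticGroup.symJ, Sg, J, fromBlocks_multiply] at e1 e2 e3
  exact ⟨e1.symm, e2.symm, e3.symm⟩

/-- the Siegel radical as a homomorphism -/
def SgH : Multiplicative (K × K × K) →* symplecticGroup (Fin 2) K :=
  MonoidHom.mk' (fun v => Sg v.toAdd.1 v.toAdd.2.1 v.toAdd.2.2) fun _ _ => (Sg_mul ..).symm

end Sp

theorem sp4 (C : Core P) (hT : ¬ HasTv P) {K : Type} [Field K] [Fintype K] (ho : Odd (Fintype.card K))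
    (e : Bar P ≃* PSp 2 K) : Fintype.card K = 3 ∧ (3 : k) ≠ 0 := by
  obtain ⟨p, n, hp, hpo, hc, hn, two⟩ := odd_char ho
  obtain ⟨rfl, h3, -⟩ := heisX C hT e hp hpo (x := Lv 1) (y := Sg 0 1 0) (z := Sg 2 0 0)
    (by rw [Lv_pow]; simp [Lv_zero]) (by rw [Sg_pow]; simp [Sg_zero]) (by rw [Sg_pow]; simp [Sg_zero])
    (by
      rw [commutatorElement_def, Lv_Sg, mul_inv_cancel_right, mul_inv_eq_iff_eq_mul, Sg_mul]
      congr 1 <;> ring)
    (by
      change _ * _ = _ * _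
      rw [Lv_Sg]; simp)
    (by
      change _ * _ = _ * _
      rw [Sg_mul, Sg_mul]; simp)
    fun h => two (Sg_center h).1
  refine ⟨?_, h3⟩
  let φ : Multiplicative (K × K × K) →* Bar P := (e.symm.toMonoidHom.comp (QuotientGroup.mk' _)).comp SgH
  have hφ : Function.Injective φ := (injective_iff_map_eq_one _).2 fun v h => by
    obtain ⟨a, b, c⟩ := Sg_center ((QuotientGroup.eq_one_iff (SgH v)).1 (e.symm.map_eq_one_iff.1 h))
    exact Multiplicative.toAdd.injective (Prod.ext a (Prod.ext b c))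
  have hE : IsElementaryAbelian 3 φ.range := ⟨⟨⟨by
    rintro ⟨_, a, rfl⟩ ⟨_, b, rfl⟩
    exact Subtype.ext ((map_mul φ _ _).symm.trans ((congrArg φ (mul_comm a b)).trans (map_mul φ _ _)))⟩⟩, by
    rintro _ ⟨a, rfl⟩
    rw [← map_pow, show a ^ 3 = 1 from Multiplicative.toAdd.injective (by
      have : ((3 : ℕ) : K) = 0 := CharP.cast_eq_zero K 3
      rw [toAdd_pow, toAdd_one, ← Nat.cast_smul_eq_nsmul K, this, zero_smul]), map_one]⟩
  have h := C.odd_rank hp hpo (by exact_mod_cast h3) hE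
  rw [← Nat.card_congr (MonoidHom.ofInjective hφ).toEquiv] at h
  simp only [Nat.card_eq_fintype_card, Fintype.card_multiplicative, Fintype.card_prod, hn] at h
  rw [← pow_add, ← pow_add] at h
  have := (Nat.pow_le_pow_iff_right (by norm_num)).1 h
  obtain rfl : n = 0 := by omega
  exact hn

end Lie

variable {k : Type*} [Field k] [IsAlgClosed k] {P : Subgroup (G4 k)}

theorem lie_case (h2 : (2 : k) ≠ 0) (C : Core P) (hT : ¬ HasTv P) (hJ : ¬ HasJ P) (h : IsLie4 (Bar P)) :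
    IsU42 (Bar P) ∧ (3 : k) ≠ 0 := by
  rcases h with ⟨K, _, _, ho, ⟨e⟩⟩ | ⟨K, _, _, ho, ⟨e⟩⟩ | ⟨K, _, _, r, hK, ho, ⟨e⟩⟩
  · obtain ⟨h3, h0⟩ := Lie.sp4 C hT ho e
    let F := GaloisField 2 2
    let _ : Fintype F := Fintype.ofFinite F
    have hF : Fintype.card F = 4 := by
      rw [← Nat.card_eq_fintype_card]; exact GaloisField.card 2 2 two_ne_zero
    exact ⟨⟨F, inferInstance, inferInstance, hF, ⟨e.trans (Cfsg.Agent.S0822.result hF h3).some.symm⟩⟩, h0⟩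
  · exact (Lie.sl4 C hT ho e).elim
  · exact (Lie.su4 C hT hK ho e).elim

end CL.D4
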