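import Cfsg.Agent.CLAS.D4.Def
import Cfsg.Agent.CLAS.OrthIso6

/-!
# Alternating `4 × 4` matrices: Clifford relations, quaternion pairs, seven vectors
-/

set_option autoImplicit false

namespace CL.D4.N

open Matrix Cfsg Cfsg.Geo CL.Asch CL.OrthE Module Equiv

section Ring

variable {R : Type*} [CommRing R]

/-- the alternating matrices -/
def W (R : Type*) [CommRing R] : Submodule R (M4 R) where
  carrier := {A | ∃ a b c d e f, A = alt4 a b c d e f}
  add_mem' := by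
    rintro _ _ ⟨a, b, c, d, e, f, rfl⟩ ⟨a', b', c', d', e', f', rfl⟩
    exact ⟨_, _, _, _, _, _, alt4_add ..⟩
  zero_mem' := ⟨_, _, _, _, _, _, alt4_zero.symm⟩
  smul_mem' := by
    rintro s _ ⟨a, b, c, d, e, f, rfl⟩
    exact ⟨_, _, _, _, _, _, alt4_smul ..⟩

/-- the action on alternating matrices -/
def act (g A : M4 R) : M4 R := g * A * gᵀ

/-- the Hodge dual -/
def hd (A : M4 R) : M4 R := alt4 (A 2 3) (-A 1 3) (A 1 2) (A 0 3) (-A 0 2) (A 0 1)

/-- the polar form of the Pfaffian -/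
def bl (A B : M4 R) : R := A 0 1 * B 2 3 - A 0 2 * B 1 3 + A 0 3 * B 1 2 +
  (B 0 1 * A 2 3 - B 0 2 * A 1 3 + B 0 3 * A 1 2)

variable {g h A B C : M4 R}

theorem act_mul : act (g * h) A = act g (act h A) := by simp only [act, transpose_mul, mul_assoc]

theorem act_one : act 1 A = A := by simp [act]

theorem act_add : act g (A + B) = act g A + act g B := by simp only [act, mul_add, add_mul]

theorem act_sub : act g (A - B) = act g A - act g B := by simp only [act, mul_sub, sub_mul]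

theorem act_smul (c : R) : act g (c • A) = c • act g A := by simp [act]

theorem smul_act (c : R) : act (c • g) A = (c * c) • act g A := by simp [act, smul_smul]

theorem act_mem (hA : A ∈ W R) : act g A ∈ W R := by
  obtain ⟨a, b, c, d, e, f, rfl⟩ := hA
  exact ⟨_, _, _, _, _, _, alt4_conj g a b c d e f rfl⟩

theorem act_map {S : Type*} [CommRing S] (f : R →+* S) : (act g A).map f = act (g.map f) (A.map f) := by
  simp only [act, Matrix.map_mul, transpose_map]

theorem map_mem {S : Type*} [CommRing S] (f : R →+ S) (hA : A ∈ W R) : A.map f ∈ W S := by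
  obtain ⟨a, b, c, d, e, f', rfl⟩ := hA
  exact ⟨f a, f b, f c, f d, f e, f f', by ext i j; fin_cases i <;> fin_cases j <;> simp [alt4]⟩

theorem hd_mem : hd A ∈ W R := ⟨_, _, _, _, _, _, rfl⟩

theorem hd_hd (hA : A ∈ W R) : hd (hd A) = A := by
  obtain ⟨a, b, c, d, e, f, rfl⟩ := hA
  simp [hd, alt4]

theorem hd_add : hd (A + B) = hd A + hd B := by simp [hd, alt4_add, add_comm]

theorem hd_smul (c : R) : hd (c • A) = c • hd A := by simp [hd, alt4_smul]

theorem hd_sub : hd (A - B) = hd A - hd B := by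
  rw [eq_sub_iff_add_eq, ← hd_add, sub_add_cancel]

theorem hd_map {S : Type*} [CommRing S] (f : R →+* S) : (hd A).map f = hd (A.map f) := by
  simp [hd, alt4_map]

theorem tp (hA : A ∈ W R) : Aᵀ = -A := by
  obtain ⟨a, b, c, d, e, f, rfl⟩ := hA
  ext i j; fin_cases i <;> fin_cases j <;> simp [alt4]

theorem bl_comm : bl A B = bl B A := add_comm _ _

theorem bl_self : bl A A = 2 * pf4 A := by simp only [bl, pf4]; ring

theorem bl_add : bl (A + B) C = bl A C + bl B C := by simp only [bl, Matrix.add_apply]; ring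

theorem bl_sub : bl (A - B) C = bl A C - bl B C := by simp only [bl, Matrix.sub_apply]; ring

theorem bl_smul (c : R) : bl (c • A) B = c * bl A B := by
  simp only [bl, Matrix.smul_apply, smul_eq_mul]; ring

theorem bl_add' : bl C (A + B) = bl C A + bl C B := by simp only [bl, Matrix.add_apply]; ring

theorem bl_sub' : bl C (A - B) = bl C A - bl C B := by simp only [bl, Matrix.sub_apply]; ring

theorem bl_hd : bl (hd A) (hd B) = bl A B := by simp [bl, hd, alt4]; ring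

theorem pf_hd : pf4 (hd A) = pf4 A := by simp [pf4, hd, alt4]; ring

theorem bl_act (hA : A ∈ W R) (hB : B ∈ W R) : bl (act g A) (act g B) = g.det * bl A B := by
  obtain ⟨a, b, c, d, e, f, rfl⟩ := hA
  obtain ⟨a', b', c', d', e', f', rfl⟩ := hB
  simp only [bl, act, alt4_conj_apply, det_four, alt4_01, alt4_02, alt4_03, alt4_12, alt4_13, alt4_23]
  ring

theorem pf_act (hA : A ∈ W R) : pf4 (act g A) = g.det * pf4 A := by
  obtain ⟨a, b, c, d, e, f, rfl⟩ := hA
  exact pf4_conj ..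

theorem hd_act (hA : A ∈ W R) : gᵀ * hd (act g A) * g = g.det • hd A := by
  obtain ⟨a, b, c, d, e, f, rfl⟩ := hA
  exact hodge_conj g a b c d e f rfl

theorem clif (hA : A ∈ W R) (hB : B ∈ W R) : A * hd B = -(bl B A • 1) - B * hd A := by
  obtain ⟨a, b, c, d, e, f, rfl⟩ := hA
  obtain ⟨a', b', c', d', e', f', rfl⟩ := hB
  ext i j
  fin_cases i <;> fin_cases j <;> simp [bl, hd, alt4, mul_apply, Fin.sum_univ_four] <;> ring

theorem hd_mul (hA : A ∈ W R) : hd A * A = -(pf4 A • 1) := by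
  obtain ⟨a, b, c, d, e, f, rfl⟩ := hA
  ext i j
  fin_cases i <;> fin_cases j <;> simp [pf4, hd, alt4, mul_apply, Fin.sum_univ_four] <;> ring

theorem mul_hd (hA : A ∈ W R) : A * hd A = -(pf4 A • 1) := by
  have := hd_mul (hd_mem (A := A))
  rwa [hd_hd hA, pf_hd] at this

theorem sandwich (hA : A ∈ W R) (hB : B ∈ W R) : A * hd B * A = pf4 A • B - bl B A • A := by
  rw [clif hA hB, sub_mul, mul_assoc, hd_mul hA]
  simp [sub_eq_add_neg, add_comm]

end Ring

variable {k : Type*} [Field k]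

/-- the reflection -/
def rf (R Y : M4 k) : M4 k := Y - (bl Y R / pf4 R) • R

theorem bl_rf (R Y Z : M4 k) : bl (rf R Y) Z = bl Y Z - bl Y R / pf4 R * bl R Z := by
  rw [rf, bl_sub, bl_smul]

theorem pf_rf {R : M4 k} (h : pf4 R ≠ 0) (Y : M4 k) : pf4 (rf R Y) = pf4 Y := by
  have : ∀ c, pf4 (Y - c • R) = pf4 Y - c * bl Y R + c * c * pf4 R := fun c => by
    simp only [bl, pf4, Matrix.sub_apply, Matrix.smul_apply, smul_eq_mul]; ring
  rw [rf, this]
  field_simp
  ring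

/-- the product of two reflections is induced by a matrix -/
theorem exists_el {R R' : M4 k} (hR : R ∈ W k) (hR' : R' ∈ W k) (h : pf4 R' = pf4 R) (h0 : pf4 R ≠ 0) :
    ∃ g : G4 k, (∀ Y ∈ W k, act g.1 Y = rf R (rf R' Y)) ∧ g.1.det = 1 ∧
      ∀ f : k →+* k, hd (R.map f) = R → hd (R'.map f) = R' → (g.1.map f)ᵀ * g.1 = 1 := by
  have k1 : ∀ {A B : M4 k}, A ∈ W k → B ∈ W k → pf4 A = pf4 R → pf4 B = pf4 R →
      (-(pf4 R)⁻¹ • (A * hd B)) * (-(pf4 R)⁻¹ • (B * hd A)) = 1 := fun {A B} hA hB e1 e2 => by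
    rw [smul_mul_smul_comm, mul_assoc, ← mul_assoc (hd B), hd_mul hB, neg_mul (_ : M4 k), smul_one_mul, mul_neg A,
      mul_smul_comm, mul_hd hA, e1, e2]
    rw [smul_neg, smul_neg, smul_neg, neg_neg, smul_smul, smul_smul, show _ * pf4 R = 1 by field_simp, one_smul]
  have k2 : ∀ Y ∈ W k, act (-(pf4 R)⁻¹ • (R * hd R')) Y = rf R (rf R' Y) := fun Y hY => by
    have h1 := sandwich (hd_mem (A := R')) (hd_mem (A := Y))
    have h2 : rf R' Y ∈ W k := sub_mem hY (Submodule.smul_mem _ _ hR')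
    rw [hd_hd hY, pf_hd, bl_hd] at h1
    have h3 : hd R' * Y * hd R' = pf4 R • hd (rf R' Y) := by
      rw [h1, rf, hd_sub, hd_smul, smul_sub, smul_smul, h, mul_div_cancel₀ _ h0]
    rw [smul_act, act_mul, act, act, tp hR, tp hd_mem, mul_neg (_ : M4 k), mul_neg (_ : M4 k), mul_neg R,
      neg_mul (_ : M4 k), neg_neg, h3, mul_smul_comm, smul_mul_assoc, sandwich hR h2, rf.eq_1 R]
    simp only [smul_sub, smul_smul]
    congr 1
    · rw [show -(pf4 R)⁻¹ * -(pf4 R)⁻¹ * (pf4 R * pf4 R) = 1 by field_simp, one_smul]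
    · congr 1; field_simp
  refine ⟨⟨_, _, k1 hR hR' rfl h, k1 hR' hR h rfl⟩, k2, mul_right_cancel₀ h0 ?_, fun f e1 e2 => ?_⟩
  · rw [← pf_act hR, k2 _ hR, pf_rf h0, pf_rf (h ▸ h0), one_mul]
  · have e3 : R.map f = hd R := (hd_hd (map_mem (f : k →+ k) hR)).symm.trans (congrArg hd e1)
    have e4 : f (pf4 R) = pf4 R := (by simp [pf4] : _ = pf4 (R.map f)).trans (e3 ▸ pf_hd)
    rw [← k1 hR' hR h rfl]
    congr 1
    rw [Matrix.map_smul' _ _ _ (map_mul f), Matrix.map_mul, hd_map, e2, e3, map_neg, map_inv₀, e4, transpose_smul,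
      transpose_mul, tp hR', tp hd_mem, neg_mul_neg]

/-- normal form of a quaternion pair -/
theorem exists_nf (h2 : (2 : k) ≠ 0) {i : k} (hi : i * i = -1) {a b : M4 k} (ha : a * a = -1) (hb : b * b = -1)
    (h : a * b = -(b * a)) : ∃ X : G4 k, a * X.1 = X.1 * diagonal ![i, i, -i, -i] ∧
      b * X.1 = X.1 * !![0, 0, -1, 0; 0, 0, 0, -1; 1, 0, 0, 0; 0, 1, 0, 0] := by
  let E : Submodule k (V4 k) := End.eigenspace (toLin' a) i
  have hE : ∀ {v}, v ∈ E ↔ a *ᵥ v = i • v := End.mem_eigenspace_iff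
  have h1 : ∀ v, a *ᵥ b *ᵥ v = -(b *ᵥ a *ᵥ v) := fun v => by rw [mulVec_mulVec, h, neg_mulVec, mulVec_mulVec]
  have h3 : ∀ v, b *ᵥ b *ᵥ v = -v := fun v => by rw [mulVec_mulVec, hb, neg_mulVec, one_mulVec]
  have h4 : ∀ v, a *ᵥ a *ᵥ v = -v := fun v => by rw [mulVec_mulVec, ha, neg_mulVec, one_mulVec]
  have h5 : ∀ x ∈ E, ∀ y ∈ E, x + b *ᵥ y = 0 → x = 0 ∧ y = 0 := fun x hx y hy e => by
    have e1 := congrArg (a *ᵥ ·) e
    simp only [mulVec_add, h1, hE.1 hx, hE.1 hy, mulVec_smul, mulVec_zero] at e1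
    have e2 : x = 0 := by
      have : (2 * i) • x = 0 := by linear_combination (norm := module) e1 + i • e
      exact (smul_eq_zero.1 this).resolve_left (mul_ne_zero h2 fun e => by simp [e] at hi)
    rw [e2, zero_add] at e
    exact ⟨e2, by simpa [e] using h3 y⟩
  let φ : (E × E) →ₗ[k] V4 k := E.subtype.coprod (toLin' b ∘ₗ E.subtype)
  have h6 : finrank k (E × E) = finrank k (V4 k) := (LinearEquiv.ofBijective φ ⟨(injective_iff_map_eq_zero _).2
    fun x e => Prod.ext (Subtype.ext (h5 _ x.1.2 _ x.2.2 e).1) (Subtype.ext (h5 _ x.1.2 _ x.2.2 e).2),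
    fun y => ⟨(⟨(2 : k)⁻¹ • (y - i • a *ᵥ y), hE.2 ?_⟩, ⟨-(2 : k)⁻¹ • b *ᵥ (y + i • a *ᵥ y), hE.2 ?_⟩), ?_⟩⟩).finrank_eq
  · rw [finrank_prod, finrank_fin_fun] at h6
    let v := finBasisOfFinrankEq k E (show finrank k E = 2 by omega)
    let X : M4 k := (of ![(v 0).1, (v 1).1, b *ᵥ (v 0).1, b *ᵥ (v 1).1])ᵀ
    have hX : X.det ≠ 0 := fun e => by
      obtain ⟨c, hc, e⟩ := exists_mulVec_eq_zero_iff.2 e
      obtain ⟨e1, e2⟩ := h5 _ (c 0 • v 0 + c 1 • v 1).2 _ (c 2 • v 0 + c 3 • v 1).2 (by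
        rw [← e]
        simp [X, mulVec_add, mulVec_smul, mulVec_transpose, vecMul_eq_sum, Fin.sum_univ_four, add_assoc]
        rfl)
      have l : LinearIndependent k ![v 0, v 1] :=
        (show ![v 0, v 1] = v by ext1 j; fin_cases j <;> rfl) ▸ v.linearIndependent
      obtain ⟨a0, a1⟩ := LinearIndependent.pair_iff.1 l _ _ (Subtype.ext e1)
      obtain ⟨a2, a3⟩ := LinearIndependent.pair_iff.1 l _ _ (Subtype.ext e2)
      exact hc (by ext j; fin_cases j <;> assumption)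
    refine ⟨GeneralLinearGroup.mkOfDetNeZero X hX, ?_, ?_⟩
    · ext r s
      change (a *ᵥ (![(v 0).1, (v 1).1, b *ᵥ (v 0).1, b *ᵥ (v 1).1] s)) r = (X * _) r s
      fin_cases s <;> simp [-mulVec_mulVec, X, h1, hE.1 (v 0).2, hE.1 (v 1).2, mulVec_smul, mul_comm]
    · ext r s
      change (b *ᵥ (![(v 0).1, (v 1).1, b *ᵥ (v 0).1, b *ᵥ (v 1).1] s)) r = (X * _) r s
      fin_cases s <;> simp [-mulVec_mulVec, X, h3, mul_apply, Fin.sum_univ_four]
  · simp only [mulVec_smul, mulVec_sub, h4]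
    linear_combination (norm := module) (hi * (2 : k)⁻¹) • a *ᵥ y
  · simp only [mulVec_smul, mulVec_add, h4, h1, mulVec_neg]
    linear_combination (norm := module) (hi * (2 : k)⁻¹) • b *ᵥ a *ᵥ y
  · simp only [φ, LinearMap.coprod_apply, LinearMap.comp_apply, Submodule.subtype_apply, toLin'_apply,
      mulVec_smul, h3]
    linear_combination (norm := module) (mul_inv_cancel₀ h2) • y

/-- a pair of matrices generating a quaternion group -/
structure QP (a b : M4 k) : Prop where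
  a2 : a * a = -1
  b2 : b * b = -1
  ab : a * b = -(b * a)

theorem QP.map {K : Type*} [Field K] (f : k →+* K) {a b : M4 k} (h : QP a b) : QP (a.map f) (b.map f) := by
  have h1 : (-1 : M4 k).map f = -1 := by rw [Matrix.map_neg _ (map_neg f), Matrix.map_one _ f.map_zero f.map_one]
  exact ⟨by rw [← Matrix.map_mul, h.a2, h1], by rw [← Matrix.map_mul, h.b2, h1], by
    rw [← Matrix.map_mul, h.ab, Matrix.map_neg _ (map_neg f), Matrix.map_mul]⟩

/-- coordinates adapted to a quaternion pair -/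
theorem QP.coord [IsAlgClosed k] (h2 : (2 : k) ≠ 0) {a b : M4 k} (h : QP a b) : ∃ X : G4 k, ∀ x y z u v w,
    act a (act X.1 (alt4 x y z u v w)) = act X.1 (alt4 (-x) y z u v (-w)) ∧
    act b (act X.1 (alt4 x y z u v w)) = act X.1 (alt4 w y u z v x) := by
  obtain ⟨i, hi⟩ := IsAlgClosed.exists_eq_mul_self (-1 : k)
  obtain ⟨X, h1, h3⟩ := exists_nf h2 hi.symm h.a2 h.b2 h.ab
  refine ⟨X, fun x y z u v w => ⟨?_, ?_⟩⟩
  · rw [← act_mul, h1, act_mul]
    congr 1
    ext r s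
    fin_cases r <;> fin_cases s <;> simp [act, alt4] <;> grind
  · rw [← act_mul, h3, act_mul]
    congr 1
    ext r s
    rw [act, alt4_conj_apply]
    fin_cases r <;> fin_cases s <;> simp [alt4]

theorem act_inv (X : G4 k) (A : M4 k) : act X.1 (act (X⁻¹).1 A) = A := by
  rw [← act_mul, Units.mul_inv, act_one]

theorem act_inj (X : G4 k) {A B : M4 k} (h : act X.1 A = act X.1 B) : A = B := by
  rw [← act_inv X⁻¹ A, ← act_inv X⁻¹ B, inv_inv, h]

/-- descent of a fixed vector -/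
theorem descent {K : Type*} [Field K] [Algebra k K] {A : M4 K} (hA : A ∈ W K) (h0 : A ≠ 0) :
    ∃ B ∈ W k, B ≠ 0 ∧ ∀ g : M4 k, act (g.map (algebraMap k K)) A = A → act g B = B := by
  obtain ⟨r, s, h⟩ : ∃ r s, A r s ≠ 0 := by
    by_contra! h
    exact h0 (Matrix.ext h)
  obtain ⟨φ, hφ⟩ := not_forall.1 (mt (forall_dual_apply_eq_zero_iff k _).1 h)
  refine ⟨A.map φ, map_mem (φ : K →+ k) hA, fun e => hφ (congrFun (congrFun e r) s), fun g e => ?_⟩
  ext i j
  rw [map_apply, ← congrFun (congrFun e i) j]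
  simp only [act, mul_apply, map_sum, map_apply, transpose_apply, Finset.sum_mul]
  refine Finset.sum_congr rfl fun l _ => Finset.sum_congr rfl fun m _ => ?_
  rw [mul_comm _ (algebraMap k K _), ← Algebra.smul_def, ← Algebra.smul_def, map_smul, map_smul, smul_eq_mul,
    smul_eq_mul, mul_comm]

theorem exists_fix (h2 : (2 : k) ≠ 0) {a b s t : M4 k} (h : QP a b) (h' : QP s t) :
    ∃ A ∈ W k, A ≠ 0 ∧ act a A = A ∧ act b A = A ∧ act s A = A := by
  let f := algebraMap k (AlgebraicClosure k)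
  have h3 : (2 : AlgebraicClosure k) ≠ 0 := by rw [← map_ofNat f, map_ne_zero]; exact h2
  obtain ⟨X, hX⟩ := (h.map f).coord h3
  obtain ⟨Y, hY⟩ := (h'.map f).coord h3
  obtain ⟨Z, hZ⟩ : ∃ Z, Z = (Y⁻¹).1 * X.1 := ⟨_, rfl⟩
  obtain ⟨c, hc, e⟩ := exists_mulVec_eq_zero_iff.2 (show det (of ![0,
    ![act Z (alt4 0 1 0 0 0 0) 0 1, act Z (alt4 0 0 1 1 0 0) 0 1, act Z (alt4 0 0 0 0 1 0) 0 1],
    ![act Z (alt4 0 1 0 0 0 0) 2 3, act Z (alt4 0 0 1 1 0 0) 2 3, act Z (alt4 0 0 0 0 1 0) 2 3]]) = 0 from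
      det_eq_zero_of_row_eq_zero 0 fun _ => rfl)
  have hA : alt4 0 (c 0) (c 1) (c 1) (c 2) 0 ∈ W _ := ⟨_, _, _, _, _, _, rfl⟩
  obtain ⟨B, h4, h5, h6⟩ := descent (k := k) (act_mem (g := X.1) hA) fun e => hc (by
    obtain ⟨-, e1, e2, -, e3, -⟩ := alt4_inj ((act_inj X (e.trans (by simp [act] : 0 = act X.1 0))).trans alt4_zero.symm)
    ext j; fin_cases j <;> assumption)
  refine ⟨B, h4, h5, h6 _ ?_, h6 _ (hX ..).2, h6 _ ?_⟩
  · rw [(hX ..).1, neg_zero]
  · have e1 := congrFun e 1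
    have e2 := congrFun e 2
    rw [← act_inv Y (act X.1 _), ← act_mul (h := X.1), ← hZ, alt4_conj Z _ _ _ _ _ _ (Y := act Z _) rfl, (hY ..).1]
    refine congrArg _ (congrArg₂ (alt4 · _ _ _ _ ·) ?_ ?_) <;>
      simp only [mulVec, dotProduct, Fin.sum_univ_three, act, alt4_conj_apply] at e1 e2 ⊢ <;> simp at e1 e2
    · linear_combination (-2) * e1
    · linear_combination (-2) * e2

theorem eq_zero (h2 : (2 : k) ≠ 0) {a b A : M4 k} (h : QP a b) (hA : A ∈ W k) (h1 : act a A = -A)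
    (h3 : act b A = A) (h4 : pf4 A = 0) : A = 0 := by
  let f := algebraMap k (AlgebraicClosure k)
  have h5 : (2 : AlgebraicClosure k) ≠ 0 := by rw [← map_ofNat f, map_ne_zero]; exact h2
  obtain ⟨X, hX⟩ := (h.map f).coord h5
  obtain ⟨x, y, z, u, v, w, e⟩ := act_mem (g := (X⁻¹).1) (map_mem (f : k →+ _) hA)
  have e1 : A.map f = act X.1 (alt4 x y z u v w) := by rw [← e, act_inv]; rfl
  obtain ⟨h6, h7⟩ := hX x y z u v w
  rw [← e1, ← act_map, h1, Matrix.map_neg _ (map_neg f), e1, ← neg_one_smul (AlgebraicClosure k), ← act_smul,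
    alt4_smul] at h6
  rw [← e1, ← act_map, h3, e1] at h7
  have h8 := alt4_inj (act_inj X h6)
  have h9 := alt4_inj (act_inj X h7)
  have h10 : pf4 (A.map f) = 0 := (by simp [pf4] : _ = f (pf4 A)).trans (by rw [h4, map_zero])
  rw [e1, pf_act ⟨_, _, _, _, _, _, rfl⟩, mul_eq_zero, pf4_alt4] at h10
  replace h10 := h10.resolve_left X.det_ne_zero
  simp only [smul_eq_mul] at h8
  have k : ∀ x : AlgebraicClosure k, -1 * x = x → x = 0 := fun x e => mul_left_cancel₀ h5 (by linear_combination -e)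
  obtain rfl := k y h8.2.1
  obtain rfl := k z h8.2.2.1
  obtain rfl := k u h8.2.2.2.1
  obtain rfl := k v h8.2.2.2.2.1
  obtain rfl := h9.1
  obtain rfl : x = 0 := by simpa using h10
  rw [alt4_zero] at e1
  ext i j
  simpa [act] using congrFun (congrFun e1 i) j

/-- an invariant alternating form makes the character real -/
theorem ort_of_fix {P : Subgroup (G4 k)} (hP : Irr P) {A : M4 k} (h0 : A ≠ 0) (h : ∀ g ∈ P, act g.1 A = A) :
    Ort P := fun g hg => by
  have h1 : LinearMap.range (toLin' A) = ⊤ := (hP _ (by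
    rintro x hx _ ⟨v, rfl⟩
    refine ⟨((x⁻¹).1)ᵀ *ᵥ v, ?_⟩
    conv_lhs => rw [← h x hx]
    rw [toLin'_apply, toLin'_apply, mulVec_mulVec, mulVec_mulVec, act, mul_assoc, ← transpose_mul, Units.inv_mul,
      transpose_one, mul_one])).resolve_left fun e => h0 (toLin'.map_eq_zero_iff.1 (LinearMap.range_eq_bot.1 e))
  obtain ⟨u, rfl⟩ := mulVec_surjective_iff_isUnit.1 (LinearMap.range_eq_top.1 h1)
  have h3 : (g⁻¹).1 = u.1 * (g.1)ᵀ * (u⁻¹).1 := by
    rw [Units.eq_mul_inv_iff_mul_eq, Units.inv_mul_eq_iff_eq_mul, ← mul_assoc]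
    exact (h g hg).symm
  rw [tr, h3, trace_mul_cycle, Units.inv_mul, one_mul, trace_transpose]

/-- unitary matrices commute with the conjugation -/
theorem hd_map_act (f : k →+* k) {g A : M4 k} (hA : A ∈ W k) (h : (g.map f)ᵀ * g = 1) (h1 : g.det = 1) :
    hd ((act g A).map f) = act g (hd (A.map f)) := by
  have h2 := hd_act (g := g.map f) (map_mem (f : k →+ k) hA)
  have h3 : g.map f * gᵀ = 1 := mul_eq_one_comm.1 (by simpa using congrArg transpose h)
  rw [show (g.map f).det = 1 by rw [← f.mapMatrix_apply, ← f.map_det, h1, map_one], one_smul] at h2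
  rw [act_map, act.eq_1 g]
  refine Eq.trans ?_ (congrArg (g * · * gᵀ) h2)
  rw [← mul_assoc, ← mul_assoc, mul_eq_one_comm.1 h, one_mul, mul_assoc, h3, mul_one]
  rfl

theorem exists_herm (f : k →+* k) (hf : ∀ x, f (f x) = x) {μ : k} (hμ : f μ ≠ μ) {A : M4 k} (hA : A ∈ W k)
    (h0 : A ≠ 0) : ∃ B ∈ W k, B ≠ 0 ∧ hd (B.map f) = B ∧
      ∀ g : M4 k, (g.map f)ᵀ * g = 1 → g.det = 1 → act g A = A → act g B = B := by
  have key : ∀ c : k, c • A + f c • hd (A.map f) ≠ 0 → ∃ B ∈ W k, B ≠ 0 ∧ hd (B.map f) = B ∧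
      ∀ g : M4 k, (g.map f)ᵀ * g = 1 → g.det = 1 → act g A = A → act g B = B := fun c hc => by
    refine ⟨_, add_mem (Submodule.smul_mem _ _ hA) (Submodule.smul_mem _ _ hd_mem), hc, ?_, fun g h1 h2 h3 => ?_⟩
    · rw [Matrix.map_add _ (map_add f), Matrix.map_smul' _ _ _ (map_mul f), Matrix.map_smul' _ _ _ (map_mul f),
        hd_map, Matrix.map_map, hd_add, hd_smul, hd_smul, hf, show f ∘ f = id from funext hf, Matrix.map_id,
        hd_hd hA, add_comm]
    · rw [act_add, act_smul, act_smul, ← hd_map_act f hA h1 h2, h3]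
  by_contra h
  have h1 := not_not.1 (mt (key 1) h)
  have h2 := not_not.1 (mt (key μ) h)
  rw [map_one] at h1
  exact h0 ((smul_eq_zero.1 (show (f μ - μ) • A = 0 by
    linear_combination (norm := module) f μ • h1 - h2)).resolve_left (sub_ne_zero.2 hμ))

/-- the matrix permutes the seven lines -/
def Pm (w : Fin 7 → M4 k) (g : G4 k) (π : Perm (Fin 7)) : Prop := ∃ ε : kˣ, ∀ x, act g.1 (w x) = (ε : k) • w (π x)

theorem Pm.mul {w : Fin 7 → M4 k} {g h : G4 k} {π τ : Perm (Fin 7)} (a : Pm w g π) (b : Pm w h τ) :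
    Pm w (g * h) (π * τ) := by
  obtain ⟨ε, a⟩ := a
  obtain ⟨δ, b⟩ := b
  exact ⟨δ * ε, fun x => by rw [Units.val_mul, act_mul, b, act_smul, a, smul_smul]; rfl⟩

/-- the stabiliser of the seven lines -/
def St (w : Fin 7 → M4 k) : Subgroup (G4 k) where
  carrier := {g | ∃ π, Pm w g π}
  mul_mem' := fun ⟨_, a⟩ ⟨_, b⟩ => ⟨_, a.mul b⟩
  one_mem' := ⟨1, 1, fun x => by simp [act]⟩
  inv_mem' := fun {g} ⟨π, ε, a⟩ => ⟨π⁻¹, ε⁻¹, fun x => act_inj g (by
    rw [act_inv, act_smul, a, smul_smul]; simp)⟩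

theorem not_max (h2 : (2 : k) ≠ 0) {w : Fin 7 → M4 k} (hw : ∀ x, w x ∈ W k) {β c : k} (hc : c ≠ 0)
    (hb : ∀ x y, bl (w x) (w y) = β + if x = y then c else 0) {L H : Subgroup (G4 k)}
    (hH : ∀ g ∈ H, ∃ π, π ≠ swap 0 1 * swap 0 2 ∧ Pm w g π)
    (hL : ∀ g : G4 k, g.1.det = 1 → (∀ f : k →+* k, (∀ x, hd ((w x).map f) = w x) → (g.1.map f)ᵀ * g.1 = 1) →
      g ∈ L) : ¬ IsMaximalIn L H := fun hm => by
  have h1 : ∀ x y z, bl (w x) (w y - w z) = (if x = y then c else 0) - if x = z then c else 0 := fun x y z => by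
    rw [bl_sub', hb, hb]; ring
  have h3 : ∀ {A : M4 k} {d}, bl A A = 2 * d → pf4 A = d := fun e => mul_left_cancel₀ h2 (bl_self.symm.trans e)
  have h4 : ∀ x y, x ≠ y → pf4 (w x - w y) = c := fun x y h => h3 (by
    rw [bl_sub, h1, h1]; simp [h, h.symm, two_mul])
  have h5 : ∀ x y z, x ≠ y → rf (w x - w y) (w z) = w (swap x y z) := fun x y z h => by
    rw [rf, h4 x y h, h1]
    by_cases e : z = x
    · simp [e, h, hc]
    · by_cases e' : z = y
      · simp [e', h.symm, hc, neg_div]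
      · simp [e, e', swap_apply_of_ne_of_ne]
  have h6 : ∀ (f : k →+* k) x y, (∀ x, hd ((w x).map f) = w x) → hd ((w x - w y).map f) = w x - w y :=
    fun f x y e => by rw [Matrix.map_sub _ (map_sub f), hd_sub, e, e]
  rcases hm.2 (St w ⊓ L) (le_inf (fun g hg => (hH g hg).imp fun _ => And.right) hm.1.le) inf_le_right with e | e
  · obtain ⟨g, a1, a2, a3⟩ := exists_el (sub_mem (hw 0) (hw 1)) (sub_mem (hw 0) (hw 2))
      ((h4 _ _ (by decide)).trans (h4 _ _ (by decide)).symm) (by rwa [h4 _ _ (by decide)])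
    have a4 : ∀ x, act g.1 (w x) = w ((swap 0 1 * swap 0 2 : Perm (Fin 7)) x) := fun x => by
      rw [a1 _ (hw x), h5 _ _ _ (by decide), h5 _ _ _ (by decide)]; rfl
    obtain ⟨π, b1, ε, b2⟩ := hH g (e.le ⟨⟨_, 1, fun x => (a4 x).trans (one_smul _ _).symm⟩, hL g a2 fun f e => a3 f (h6 f _ _ e) (h6 f _ _ e)⟩)
    refine b1 (Equiv.ext fun x => not_not.1 fun b3 => hc ?_)
    have b4 := (a4 x).symm.trans (b2 x)
    generalize (swap 0 1 * swap 0 2 : Perm (Fin 7)) x = y at b3 b4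
    obtain ⟨z, b5, b6⟩ := (by decide : ∀ x y : Fin 7, ∃ z, x ≠ z ∧ y ≠ z) y (π x)
    have := congrArg (bl · (w y - w z)) b4
    simpa [bl_smul, h1, b3, b5, b6] using this
  · have p1 : pf4 (w 0 - w 1 + (w 2 - w 3)) = 2 * c := h3 (by simp [bl_add, bl_add', bl_sub, h1]; ring)
    have p2 : pf4 (w 0 - w 1 + (w 4 - w 5)) = 2 * c := h3 (by simp [bl_add, bl_add', bl_sub, h1]; ring)
    obtain ⟨g, a1, a2, a3⟩ := exists_el (add_mem (sub_mem (hw 0) (hw 1)) (sub_mem (hw 2) (hw 3)))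
      (add_mem (sub_mem (hw 0) (hw 1)) (sub_mem (hw 4) (hw 5))) (p2.trans p1.symm) (p1 ▸ mul_ne_zero h2 hc)
    obtain ⟨⟨π, ε, b⟩, -⟩ := e.ge (hL g a2 fun f e => a3 f
      (by rw [Matrix.map_add _ (map_add f), hd_add, h6 f _ _ e, h6 f _ _ e])
      (by rw [Matrix.map_add _ (map_add f), hd_add, h6 f _ _ e, h6 f _ _ e]))
    have b1 := (a1 _ (hw 4)).symm.trans (b 4)
    have b2 := congrArg (bl · (w 4 - w 0)) b1
    have b3 := congrArg (bl · (w 5 - w 1)) b1
    simp only [bl_rf, p1, p2, bl_add, bl_add', bl_sub, bl_smul, h1] at b2 b3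
    generalize π 4 = y at b2 b3
    fin_cases y <;> simp at b2 b3 <;> field_simp at b2 b3 <;> grind

end CL.D4.N
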