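import Cfsg.Agent.CLAS.D4.Def
import Cfsg.Agent.KSG.AltELin

/-!
# Diagonal forms and involutions in `GL₄`
-/

set_option autoImplicit false

namespace CL.D4

open Matrix Cfsg Cfsg.Geo CL.Asch Module
open scoped MatrixGroups commutatorElement

variable {k : Type*} [Field k] {P : Subgroup (G4 k)}

/-- the matrix with respect to the basis `Y` -/
def cj (Y : G4 k) : G4 k →* M4 k := (Units.coeHom _).comp (MulAut.conj Y⁻¹).toMonoidHom

theorem cj_apply (Y A : G4 k) : cj Y A = ((Y⁻¹ * A * Y : G4 k) : M4 k) := by simp [cj]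

theorem cj_inj (Y : G4 k) : Function.Injective (cj Y) := Units.val_injective.comp (MulAut.conj Y⁻¹).injective

theorem eq_cj (Y A : G4 k) : (A : M4 k) = Y * cj Y A * (Y⁻¹ : G4 k) := by
  rw [cj_apply, ← Units.val_mul, ← Units.val_mul]; congr 1; group

theorem cj_eq_iff {Y A : G4 k} {M : M4 k} : cj Y A = M ↔ (A : M4 k) * Y = Y * M := by
  rw [cj_apply, Units.val_mul, Units.val_mul, mul_assoc, Units.inv_mul_eq_iff_eq_mul]

theorem det_cj (Y A : G4 k) : (cj Y A).det = (A : M4 k).det := by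
  rw [cj_apply, Units.val_mul, Units.val_mul, det_units_conj']

theorem cj_scalar {Y A : G4 k} : A ∈ scalars (Fin 4) k ↔ ∃ c : k, cj Y A = c • 1 := by
  simp only [mem_scalars', cj_eq_iff, mul_smul_comm, mul_one]
  refine exists_congr fun c => ⟨fun h => by rw [h, smul_one_mul], fun h => ?_⟩
  rw [← Units.mul_left_inj Y, h, smul_one_mul]

theorem hasJ_of_cj {Y g : G4 k} (hg : g ∈ P) {c : k} {v φ : V4 k} (h : φ ⬝ᵥ v = 2)
    (e : cj Y g = c • (1 - vecMulVec v φ)) : HasJ P := by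
  refine ⟨g, hg, c, (Y : M4 k) *ᵥ v, φ ᵥ* ((Y⁻¹ : G4 k) : M4 k), ?_, ?_⟩
  · rw [← dotProduct_mulVec, inv_mulVec_mulVec, h]
  · rw [eq_cj Y g, e, mul_smul_comm, smul_mul_assoc, mul_sub, sub_mul, mul_one, Units.mul_inv, mul_vecMulVec,
      vecMulVec_mul]

theorem hasTv_of_cj {Y g : G4 k} (hg : g ∈ P) {v φ : V4 k} (hv : v ≠ 0) (hφ : φ ≠ 0) (h : φ ⬝ᵥ v = 0)
    (e : cj Y g = 1 + vecMulVec v φ) : HasTv P := by
  refine ⟨g, hg, (Y : M4 k) *ᵥ v, φ ᵥ* ((Y⁻¹ : G4 k) : M4 k), fun h => hv ?_, fun h => hφ ?_, ?_, ?_⟩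
  · rw [← inv_mulVec_mulVec Y v, h, mulVec_zero]
  · simpa using congrArg (· ᵥ* (Y : M4 k)) h
  · rw [← dotProduct_mulVec, inv_mulVec_mulVec, h]
  · rw [eq_cj Y g, e, mul_add, add_mul, mul_one, Units.mul_inv, mul_vecMulVec, vecMulVec_mul]

/-- a basis as an invertible matrix -/
theorem exists_gl {e : Fin 4 → V4 k} (h : LinearIndependent k e) : ∃ Y : G4 k, ∀ i j, (Y : M4 k) i j = e j i := by
  obtain ⟨Y, hY⟩ := (linearIndependent_cols_iff_isUnit (A := (Matrix.of e)ᵀ)).1 h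
  exact ⟨Y, fun i j => by rw [hY]; rfl⟩

/-- an invertible matrix intertwining diagonal matrices permutes the entries -/
theorem perm_of_conj (Y g : G4 k) : ∃ π : Equiv.Perm (Fin 4), ∀ {A B : G4 k} {d d' : Fin 4 → k},
    cj Y A = diagonal d → cj Y B = diagonal d' → g * A = B * g → ∀ i, d' (π i) = d i := by
  have h : (cj Y g).det ≠ 0 := by rw [det_cj]; exact g.det_ne_zero
  rw [det_apply] at h
  obtain ⟨π, -, hπ⟩ := Finset.exists_ne_zero_of_sum_ne_zero h
  refine ⟨π, fun {A B d d'} hA hB e i => ?_⟩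
  have h1 := congrFun (congrFun (congrArg (cj Y) e) (π i)) i
  rw [map_mul, map_mul, hA, hB, mul_diagonal, diagonal_mul, mul_comm] at h1
  exact (mul_right_cancel₀ (Finset.prod_ne_zero_iff.1 (right_ne_zero_of_smul hπ) i (Finset.mem_univ i)) h1).symm

/-- commuting elements of order prime to the characteristic are diagonal -/
theorem exists_diag [IsAlgClosed k] {J : Type*} (X : J → G4 k) (hc : ∀ i j, X i * X j = X j * X i) {n : ℕ}
    (h0 : (n : k) ≠ 0) (hn : ∀ j, X j ^ n = 1) :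
    ∃ (Y : G4 k) (d : J → Fin 4 → k), ∀ j, cj Y (X j) = diagonal (d j) := by
  obtain ⟨I, _, v, d, h1, h2, h3⟩ := CL.AltE.exists_eb_top (fun j => toLin' (X j : M4 k)) (fun i j => by
    rw [Commute, SemiconjBy, End.mul_eq_comp, End.mul_eq_comp, ← toLin'_mul, ← toLin'_mul, ← Units.val_mul, hc,
      Units.val_mul]) h0 fun j => by
    rw [← toLin'_pow, ← Units.val_pow_eq_pow_val, hn, Units.val_one, toLin'_one]; rfl
  have e : Fin 4 ≃ I := (Fintype.equivFinOfCardEq (by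
    rw [← finrank_span_eq_card h1, h2, finrank_top, finrank_fin_fun])).symm
  obtain ⟨Y, hY⟩ := exists_gl (h1.comp e e.injective)
  refine ⟨Y, fun j i => d j (e i), fun j => cj_eq_iff.2 ?_⟩
  ext l i
  have := congrFun (h3 j (e i)) l
  rw [mul_diagonal, mul_apply, mul_comm]
  simp only [hY]
  exact this

theorem diag_pow {Y A : G4 k} {d : Fin 4 → k} (h : cj Y A = diagonal d) (n : ℕ) :
    cj Y (A ^ n) = diagonal (d ^ n) := by rw [map_pow, h, diagonal_pow]

theorem diag_pow_eq {Y A : G4 k} {d : Fin 4 → k} (h : cj Y A = diagonal d) {n : ℕ} (e : A ^ n = 1) (i : Fin 4) :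
    d i ^ n = 1 := by
  have := diag_pow h n
  rw [e, map_one, ← diagonal_one] at this
  exact (congrFun (diagonal_injective this) i).symm

theorem exists_ne_one {Y A : G4 k} {d : Fin 4 → k} (h : cj Y A = diagonal d) (e : A ≠ 1) : ∃ i, d i ≠ 1 := by
  by_contra! a
  exact e (cj_inj Y (by rw [h, map_one, show d = fun _ => 1 from funext a, diagonal_one]))

/-- `t` is a multiple of a sign matrix -/
def Sg (Y : G4 k) (t : P) (s : Fin 4 → ℤˣ) : Prop :=
  ∃ a : k, cj Y t = a • diagonal fun i => ((s i : ℤ) : k)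

theorem Sg.mul {Y : G4 k} {t u : P} {s s' : Fin 4 → ℤˣ} (h : Sg Y t s) (h' : Sg Y u s') : Sg Y (t * u) (s * s') := by
  obtain ⟨a, h⟩ := h
  obtain ⟨b, h'⟩ := h'
  refine ⟨a * b, ?_⟩
  rw [Subgroup.coe_mul, map_mul, h, h', smul_mul_smul_comm, diagonal_mul_diagonal]
  simp

theorem Sg.one {Y : G4 k} {t : P} (h : Sg Y t 1) : pr P t = 1 := by
  obtain ⟨a, h⟩ := h
  exact pr_eq_one.2 (cj_scalar.2 ⟨a, by simpa using h⟩)

theorem Sg.eq {Y : G4 k} {t u : P} {s : Fin 4 → ℤˣ} (h : Sg Y t s) (h' : Sg Y u s) (e : pr P u ^ 2 = 1) :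
    pr P t = pr P u := by
  have h1 := h.mul h'
  rw [show s * s = 1 from funext fun i => Int.units_mul_self _] at h1
  exact mul_right_cancel ((map_mul _ _ _).symm.trans (h1.one.trans (e.symm.trans (sq _))))

/-- a diagonal lift of an involution -/
theorem sgn (hJ : ¬ HasJ P) {t : P} (ht : pr P t ^ 2 = 1) {Y : G4 k}
    {d : Fin 4 → k} (hd : cj Y t = diagonal d) : ∃ s, Sg Y t s ∧ s 0 = 1 ∧ ∏ i, s i = 1 := by
  obtain ⟨c, hc⟩ := (cj_scalar (Y := Y)).1 (pr_eq_one.1 ((map_pow _ t 2).trans ht))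
  rw [Subgroup.coe_pow, diag_pow hd, smul_one_eq_diagonal] at hc
  have h1 : ∀ i, ∃ s : ℤˣ, d i = d 0 * (s : ℤ) ∧ (i = 0 → s = 1) := fun i => by
    by_cases h : d i = d 0
    · exact ⟨1, by simp [h], fun _ => rfl⟩
    · exact ⟨-1, by simpa using (sq_eq_sq_iff_eq_or_eq_neg.1 ((congrFun (diagonal_injective hc) i).trans
        (congrFun (diagonal_injective hc) 0).symm)).resolve_left h, fun e => (h (e ▸ rfl)).elim⟩
  choose s hs hs' using h1
  have h3 : cj Y t = d 0 • diagonal fun i => ((s i : ℤ) : k) := by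
    rw [hd, ← diagonal_smul]; exact congrArg _ (funext hs)
  refine ⟨s, ⟨_, h3⟩, hs' 0 rfl, ?_⟩
  have k3 : ∀ s : Fin 4 → ℤˣ, ∏ i, s i = 1 ∨ ∃ j, ∃ e : ℤˣ, ∀ i, s i = if i = j then -e else e := by decide +kernel
  refine (k3 s).resolve_right fun ⟨j, e, a⟩ => hJ (hasJ_of_cj (Y := Y) t.2 (c := d 0 * (e : ℤ)) (v := Pi.single j 1)
    (φ := Pi.single j 2) (by simp) ?_)
  rw [h3]
  ext i l
  by_cases h : i = l
  · subst h
    by_cases h' : i = j
    · subst h'; simp [a, vecMulVec_apply]; ring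
    · simp [a, vecMulVec_apply, h']
  · by_cases h' : i = j
    · subst h'; simp [vecMulVec_apply, h, Ne.symm h]
    · simp [vecMulVec_apply, h, h']

theorem Core.pow_eight (C : Core P) {t : P} (ht : pr P t ^ 2 = 1) : (t : G4 k) ^ 8 = 1 := by
  have := C.ker_pow ((map_pow _ t 2).trans ht)
  rw [← pow_mul] at this
  exact congrArg Subtype.val this

/-- the elements whose lifts commute with the lifts of `y` -/
def cz (y : Bar P) : Subgroup (Bar P) := (Subgroup.centralizer (pr P ⁻¹' {y})).map (pr P)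

theorem mem_cz {x y : P} : pr P x ∈ cz (pr P y) ↔ x * y = y * x := by
  have key : ∀ {a b : P}, pr P a = pr P b → ∀ c, c * a = a * c → c * b = b * c := fun {a b} h c e => by
    have h1 := Subgroup.mem_center_iff.1 (ker_pr_le (show a⁻¹ * b ∈ (pr P).ker by
      rw [MonoidHom.mem_ker, map_mul, map_inv, h, inv_mul_cancel])) c
    rw [← mul_inv_cancel_left a b, ← mul_assoc, e, mul_assoc, h1, ← mul_assoc]
  exact ⟨fun ⟨z, hz, e⟩ => (key e y (hz y rfl)).symm,
    fun h => ⟨x, fun z hz => (key (Eq.symm hz) x h).symm, rfl⟩⟩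

theorem cz_symm {x y : Bar P} (h : x ∈ cz y) : y ∈ cz x := by
  obtain ⟨x, rfl⟩ := pr_surj x
  obtain ⟨y, rfl⟩ := pr_surj y
  exact mem_cz.2 (mem_cz.1 h).symm

theorem cz_self (x : Bar P) : x ∈ cz x := by
  obtain ⟨x, rfl⟩ := pr_surj x
  exact mem_cz.2 rfl

theorem cz_conj {x y : Bar P} (h : x ∈ cz y) (g : Bar P) : g * x * g⁻¹ ∈ cz (g * y * g⁻¹) := by
  obtain ⟨x, rfl⟩ := pr_surj x
  obtain ⟨y, rfl⟩ := pr_surj y
  obtain ⟨g, rfl⟩ := pr_surj g
  rw [← map_inv, ← map_mul, ← map_mul, ← map_mul, ← map_mul, mem_cz, conj_mul, conj_mul, mem_cz.1 h]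

theorem anti_of_not {x y : P} (hy : pr P y ^ 2 = 1) (h : pr P x * pr P y = pr P y * pr P x)
    (e : x * y ≠ y * x) : (x.1 : M4 k) * y.1 = -(y.1 * x.1) := by
  obtain ⟨c, hc⟩ := mem_scalars'.1 (pr_eq_one.1 (show pr P (x * y * (y * x)⁻¹) = 1 by
    rw [map_mul, map_inv, map_mul, map_mul, h, mul_inv_cancel]))
  have h1 : (x.1 : M4 k) * y.1 = c • (y.1 * x.1) := by
    rw [← smul_one_mul, ← hc, ← Units.val_mul, ← Units.val_mul, ← Units.val_mul, ← Subgroup.coe_mul _ y,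
      ← Subgroup.coe_mul _ (_ * _), inv_mul_cancel_right, Subgroup.coe_mul]
  have h3 : (x.1 : M4 k) * (y.1 * y.1) = y.1 * y.1 * x.1 := by
    have := scalars_comm (pr_eq_one.1 ((map_pow _ y 2).trans hy)) x
    rw [Subgroup.coe_pow, sq] at this
    exact congrArg Units.val this.symm
  rw [← mul_assoc, h1, smul_mul_assoc, mul_assoc, h1, mul_smul_comm, smul_smul, ← mul_assoc] at h3
  have h4 : ((y.1 : M4 k) * y.1 * x.1) ≠ 0 := (y.1 * y.1 * x.1).ne_zero
  rcases mul_self_eq_one_iff.1 (smul_left_injective k h4 (h3.trans (one_smul k _).symm)) with a | a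
  · exact (e (Subtype.ext (Units.ext (by simpa [a] using h1)))).elim
  · simpa [a] using h1

theorem index_cz {H : Subgroup (Bar P)} {y : Bar P} (hy : y ^ 2 = 1) (h : ∀ x ∈ H, x * y = y * x) :
    ((cz y).subgroupOf H).index ∣ 2 := by
  refine Subgroup.relIndex_dvd_two_iff.2 ?_
  by_cases e : ∀ b ∈ H, b ∈ cz y
  · exact ⟨1, one_mem _, fun b hb => .inr (e b hb)⟩
  · push Not at e
    obtain ⟨a, ha, e⟩ := e
    refine ⟨a, ha, fun b hb => or_iff_not_imp_right.2 fun e' => ?_⟩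
    obtain ⟨y, rfl⟩ := pr_surj y
    obtain ⟨a, rfl⟩ := pr_surj a
    obtain ⟨b, rfl⟩ := pr_surj b
    rw [← map_mul, mem_cz]
    refine Subtype.ext (Units.ext ?_)
    simp only [Subgroup.coe_mul, Units.val_mul]
    rw [mul_assoc, anti_of_not hy (h _ ha) (mt mem_cz.2 e), mul_neg, ← mul_assoc,
      anti_of_not hy (h _ hb) (mt mem_cz.2 e'), neg_mul, neg_neg, mul_assoc]

variable [IsAlgClosed k]

/-- three involutions with commuting lifts are dependent -/
theorem Core.tri (C : Core P) (h2 : (2 : k) ≠ 0) (hJ : ¬ HasJ P) {a b c : Bar P} (ha : a ^ 2 = 1) (hb : b ^ 2 = 1)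
    (hc : c ^ 2 = 1) (ab : a ∈ cz b) (ac : a ∈ cz c) (bc : b ∈ cz c) (a1 : a ≠ 1) (b1 : b ≠ 1) (ba : b ≠ a) :
    c ∈ ({1, a, b, a * b} : Set (Bar P)) := by
  obtain ⟨a, rfl⟩ := pr_surj a
  obtain ⟨b, rfl⟩ := pr_surj b
  obtain ⟨c, rfl⟩ := pr_surj c
  have e1 := congrArg Subtype.val (mem_cz.1 ab)
  have e2 := congrArg Subtype.val (mem_cz.1 ac)
  have e3 := congrArg Subtype.val (mem_cz.1 bc)
  obtain ⟨Y, d, hd⟩ := exists_diag ![a.1, b.1, c.1] (fun i j => by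
    fin_cases i <;> fin_cases j <;> first | rfl | assumption | (symm; assumption)) (n := 8)
    (by simpa [show (8 : k) = 2 ^ 3 by norm_num] using h2) fun j => by
      fin_cases j <;> exact C.pow_eight ‹_›
  obtain ⟨s, hs, s1⟩ := sgn hJ ha (hd 0)
  obtain ⟨t, ht, t1⟩ := sgn hJ hb (hd 1)
  obtain ⟨u, hu, u1⟩ := sgn hJ hc (hd 2)
  have key : ∀ s : Fin 4 → ℤˣ, s 0 = 1 ∧ ∏ i, s i = 1 → ∀ t : Fin 4 → ℤˣ, t 0 = 1 ∧ ∏ i, t i = 1 →
    ∀ u : Fin 4 → ℤˣ, u 0 = 1 ∧ ∏ i, u i = 1 → s = 1 ∨ t = 1 ∨ t = s ∨ u = 1 ∨ u = s ∨ u = t ∨ s * t = u := by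
    set_option synthInstance.maxSize 1024 in decide +kernel
  rcases key s s1 t t1 u u1 with rfl | rfl | rfl | rfl | rfl | rfl | rfl
  · exact (a1 hs.one).elim
  · exact (b1 ht.one).elim
  · exact (ba (ht.eq hs ha)).elim
  · exact .inl hu.one
  · exact .inr (.inl (hu.eq hs ha))
  · exact .inr (.inr (.inl (hu.eq ht hb)))
  · exact .inr (.inr (.inr ((hs.mul ht).eq hu hc).symm))

end CL.D4
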