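import Cfsg.Agent.CLAS.D4.Tla

/-!
# Unipotent Heisenberg groups in `GL₄`
-/

set_option autoImplicit false

namespace CL.D4

open Matrix Cfsg Cfsg.Geo CL.Asch Module Submodule
open scoped MatrixGroups commutatorElement

variable {k : Type*} [Field k] {P : Subgroup (G4 k)}

theorem exists_last {f : M4 k} (hf : IsNilpotent f) {T W : Submodule k (V4 k)} (hT : ∀ v ∈ T, f *ᵥ v ∈ T)
    {v : V4 k} (hv : v ∈ T) (h : v ∉ W) : ∃ u ∈ T, u ∉ W ∧ f *ᵥ u ∈ W := by
  by_contra! e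
  obtain ⟨n, hn⟩ := hf
  have : ∀ i, (f ^ i) *ᵥ v ∈ T ∧ (f ^ i) *ᵥ v ∉ W := fun i => by
    induction i with
    | zero => simpa using ⟨hv, h⟩
    | succ i ih => rw [pow_succ', ← mulVec_mulVec]; exact ⟨hT _ ih.1, e _ ih.1 ih.2⟩
  exact (this n).2 (by simp [hn])

/-- a common flag -/
theorem exists_flag {a b n : M4 k} (ha : IsNilpotent a) (hb : IsNilpotent b) (hn : IsNilpotent n)
    (h1 : n * a = a * n) (h2 : n * b = b * n) (h3 : a * b = b * a + (1 + b) * ((1 + a) * n)) :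
    ∀ j ≤ 4, ∃ e : Fin j → V4 k, LinearIndependent k e ∧
      ∀ x ∈ ({a, b, n} : Set (M4 k)), ∀ i, x *ᵥ e i ∈ span k (e '' Set.Ioi i) := fun j hj => by
  induction j with
  | zero => exact ⟨Fin.elim0, linearIndependent_empty_type, fun _ _ i => i.elim0⟩
  | succ j ih =>
    obtain ⟨e, he, h⟩ := ih (by omega)
    set W := span k (Set.range e) with hW
    have hi : ∀ x ∈ ({a, b, n} : Set (M4 k)), ∀ v ∈ W, x *ᵥ v ∈ W := fun x hx =>
      (span_le (p := W.comap (toLin' x))).2 (by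
        rintro _ ⟨i, rfl⟩
        exact span_mono (Set.image_subset_range _ _) (h x hx i))
    have ia := hi a (by simp)
    have ib := hi b (by simp)
    obtain ⟨v, hv⟩ : ∃ v, v ∉ W := by
      by_contra! e'
      have := finrank_span_eq_card he
      rw [← hW, eq_top_iff'.2 e', finrank_top, finrank_fin_fun, Fintype.card_fin] at this
      omega
    obtain ⟨v, -, hv, v1⟩ := exists_last hn (T := ⊤) (fun _ _ => trivial) trivial hv
    obtain ⟨v, v1, hv, v2⟩ := exists_last ha (T := W.comap (toLin' n)) (fun u hu => by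
      rw [mem_comap, toLin'_apply, mulVec_mulVec, h1, ← mulVec_mulVec]; exact ia _ hu) v1 hv
    obtain ⟨v, v1, hv, v2⟩ := exists_last hb (T := W.comap (toLin' n) ⊓ W.comap (toLin' a)) (fun u hu => ⟨by
      rw [SetLike.mem_coe, mem_comap, toLin'_apply, mulVec_mulVec, h2, ← mulVec_mulVec]; exact ib _ hu.1, by
      rw [SetLike.mem_coe, mem_comap, toLin'_apply, mulVec_mulVec, h3, add_mulVec, ← mulVec_mulVec,
        ← mulVec_mulVec, ← mulVec_mulVec, add_mulVec, add_mulVec, one_mulVec, one_mulVec]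
      have := add_mem (show n *ᵥ u ∈ W from hu.1) (ia _ hu.1)
      exact add_mem (ib _ hu.2) (add_mem this (ib _ this))⟩) ⟨v1, v2⟩ hv
    refine ⟨Fin.cons v e, linearIndependent_finCons.2 ⟨he, hv⟩, fun x hx i => Fin.cases ?_ (fun i => ?_) i⟩
    · refine span_mono (s := Set.range e) ?_ ?_
      · rintro _ ⟨l, rfl⟩; exact ⟨l.succ, l.succ_pos, rfl⟩
      · rcases hx with rfl | rfl | rfl
        exacts [v1.2, v2, v1.1]
    · refine span_mono ?_ (h x hx i)
      rintro _ ⟨l, hl, rfl⟩; exact ⟨l.succ, Fin.succ_lt_succ_iff.2 hl, rfl⟩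

/-- the central commutator of two unipotent elements is a transvection -/
theorem heis_char (p : ℕ) [Fact p.Prime] [CharP k p] (h2 : (2 : k) ≠ 0) {A B Z : G4 k} {m : ℕ} (hA : A ^ p ^ m = 1)
    (hB : B ^ p ^ m = 1) (hZ : Z ^ p ^ m = 1) (e1 : Z * A = A * Z) (e2 : Z * B = B * Z) (e3 : A * B = Z * (B * A))
    (h1 : Z ≠ 1) (hP : Z ∈ P) : HasTv P := by
  have nil : ∀ {X : G4 k}, X ^ p ^ m = 1 → IsNilpotent ((X : M4 k) - 1) := fun {X} h => ⟨p ^ m, by
    rw [sub_pow_char_pow_of_commute _ _ (Commute.one_right _), ← Units.val_pow_eq_pow_val, h]; simp⟩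
  have f1 := congrArg Units.val e1
  have f2 := congrArg Units.val e2
  have f3 := congrArg Units.val (show A * B = B * (A * Z) by rw [e3, ← mul_assoc, e2, mul_assoc, e1])
  simp only [Units.val_mul] at f1 f2 f3
  obtain ⟨e, he, h⟩ := exists_flag (nil hA) (nil hB) (nil hZ) (by noncomm_ring [f1]) (by noncomm_ring [f2])
    (by noncomm_ring [f3]) 4 le_rfl
  obtain ⟨Y, hY⟩ := exists_gl he
  have tri : ∀ X : G4 k, (X : M4 k) - 1 ∈ ({(A : M4 k) - 1, (B : M4 k) - 1, (Z : M4 k) - 1} : Set (M4 k)) →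
      ∃ a b c d e f, cj Y X = !![1, 0, 0, 0; a, 1, 0, 0; d, b, 1, 0; f, e, c, 1] := fun X hX => by
    have k1 : ∀ i, e i = (Y : M4 k) *ᵥ Pi.single i 1 := fun i => by ext l; simp [hY]
    have k2 : ∀ l i, l ≤ i → cj Y X l i = (1 : M4 k) l i := fun l i hl => by
      have := (span_le (p := LinearMap.ker (LinearMap.proj l ∘ₗ toLin' ((Y⁻¹ : G4 k) : M4 k)))).2 (by
        rintro _ ⟨j, hj, rfl⟩
        rw [SetLike.mem_coe, LinearMap.mem_ker, LinearMap.comp_apply, toLin'_apply, k1, inv_mulVec_mulVec]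
        exact Pi.single_eq_of_ne (hl.trans_lt hj).ne _) (h _ hX i)
      rw [LinearMap.mem_ker, LinearMap.comp_apply, toLin'_apply, k1, mulVec_mulVec, mulVec_mulVec, mul_sub, sub_mul,
        mul_one, Units.inv_mul, ← Units.val_mul, ← Units.val_mul, ← cj_apply] at this
      simpa [sub_eq_zero] using this
    refine ⟨cj Y X 1 0, cj Y X 2 1, cj Y X 3 2, cj Y X 2 0, cj Y X 3 1, cj Y X 3 0, ?_⟩
    ext l i
    fin_cases l <;> fin_cases i <;> first | rfl | simp [k2]
  obtain ⟨a1, a2, a3, a4, a5, a6, ha⟩ := tri A (by simp)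
  obtain ⟨b1, b2, b3, b4, b5, b6, hb⟩ := tri B (by simp)
  obtain ⟨z1, z2, z3, z4, z5, z6, hz⟩ := tri Z (by simp)
  have g1 := congrFun (congrFun (congrArg (cj Y) e1) 3) 0
  have g2 := congrFun (congrFun (congrArg (cj Y) e2) 3) 0
  have g3 := fun i j => congrFun (congrFun (congrArg (cj Y) e3) i) j
  have g4 := g3 1 0
  have g5 := g3 2 1
  have g6 := g3 3 2
  have g7 := g3 2 0
  have g8 := g3 3 1
  simp only [map_mul, ha, hb, hz] at g1 g2 g4 g5 g6 g7 g8
  simp [mul_apply, Fin.sum_univ_four] at g1 g2 g4 g5 g6 g7 g8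
  obtain rfl : z1 = 0 := by linear_combination -g4
  obtain rfl : z2 = 0 := by linear_combination -g5
  obtain rfl : z3 = 0 := by linear_combination -g6
  have key : 2 * (z4 * z5) = 0 := by
    linear_combination -z5 * g7 - z4 * g8 - b2 * g1 + a2 * g2
  have ne : ¬ (z4 = 0 ∧ z5 = 0 ∧ z6 = 0) := by
    rintro ⟨rfl, rfl, rfl⟩
    exact h1 (cj_inj Y (by rw [hz, map_one]; ext i j; fin_cases i <;> fin_cases j <;> rfl))
  rcases mul_eq_zero.1 ((mul_eq_zero.1 key).resolve_left h2) with rfl | rfl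
  · refine hasTv_of_cj (Y := Y) hP (v := ![0, 0, 0, 1]) (φ := ![z6, z5, 0, 0]) (fun a => by simpa using congrFun a 3)
      (fun a => ne ⟨rfl, congrFun a 1, congrFun a 0⟩) (by simp) ?_
    rw [hz]; ext i j; fin_cases i <;> fin_cases j <;> simp
  · refine hasTv_of_cj (Y := Y) hP (v := ![0, 0, z4, z6]) (φ := ![1, 0, 0, 0]) (fun a => ne ⟨congrFun a 2, rfl,
      congrFun a 3⟩) (fun a => by simpa using congrFun a 0) (by simp) ?_
    rw [hz]; ext i j; fin_cases i <;> fin_cases j <;> simp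

end CL.D4
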