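import Cfsg.Agent.CLAS.FiveP1

/-!
# The element types of `Sp₄(3)`
-/

set_option autoImplicit false

namespace CL.D4.U

open Matrix Polynomial CL.GLn CL.SpU CL.Five.P

/-- the element types of `Sp₄(3)`, up to sign -/
def Ty {G : Type*} [Group G] (g : G) : Prop :=
  (g ^ 8 = 1 ∧ IsConj g (g ^ 3) ∧ IsConj g (g ^ 7)) ∨ (g ^ 12 = 1 ∧ IsConj g (g ^ 7)) ∨
    (g ^ 9 = 1 ∧ IsConj g (g ^ 4)) ∨ (g ^ 5 = 1 ∧ IsConj g (g ^ 3))

variable {K : Type*} [Field K]

/-- the central involution -/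
def ng : Sp K := ⟨-1, SymplecticGroup.neg_mem (one_mem _)⟩

theorem mul_ng (g : Sp K) : (g * ng).1 = -g.1 := by simp [ng]

theorem ng_sq : (ng : Sp K) ^ 2 = 1 := Subtype.ext (by simp [ng])

theorem π_ng : π K ng = 1 := π_eq_one.2 (.inr rfl)

variable [Fintype K] (hK : Fintype.card K = 3)
include hK

theorem conj_neg {g : Sp K} (h : (g.1 ^ 2 + 1) ^ 2 = 0) : IsConj g (g * ng) := by
  have h1 : IsConj g.1 (-g.1) := by
    refine isConj_of_rank_pow fun p hp hi n => ?_
    by_cases e : p ∣ X ^ 2 + 1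
    · have hm : (X ^ 2 + 1 : K[X]).Monic := by monicity!
      have hd : (X ^ 2 + 1 : K[X]).natDegree = 2 := by compute_degree!
      have hq : Irreducible (X ^ 2 + 1 : K[X]) := irreducible_of_degree_le_three_of_not_isRoot
        (by rw [hd]; decide) fun x hx => by
          have h2 := two hK
          have h3 : x ^ 2 + 1 = 0 := by simpa using hx
          rcases cases hK x with rfl | rfl | rfl
          · simp at h3
          all_goals exact h2 (by linear_combination h3)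
      rw [eq_of_monic_of_associated hp hm (hi.associated_of_dvd hq e)]
      simp
    · obtain ⟨a, b, hab⟩ := ((hi.coprime_iff_not_dvd.2 e).pow_right (n := 2)).pow_left (m := n)
      have key : ∀ A : Matrix (Fin 2 ⊕ Fin 2) (Fin 2 ⊕ Fin 2) K, (A ^ 2 + 1) ^ 2 = 0 →
          (aeval A (p ^ n)).rank = Fintype.card (Fin 2 ⊕ Fin 2) := fun A hA => by
        have := congrArg (aeval A) hab
        rw [map_add, map_mul, map_mul, map_one, map_pow _ (X ^ 2 + 1), map_add, map_pow _ X, aeval_X, map_one, hA,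
          mul_zero, add_zero] at this
        exact rank_of_isUnit _ (IsUnit.of_mul_eq_one_right _ this)
      rw [key _ h, key _ (by rwa [neg_sq])]
  have h3 : ∀ x : Matrix (Fin 2 ⊕ Fin 2) (Fin 2 ⊕ Fin 2) K, x + x + x = 0 := fun x => by
    rw [show x + x + x = (3 : K) • x by module, three hK, zero_smul]
  have h2 : (g.1 ^ 2 - 1) * (-g.1 ^ 2) = 1 := by
    rw [← sub_eq_zero, ← neg_eq_zero, ← h, ← sub_eq_zero, ← neg_eq_zero, ← h3 (g.1 ^ 2)]
    noncomm_ring
  refine (isConj_sp_iff _ _).2 (isomConj_of_isUnit (CL.Sp.spForm_nondeg 2 K) (CL.Sp.spForm_nondeg 2 K)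
    (isIsom_sp _) (isIsom_sp _) ((isConj_iff_simil _ _).1 (mul_ng g ▸ h1)) ?_)
  have := (IsUnit.of_mul_eq_one _ h2).map (toLinAlgEquiv' (R := K))
  rwa [map_sub, map_pow, map_one] at this

theorem ty (g : Sp K) : Ty g ∨ Ty (g * ng) := by
  have hd : g.1.charpoly.natDegree = 4 := charpoly_natDegree_eq_dim _
  have h4 : g.1.charpoly.coeff 4 = 1 := hd ▸ g.1.charpoly_monic.coeff_natDegree
  have h0 : g.1.charpoly.coeff 4 = g.1.charpoly.coeff 0 :=
    CG.coeff_charpoly_symplectic g.2 (i := 0) (by simp)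
  have h3 : g.1.charpoly.coeff 3 = g.1.charpoly.coeff 1 :=
    CG.coeff_charpoly_symplectic g.2 (i := 1) (by simp)
  have e : g.1.charpoly = X ^ 4 + C (g.1.charpoly.coeff 1) * X ^ 3 + C (g.1.charpoly.coeff 2) * X ^ 2 +
      C (g.1.charpoly.coeff 1) * X + 1 := by
    conv_lhs => rw [g.1.charpoly.as_sum_range' 5 (by omega)]
    simp only [Finset.sum_range_succ, Finset.sum_range_zero, ← C_mul_X_pow_eq_monomial, h3, ← h0, h4,
      map_one]
    ring
  have z : (3 : K[X]) = 0 := by rw [← map_ofNat C, three hK, map_zero]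
  have key : ∀ f q : K[X], f = g.1.charpoly * q → aeval g.1 f = 0 := fun f q h => by
    rw [h, map_mul, aeval_self_charpoly, zero_mul]
  have k1 : ∀ (n : ℕ) (q : K[X]), X ^ n - 1 = g.1.charpoly * q → g.1 ^ n = 1 := fun n q h => by
    have := key _ q h
    rwa [map_sub, map_pow, aeval_X, map_one, sub_eq_zero] at this
  have k2 : ∀ (n : ℕ) (q : K[X]), X ^ n + 1 = g.1.charpoly * q → g.1 ^ n = -1 := fun n q h => by
    have := key _ q h
    rwa [map_add, map_pow, aeval_X, map_one, add_eq_zero_iff_eq_neg] at this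
  have k3 : ∀ q : K[X], (X ^ 4 - 1) * (X ^ 6 - 1) = g.1.charpoly * q →
      (g.1 ^ 4 - 1) * (g.1 ^ 6 - 1) = 0 := fun q h => by
    have := key _ q h
    rwa [map_mul, map_sub, map_sub, map_pow, map_pow, aeval_X, map_one] at this
  have fr : ∀ {x : Sp K} {n : ℕ}, (n : K) ≠ 0 → x ^ n = 1 → IsConj x (x ^ 3) := fun {x n} hn h =>
    isConj_sp_of_isSemisimple (ss hn h) (isConj_of_isSemisimple_of_charpoly_eq (ss hn h) (ss hn (by
      rw [← pow_mul, mul_comm, pow_mul, h, one_pow])) (by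
      rw [SubmonoidClass.coe_pow, ← hK, FiniteField.Matrix.charpoly_pow_card]))
  have five : ∀ {x : Sp K}, x.1 ^ 5 = 1 → Ty x := fun h => .inr (.inr (.inr ⟨Subtype.ext h,
    fr (fun e => two hK (by push_cast at e; linear_combination e - three hK)) (n := 5) (Subtype.ext h)⟩))
  have tw : g.1 ^ 12 = 1 → (g.1 ^ 4 - 1) * (g.1 ^ 6 - 1) = 0 → Ty g := fun h h' =>
    .inr (.inl ⟨Subtype.ext h, twelve hK h h'⟩)
  generalize g.1.charpoly.coeff 1 = a, g.1.charpoly.coeff 2 = b at e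
  rcases cases hK a with rfl | rfl | rfl <;> rcases cases hK b with rfl | rfl | rfl <;>
    simp only [map_zero, map_one, map_neg] at e
  · have h : g ^ 8 = 1 := Subtype.ext (by
      rw [SubmonoidClass.coe_pow, pow_mul _ 4 2, k2 4 1 (by rw [e]; ring), neg_one_sq]; rfl)
    have h8 : ((8 : ℕ) : K) ≠ 0 := fun e => two hK (by push_cast at e; linear_combination e - 2 * three hK)
    refine .inl (.inl ⟨h, fr h8 h, ?_⟩)
    rw [show g ^ 7 = g⁻¹ from eq_inv_of_mul_eq_one_left (by rw [← pow_succ, h])]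
    exact real h8 h
  · have h : g ^ 6 = 1 := Subtype.ext (k1 6 (X ^ 2 - 1) (by rw [e]; ring))
    exact .inl (.inr (.inl ⟨by rw [pow_mul _ 6 2, h, one_pow], by rw [pow_succ, h, one_mul]; exact IsConj.refl g⟩))
  · have h : g ^ 6 = ng := Subtype.ext (k2 6 (X ^ 2 + 1) (by rw [e]; ring))
    refine .inl (.inr (.inl ⟨by rw [pow_mul _ 6 2, h, ng_sq], ?_⟩))
    rw [pow_succ', h]
    have := key ((X ^ 2 + 1) ^ 2) 1 (by rw [e]; linear_combination X ^ 2 * z)
    rw [map_pow, map_add, map_pow, aeval_X, map_one] at this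
    exact conj_neg hK this
  · refine .inr (.inr (.inr (.inl (unip hK ?_))))
    have := key ((X + 1) ^ 4) 1 (by rw [e]; linear_combination (X + 2 * X ^ 2 + X ^ 3) * z)
    rw [mul_ng, ← neg_add', Even.neg_pow (by decide)]
    rwa [map_pow, map_add, aeval_X, map_one] at this
  · exact .inl (five (k1 5 (X - 1) (by rw [e]; ring)))
  · exact .inl (tw (k1 12 (-1 + X + X ^ 2 + X ^ 3 - X ^ 5 - X ^ 6 - X ^ 7 + X ^ 8)
      (by rw [e]; linear_combination (X ^ 10 - X ^ 2) * z))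
      (k3 (1 - X - X ^ 2 - X ^ 3 - X ^ 4 - X ^ 5 + X ^ 6)
        (by rw [e]; linear_combination (X ^ 2 + X ^ 5 + X ^ 8) * z)))
  · refine .inl (.inr (.inr (.inl (unip hK ?_))))
    have := key ((X - 1) ^ 4) 1 (by rw [e]; linear_combination (-X + 2 * X ^ 2 - X ^ 3) * z)
    rwa [map_pow, map_sub, aeval_X, map_one] at this
  · exact .inr (five (by rw [mul_ng, Odd.neg_pow (by decide), k2 5 (X + 1) (by rw [e]; ring), neg_neg]))
  · exact .inl (tw (k1 12 (-1 - X + X ^ 2 - X ^ 3 + X ^ 5 - X ^ 6 + X ^ 7 + X ^ 8)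
      (by rw [e]; linear_combination (X ^ 10 - X ^ 2) * z))
      (k3 (1 + X - X ^ 2 + X ^ 3 - X ^ 4 + X ^ 5 + X ^ 6)
        (by rw [e]; linear_combination (X ^ 2 - X ^ 5 + X ^ 8) * z)))

end CL.D4.U
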